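import Cfsg.Agent.Quad.SameAction

/-! Square-zero endomorphisms whose lines of unipotents lie in a linear group. -/

set_option autoImplicit false

namespace Cfsg.Agent.QPair

open Cfsg

variable {k : Type*} [Field k] {M : Type*} [AddCommGroup M] [Module k M]

local notation "GL'" => LinearMap.GeneralLinearGroup k M
local notation "End'" => Module.End k M

variable {G : Subgroup (LinearMap.GeneralLinearGroup k M)} {a b x y : Module.End k M}

/-- `x` is the map of some element of `G`. -/
def InG (G : Subgroup GL') (x : End') : Prop := ∃ g ∈ G, (g : End') = x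

theorem InG.one : InG G 1 := ⟨1, one_mem G, rfl⟩

theorem InG.mul (hx : InG G x) (hy : InG G y) : InG G (x * y) := by
  obtain ⟨g, hg, rfl⟩ := hx
  obtain ⟨h, hh, rfl⟩ := hy
  exact ⟨g * h, mul_mem hg hh, rfl⟩

/-- `a² = 0` and all `1 + c a` lie in `G`. -/
def Tame (G : Subgroup GL') (a : End') : Prop := a * a = 0 ∧ ∀ c : k, InG G (1 + c • a)

theorem Tame.sq (h : Tame G a) : a * a = 0 := h.1

theorem Tame.inG (h : Tame G a) : InG G (1 + a) := by simpa using h.2 1

theorem Tame.zero : Tame G (0 : End') := ⟨mul_zero _, fun c => by simpa using InG.one⟩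

theorem Tame.smul (h : Tame G a) (c : k) : Tame G (c • a) :=
  ⟨by rw [smul_mul_smul_comm, h.1, smul_zero], fun d => by rw [smul_smul]; exact h.2 _⟩

theorem Tame.neg (h : Tame G a) : Tame G (-a) := by simpa using h.smul (-1)

theorem Tame.add (ha : Tame G a) (hb : Tame G b) (hab : a * b = 0) (hba : b * a = 0) :
    Tame G (a + b) := by
  refine ⟨by rw [add_mul, mul_add, mul_add, ha.1, hb.1, hab, hba]; simp, fun c => ?_⟩
  have : (1 + c • (a + b) : End') = (1 + c • a) * (1 + c • b) := by
    rw [add_mul, mul_add, mul_add, smul_mul_smul_comm, hab]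
    simp [smul_add, add_assoc, add_comm, add_left_comm]
  rw [this]
  exact (ha.2 c).mul (hb.2 c)

theorem one_add_mul_one_sub (h : a * a = 0) : (1 + a) * (1 - a) = 1 := by
  rw [add_mul, mul_sub, mul_sub, h]; simp

theorem one_sub_mul_one_add (h : a * a = 0) : (1 - a) * (1 + a) = 1 := by
  rw [sub_mul, mul_add, mul_add, h]; simp

theorem Tame.conjUnit (h : Tame G a) {g : GL'} (hg : g ∈ G) :
    Tame G ((g : End') * a * ((g⁻¹ : GL') : End')) := by
  have e : ((g⁻¹ : GL') : End') * (g : End') = 1 := Units.inv_mul g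
  have e' : (g : End') * ((g⁻¹ : GL') : End') = 1 := Units.mul_inv g
  refine ⟨by rw [show (g : End') * a * ((g⁻¹ : GL') : End') * ((g : End') * a * ((g⁻¹ : GL') : End')) =
      (g : End') * (a * (((g⁻¹ : GL') : End') * (g : End')) * a) * ((g⁻¹ : GL') : End') by
      simp only [mul_assoc], e, mul_one, h.1, mul_zero, zero_mul], fun c => ?_⟩
  have : (1 + c • ((g : End') * a * ((g⁻¹ : GL') : End')) : End') =
      (g : End') * (1 + c • a) * ((g⁻¹ : GL') : End') := by
    rw [mul_add, add_mul, mul_one, e', mul_smul_comm, smul_mul_assoc]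
  rw [this]
  exact ((show InG G (g : End') from ⟨g, hg, rfl⟩).mul (h.2 c)).mul ⟨g⁻¹, inv_mem hg, rfl⟩

/-- conjugation of `b` by `1 + a` -/
theorem Tame.conjBy (hb : Tame G b) (ha : Tame G a) :
    Tame G (b + (a * b - b * a) - a * b * a) := by
  obtain ⟨g, hg, hge⟩ := ha.inG
  have hgi : ((g⁻¹ : GL') : End') = 1 - a :=
    Units.inv_eq_of_mul_eq_one_right (by rw [hge]; exact one_add_mul_one_sub ha.1)
  have := hb.conjUnit hg
  rw [hge, hgi] at this
  convert this using 1
  simp [add_mul, mul_sub, mul_assoc]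
  abel

/-- The rank. -/
noncomputable def rk (a : End') : ℕ := Module.finrank k (LinearMap.range a)

/-- `d` is the least rank of a non-zero tame element. -/
structure Deg (G : Subgroup GL') (d : ℕ) : Prop where
  two : (2 : k) ≠ 0
  three : Nat.card k ≠ 3
  pos : 0 < d
  min : ∀ a : End', Tame G a → rk a < d → a = 0

/-- a tame element of least rank -/
structure Root (G : Subgroup GL') (d : ℕ) (a : End') : Prop where
  tame : Tame G a
  rank : rk a = d

/-- the line space of a root -/
structure InL (G : Subgroup GL') (a x : End') : Prop where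
  tame : Tame G x
  im : LinearMap.range x ≤ LinearMap.range a
  ker : LinearMap.ker a ≤ LinearMap.ker x

theorem Root.sq {d : ℕ} (ha : Root G d a) : a * a = 0 := ha.tame.sq

theorem mul_eq_zero_iff : x * y = 0 ↔ LinearMap.range y ≤ LinearMap.ker x :=
  LinearMap.range_le_ker_iff.symm

theorem range_le_ker (ha : a * a = 0) : LinearMap.range a ≤ LinearMap.ker a := mul_eq_zero_iff.1 ha

theorem InL.refl (ha : Tame G a) : InL G a a := ⟨ha, le_rfl, le_rfl⟩

theorem InL.zero : InL G a 0 := ⟨Tame.zero, by simp, by simp⟩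

theorem InL.mul_zero (ha : a * a = 0) (hx : InL G a x) (hy : InL G a y) : x * y = 0 :=
  mul_eq_zero_iff.2 ((hy.im.trans (range_le_ker ha)).trans hx.ker)

theorem InL.add (ha : a * a = 0) (hx : InL G a x) (hy : InL G a y) : InL G a (x + y) :=
  ⟨hx.tame.add hy.tame (hx.mul_zero ha hy) (hy.mul_zero ha hx), by
    rintro _ ⟨m, rfl⟩
    exact add_mem (hx.im (LinearMap.mem_range_self x m)) (hy.im (LinearMap.mem_range_self y m)),
    fun m hm => by
      simp [LinearMap.mem_ker, LinearMap.add_apply, LinearMap.mem_ker.1 (hx.ker hm),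
        LinearMap.mem_ker.1 (hy.ker hm)]⟩

theorem InL.smul (hx : InL G a x) (c : k) : InL G a (c • x) :=
  ⟨hx.tame.smul c, by
    rintro _ ⟨m, rfl⟩
    exact Submodule.smul_mem _ c (hx.im (LinearMap.mem_range_self x m)),
    fun m hm => by simp [LinearMap.mem_ker, LinearMap.mem_ker.1 (hx.ker hm)]⟩

theorem InL.neg (hx : InL G a x) : InL G a (-x) := by simpa using hx.smul (-1)

theorem InL.sub (ha : a * a = 0) (hx : InL G a x) (hy : InL G a y) : InL G a (x - y) := by
  simpa [sub_eq_add_neg] using hx.add ha hy.neg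

section finite

variable [FiniteDimensional k M] {d : ℕ}

theorem rk_mul_le_left (x y : End') : rk (x * y) ≤ rk x :=
  Submodule.finrank_mono (LinearMap.range_comp_le_range y x)

theorem rk_mul_le_right (x y : End') : rk (x * y) ≤ rk y := by
  have : LinearMap.range (x * y) = (LinearMap.range y).map x := LinearMap.range_comp y x
  rw [rk, this]
  exact Submodule.finrank_map_le x _

theorem Deg.rank_eq (hd : Deg G d) (ha : Root G d a) (hx : InL G a x) (h0 : x ≠ 0) : rk x = d := by
  refine le_antisymm ((Submodule.finrank_mono hx.im).trans ha.rank.le) ?_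
  by_contra h
  exact h0 (hd.min x hx.tame (not_le.1 h))

theorem InL.root (hd : Deg G d) (ha : Root G d a) (hx : InL G a x) (h0 : x ≠ 0) : Root G d x :=
  ⟨hx.tame, hd.rank_eq ha hx h0⟩

theorem InL.range_eq (hd : Deg G d) (ha : Root G d a) (hx : InL G a x) (h0 : x ≠ 0) :
    LinearMap.range x = LinearMap.range a :=
  Submodule.eq_of_le_of_finrank_le hx.im (le_of_eq (ha.rank.trans (hd.rank_eq ha hx h0).symm))

theorem InL.ker_eq (hd : Deg G d) (ha : Root G d a) (hx : InL G a x) (h0 : x ≠ 0) :
    LinearMap.ker x = LinearMap.ker a := by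
  refine (Submodule.eq_of_le_of_finrank_le hx.ker ?_).symm
  have h1 := LinearMap.finrank_range_add_finrank_ker x
  have h2 := LinearMap.finrank_range_add_finrank_ker a
  have h3 := hd.rank_eq ha hx h0
  have h4 := ha.rank
  simp only [rk] at h3 h4
  omega

theorem InL.symm (hd : Deg G d) (ha : Root G d a) (hx : InL G a x) (h0 : x ≠ 0) : InL G x a :=
  ⟨ha.tame, (hx.range_eq hd ha h0).ge, (hx.ker_eq hd ha h0).le⟩

theorem InL.of_eq (hy : Tame G y) (hr : LinearMap.range y = LinearMap.range a)
    (hk : LinearMap.ker y = LinearMap.ker a) : InL G a y := ⟨hy, hr.le, hk.ge⟩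

end finite

end Cfsg.Agent.QPair
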