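import Cfsg.Agent.QPair.Split

/-! The decomposition of a quadratic pair into commuting quasisimple parts. -/

set_option autoImplicit false
set_option linter.style.haveILetI false

namespace Cfsg.Agent.QPair

open Cfsg Cfsg.Agent.Quad

variable {k : Type*} [Field k] {M : Type*} [AddCommGroup M] [Module k M] [FiniteDimensional k M]

local notation "GL'" => LinearMap.GeneralLinearGroup k M
local notation "End'" => Module.End k M
local notation "Sig" => quadraticRootSubgroups

variable {G : Subgroup (LinearMap.GeneralLinearGroup k M)} {a b q u w x : Module.End k M} {d : ℕ}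
  {A0 : Subgroup (LinearMap.GeneralLinearGroup k M)} {g : LinearMap.GeneralLinearGroup k M}

theorem comm_GG (hs : Std G d) {τ : GL'} (h : ∀ a, InComp G d A0 a → a * dev τ = dev τ * a) :
    ∀ n ∈ GG (comp G A0), n * τ = τ * n := by
  have hd := hs.deg
  intro n hn
  have : GG (comp G A0) ≤ Subgroup.centralizer {τ} := iSup₂_le fun B hB z hz => by
    rw [Subgroup.mem_centralizer_singleton_iff]
    obtain ⟨b, hb, rfl⟩ := exists_root hs hB.1
    refine comm_iff.2 ?_
    have hy := (mem_RS hd hb).1 hz
    by_cases h0 : dev z = 0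
    · simp [h0]
    have hr := hy.root hd hb h0
    exact h _ ⟨hr, RS_eq hd hb hr hy ▸ hB⟩
  exact Subgroup.mem_centralizer_singleton_iff.1 (this hn)

/-- an element commuting with the component kills it once it kills one root -/
theorem kill_comp (hss : SS G) (hs : Std G d) {r : End'} (hr : r * r = 0)
    (h : ∀ a, InComp G d A0 a → a * r = r * a) (hu : InComp G d A0 u) (h0 : r * u = 0)
    (ha : InComp G d A0 a) : r * a = 0 := by
  have hd := hs.deg
  obtain ⟨huR, huP⟩ := hu
  obtain ⟨haR, haP⟩ := ha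
  have hcomm := comm_GG (A0 := A0) hs (τ := uu r hr) (by simpa [dev_uu] using h)
  have key : ∀ C, Relation.ReflTransGen (FAdj (Sig G)) (RS G u huR.sq) C →
      ∀ c (hc : Root G d c), RS G c hc.sq = C → r * c = 0 := by
    intro C hC
    induction hC with
    | refl =>
      intro c hc e
      have : InL G u c := by
        have := (mem_RS hd huR).1 (e ▸ uu_mem_RS hd hc (InL.refl hc.tame))
        rwa [dev_uu] at this
      exact mul_zero_right this.im h0
    | @tail B D hB hBD ih =>
      intro c hc e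
      subst e
      obtain ⟨b, hb, rfl⟩ := exists_root hs hBD.1
      obtain ⟨x, hx, hx0, F⟩ := exists_frame hd hb hc ((rankOne_iff hd hb hc).1 hBD.2.2)
      have hBc : RS G b hb.sq ∈ comp G A0 := ⟨hBD.1, huP.2.trans hB⟩
      have hDc : RS G c hc.sq ∈ comp G A0 := ⟨hBD.2.1, huP.2.trans (hB.tail hBD)⟩
      have hn : F.swapper ∈ GG (comp G A0) :=
        sup_le (le_GG hBc) (RS_eq hd hc F.right hx ▸ le_GG hDc) (F.swapper_mem hd)
      have hnr := comm_iff.1 (hcomm _ hn)
      rw [dev_uu] at hnr
      have hvr : (F.swapper : End') * r = r * (F.swapper : End') := by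
        rw [val_eq F.swapper, add_mul, mul_add, one_mul, mul_one, hnr]
      have hrx : r * x = 0 := by
        have h1 : r * (((F.swapper : GL') : End') * b * ((F.swapper⁻¹ : GL') : End')) = 0 := by
          rw [← mul_assoc, ← mul_assoc, ← hvr, mul_assoc _ r b, ih b hb rfl, mul_zero, zero_mul]
        rwa [F.swap_left, mul_neg, neg_eq_zero] at h1
      exact mul_zero_right (hx.range_eq hd hc hx0).ge hrx
  exact key _ ((reach_symm huP.2).trans haP.2) a haR rfl

/-- `G` sits in an irreducible group whose quadratic elements lie in `G` or centralise it -/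
structure Amb (G0 G : Subgroup GL') : Prop where
  le : G ≤ G0
  irr : IsIrreducibleFor G0
  gen0 : Subgroup.closure (quadraticElements G0) = G0
  gen : Subgroup.closure (quadraticElements G) = G
  ss : SS G
  alt : ∀ σ ∈ quadraticElements G0, σ ∈ quadraticElements G ∨ ∀ g ∈ G, g * σ = σ * g

variable {G0 : Subgroup (LinearMap.GeneralLinearGroup k M)}

/-- a map killing a whole component vanishes -/
theorem zero_of_kill (hA : Amb G0 G) (hs : Std G d) {r : End'} (hu : InComp G d A0 u)
    (h : ∀ b, InComp G d A0 b → r * b = 0) : r = 0 := by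
  set W : Submodule k M := ⨆ b ∈ {b | InComp G d A0 b}, LinearMap.range b
  have step : ∀ σ : GL', (σ ∈ G ∨ ∀ g ∈ G, g * σ = σ * g) → ∀ m ∈ W, (σ : End') m ∈ W := by
    intro σ hσ
    suffices W ≤ W.comap (σ : End') from fun m hm => this hm
    refine iSup₂_le fun b hb => ?_
    rintro _ ⟨m, rfl⟩
    have hσi : ((σ⁻¹ : GL') : End') * (σ : End') = 1 := Units.inv_mul σ
    rcases hσ with hσ | hσ
    · refine Submodule.mem_iSup_of_mem _ (Submodule.mem_iSup_of_mem
        (InComp.conj hA.ss hs hA.gen hb hσ) ?_)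
      refine ⟨(σ : End') m, ?_⟩
      rw [Module.End.mul_apply, Module.End.mul_apply, ← Module.End.mul_apply ((σ⁻¹ : GL') : End'), hσi,
        Module.End.one_apply]
    · refine Submodule.mem_iSup_of_mem _ (Submodule.mem_iSup_of_mem hb ⟨(σ : End') m, ?_⟩)
      have e := congrArg (fun t : GL' => (t : End')) (hσ _ (uu_mem hb.1.tame))
      simp only [Units.val_mul, uu_val, mul_add, add_mul, one_mul, mul_one, add_right_inj] at e
      rw [← Module.End.mul_apply, e, Module.End.mul_apply]
  have hinv : ∀ g ∈ G0, ∀ m ∈ W, (g : M →ₗ[k] M) m ∈ W := by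
    intro g hg
    rw [← hA.gen0] at hg
    induction hg using Subgroup.closure_induction_left with
    | one => intro m hm; simpa using hm
    | mul_left x hx y _ ih =>
      intro m hm
      rw [Units.val_mul, Module.End.mul_apply]
      exact step x ((hA.alt x hx).imp (fun h => h.1) id) _ (ih m hm)
    | inv_mul_cancel x hx y _ ih =>
      intro m hm
      rw [Units.val_mul, Module.End.mul_apply]
      refine step x⁻¹ ((hA.alt x hx).imp (fun h => inv_mem h.1) fun h g hg => ?_) _ (ih m hm)
      exact (Commute.inv_right (h g hg : Commute g x)).eq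
  rcases hA.irr.2 W hinv with hb | ht
  · refine absurd (LinearMap.range_eq_bot.1 (le_bot_iff.1 (hb ▸ ?_))) (root_ne_zero hs.deg hu.1)
    exact le_iSup₂ (f := fun b _ => LinearMap.range b) u hu
  · rw [← LinearMap.ker_eq_top, eq_top_iff, ← ht]
    exact iSup₂_le fun b hb => mul_eq_zero_iff.1 (h b hb)

/-- the main dichotomy -/
theorem split_element (hA : Amb G0 G) (hs : Std G d)
    (A0 : Subgroup GL') : ∀ (n : ℕ) (q : End') (hq : Tame G q), rk q = n →
      (∀ a, InComp G d A0 a → a * q = q * a) ∨ uu q hq.sq ∈ GG (comp G A0) := by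
  have hss := hA.ss
  have hgen := hA.gen
  intro n
  induction n using Nat.strong_induction_on with
  | _ n ih =>
    intro q hq hn
    by_cases hall : ∀ a, InComp G d A0 a → a * q = q * a
    · exact Or.inl hall
    push Not at hall
    obtain ⟨a, ha, hne⟩ := hall
    obtain ⟨u, hu, hqu, huq, hrk⟩ := exists_base hss hs hgen ha hq hne
    obtain ⟨w, hw, F⟩ := InComp.exists_opp hss hs hu
    obtain ⟨hr, hmem⟩ := peel hss hs hgen hu hw F hq hqu huq
    refine Or.inr ?_
    rcases ih _ (hn ▸ hrk w F) _ hr rfl with h | h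
    · have hru : e0 u w * q * e0 u w * u = 0 := by
        rw [mul_assoc, F.e0_mul (InL.refl F.left.tame), mul_zero]
      have h0 : e0 u w * q * e0 u w = 0 := by
        by_contra h0
        have hz : ∀ b, InComp G d A0 b → e0 u w * q * e0 u w * b = 0 := fun b hb =>
          kill_comp hss hs hr.sq h hu hru hb
        exact h0 (zero_of_kill hA hs hu hz)
      have e : uu (e0 u w * q * e0 u w) hr.sq = 1 := Units.ext (by rw [uu_val, h0, add_zero]; rfl)
      rwa [e, inv_one, mul_one] at hmem
    · have := mul_mem hmem h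
      rwa [inv_mul_cancel_right] at this

theorem exists_std_of_nonempty (h2 : ringChar k ≠ 2) (h3 : Nat.card k ≠ 3) {H : Subgroup GL'}
    (h : (quadraticElements H).Nonempty) : ∃ σ ∈ minimalQuadraticElements H, ∃ d, Std H d := by
  classical
  have hex : ∃ n, ∃ σ ∈ quadraticElements H, commutatorRank σ = n := ⟨_, _, h.some_mem, rfl⟩
  obtain ⟨σ, hσ, e⟩ := Nat.find_spec hex
  have hm : σ ∈ minimalQuadraticElements H :=
    ⟨hσ, fun τ hτ => e.le.trans (Nat.find_min' hex ⟨τ, hτ, rfl⟩)⟩
  exact ⟨σ, hm, exists_std h2 h3 hm⟩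

omit [FiniteDimensional k M] in
theorem quad_mono {H : Subgroup GL'} (h : H ≤ G) : quadraticElements H ⊆ quadraticElements G :=
  fun _ hσ => ⟨h hσ.1, hσ.2.1, hσ.2.2.trans h⟩

/-- each quadratic element lies in a component group or centralises all -/
theorem quad_split (hA : Amb G0 G) (hs : Std G d) {σ : GL'} (hσ : σ ∈ quadraticElements G) :
    (∃ B ∈ Sig G, σ ∈ GG (comp G B)) ∨ ∀ n ∈ GG (Sig G), n * σ = σ * n := by
  have hq := tame_of_quadratic hσ
  by_cases h : ∃ B ∈ Sig G, σ ∈ GG (comp G B)
  · exact Or.inl h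
  refine Or.inr fun n hn => ?_
  have : GG (Sig G) ≤ Subgroup.centralizer {σ} := iSup₂_le fun B hB z hz => by
    rw [Subgroup.mem_centralizer_singleton_iff]
    rcases split_element hA hs B _ _ hq rfl with h1 | h1
    · exact comm_GG hs h1 z (le_GG (mem_comp_self hB) hz)
    · rw [← eq_uu hq.sq] at h1
      exact absurd ⟨B, hB, h1⟩ h
  exact Subgroup.mem_centralizer_singleton_iff.1 (this hn)

/-- a family as asserted for a quadratic pair -/
structure Fam (G0 H : Subgroup GL') (F : Set (Subgroup GL')) : Prop where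
  fin : F.Finite
  le : ∀ K ∈ F, K ≤ H
  qs : ∀ K ∈ F, IsQuasisimple ↥K
  gen : ∀ K ∈ F, Subgroup.closure (quadraticElements G0 ∩ (K : Set GL')) = K
  norm : ∀ K ∈ F, ∀ g ∈ G0, ∀ n ∈ K, g * n * g⁻¹ ∈ K
  comm : ∀ K ∈ F, ∀ L ∈ F, K ≠ L → ⁅K, L⁆ = ⊥
  cover : ∀ σ ∈ quadraticElements H, ∃ K ∈ F, σ ∈ K

theorem exists_fam (h2 : ringChar k ≠ 2) (h3 : Nat.card k ≠ 3) : ∀ (n : ℕ) (H : Subgroup GL'),
    Amb G0 H → Module.finrank k ↥(Submodule.span k (dev '' quadraticElements H)) = n →
      ∃ F, Fam G0 H F := by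
  intro n
  induction n using Nat.strong_induction_on with
  | _ n ih =>
    intro H hA hn
    by_cases hne : (quadraticElements H).Nonempty
    swap
    · refine ⟨∅, Set.finite_empty, ?_, ?_, ?_, ?_, ?_, fun σ hσ => absurd ⟨σ, hσ⟩ hne⟩ <;> simp
    obtain ⟨σ0, hσ0, d, hs⟩ := exists_std_of_nonempty h2 h3 hne
    have hd := hs.deg
    have hSig : sameActionSubgroup H σ0 ∈ Sig H := ⟨σ0, hσ0, rfl⟩
    have hGG : GG (Sig H) ≤ H := GG_le hs fun _ h => h
    set S : Set GL' := {σ | σ ∈ quadraticElements H ∧ ∀ n ∈ GG (Sig H), n * σ = σ * n}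
    set H' := Subgroup.closure S
    have hH' : H' ≤ H := (Subgroup.closure_le H).2 fun σ hσ => hσ.1.1
    have hcent : ∀ g ∈ H', ∀ n ∈ GG (Sig H), n * g = g * n := fun g hg n hn => by
      have : H' ≤ Subgroup.centralizer {n} := (Subgroup.closure_le _).2 fun σ hσ =>
        Subgroup.mem_centralizer_singleton_iff.2 (hσ.2 n hn).symm
      exact (Subgroup.mem_centralizer_singleton_iff.1 (this hg)).symm
    have hQ : quadraticElements H' = S := by
      refine Set.Subset.antisymm (fun σ hσ => ⟨quad_mono hH' hσ, hcent σ hσ.1⟩) fun σ hσ => ?_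
      refine ⟨Subgroup.subset_closure hσ, hσ.1.2.1, ?_⟩
      rintro t ⟨c, hc⟩
      by_cases ht : t = 1
      · rw [ht]; exact one_mem H'
      refine Subgroup.subset_closure ⟨?_, fun m hm => ?_⟩
      · have hdt : dev t = c • dev σ := by rw [dev, hc]; exact add_sub_cancel_left _ _
        refine quadratic_of_tame ?_ (fun e => ht (dev_eq_zero.1 e))
        rw [hdt]; exact (tame_of_quadratic hσ.1).smul c
      · have hdt : dev t = c • dev σ := by rw [dev, hc]; exact add_sub_cancel_left _ _
        refine comm_iff.2 ?_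
        rw [hdt, mul_smul_comm, smul_mul_assoc, comm_iff.1 (hσ.2 m hm)]
    have hnormS : ∀ g ∈ H, ∀ m ∈ GG (Sig H), g * m * g⁻¹ ∈ GG (Sig H) := fun g hg => by
      have : GG (Sig H) ≤ (GG (Sig H)).comap (MulAut.conj g).toMonoidHom := iSup₂_le fun B hB z hz =>
        le_GG (sigma_conj hs hB hg) (Subgroup.mem_map.2 ⟨z, hz, rfl⟩)
      exact fun m hm => this hm
    have hnorm' : ∀ g ∈ H, ∀ m ∈ H', g * m * g⁻¹ ∈ H' := fun g hg => by
      have : H' ≤ H'.comap (MulAut.conj g).toMonoidHom := (Subgroup.closure_le _).2 fun σ hσ => by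
        refine Subgroup.subset_closure ⟨quadratic_of_tame (σ := g * σ * g⁻¹) ?_ ?_, fun m hm => ?_⟩
        · rw [dev_conj]; exact (tame_of_quadratic hσ.1).conjUnit hg
        · intro e
          refine hσ.1.2.1.2 (dev_eq_zero.2 ?_)
          simpa using dev_eq_zero.1 e
        · show m * (g * σ * g⁻¹) = g * σ * g⁻¹ * m
          have := hσ.2 _ (hnormS g⁻¹ (inv_mem hg) m hm)
          calc m * (g * σ * g⁻¹) = g * ((g⁻¹ * m * g⁻¹⁻¹) * σ) * g⁻¹ := by group
            _ = g * σ * g⁻¹ * m := by rw [this]; group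
      exact fun m hm => this hm
    have hA' : Amb G0 H' := by
      refine ⟨hH'.trans hA.le, hA.irr, hA.gen0, by rw [hQ], hA.ss.normal hH' hnorm', fun σ hσ => ?_⟩
      rcases hA.alt σ hσ with h | h
      · rcases quad_split hA hs h with ⟨B, hB, hm⟩ | hc
        · refine Or.inr fun g hg => (hcent g hg σ ?_).symm
          exact (iSup₂_le fun C hC => le_GG hC.1 : GG (comp H B) ≤ GG (Sig H)) hm
        · exact Or.inl (hQ ▸ ⟨h, hc⟩)
      · exact Or.inr fun g hg => h g (hH' hg)
    obtain ⟨a, ha, hAeq⟩ := exists_root hs hSig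
    obtain ⟨x, hx, F⟩ := InComp.exists_opp hA.ss hs (A0 := RS H a ha.sq) ⟨ha, mem_comp_self (RS_mem hd ha)⟩
    have hlt : Submodule.span k (dev '' quadraticElements H') < Submodule.span k (dev '' quadraticElements H) := by
      refine lt_of_le_of_ne (Submodule.span_mono (Set.image_mono (quad_mono hH'))) fun e => ?_
      have hain : a ∈ Submodule.span k (dev '' quadraticElements H') := by
        rw [e]
        exact Submodule.subset_span ⟨_, quadratic_uu ha.tame (root_ne_zero hd ha), dev_uu ha.sq⟩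
      have hc : ∀ z ∈ Submodule.span k (dev '' quadraticElements H'), z * x = x * z := by
        intro z hz
        induction hz using Submodule.span_induction with
        | mem z hz =>
          obtain ⟨τ, hτ, rfl⟩ := hz
          rw [hQ] at hτ
          have := comm_iff.1 (hτ.2 _ (le_GG (RS_mem hd F.right) (uu_mem_RS hd F.right (InL.refl F.right.tame))))
          rw [dev_uu] at this
          exact this.symm
        | zero => simp
        | add p r _ _ hp hr => rw [add_mul, mul_add, hp, hr]
        | smul c p _ hp => rw [smul_mul_assoc, mul_smul_comm, hp]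
      have h0 := aba_of_comm ha.sq (hc a hain)
      rw [F.axa] at h0
      exact root_ne_zero hd ha h0
    obtain ⟨F', hF'⟩ := ih _ (hn ▸ Submodule.finrank_lt_finrank_of_lt hlt) H' hA' rfl
    have hsub : ∀ B, GG (comp H B) ≤ GG (Sig H) := fun B => iSup₂_le fun C hC => le_GG hC.1
    refine ⟨GG '' comps H ∪ F', ?_, ?_, ?_, ?_, ?_, ?_, ?_⟩
    · exact ((comps_finite hA.ss hs).image _).union hF'.fin
    · rintro K (⟨_, ⟨B, hB, rfl⟩, rfl⟩ | hK)
      · exact (hsub B).trans hGG
      · exact (hF'.le K hK).trans hH'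
    · rintro K (⟨_, ⟨B, hB, rfl⟩, rfl⟩ | hK)
      · exact quasisimple hA.ss hs hB
      · exact hF'.qs K hK
    · rintro K (⟨_, ⟨B, hB, rfl⟩, rfl⟩ | hK)
      · refine le_antisymm ((Subgroup.closure_le _).2 fun z hz => hz.2) (iSup₂_le fun C hC z hz => ?_)
        obtain ⟨c, hc, rfl⟩ := exists_root hs hC.1
        by_cases h0 : dev z = 0
        · rw [dev_eq_zero.1 h0]; exact one_mem _
        · exact Subgroup.subset_closure
            ⟨quad_mono hA.le (quadratic_of_tame ((mem_RS hd hc).1 hz).tame h0), le_GG hC hz⟩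
      · exact hF'.gen K hK
    · rintro K (⟨_, ⟨B, hB, rfl⟩, rfl⟩ | hK)
      · have cases' : ∀ x ∈ quadraticElements G0, ∀ y : GL', (y = x ∨ y = x⁻¹) → ∀ n ∈ GG (comp H B),
            y * n * y⁻¹ ∈ GG (comp H B) := by
          intro x hx y hy n hn
          rcases hA.alt x hx with h | h
          · have hyH : y ∈ H := by rcases hy with rfl | rfl; exacts [h.1, inv_mem h.1]
            exact conj_GG hA.ss hs hA.gen hyH hn
          · have hc : Commute n y := by
              have hh : Commute n x := h n (hGG (hsub B hn))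
              rcases hy with rfl | rfl; exacts [hh, hh.inv_right]
            rwa [hc.symm.eq, mul_inv_cancel_right]
        intro g hg
        rw [← hA.gen0] at hg
        induction hg using Subgroup.closure_induction_left with
        | one => intro n hn; simpa using hn
        | mul_left x hx y _ ih =>
          intro n hn
          rw [show x * y * n * (x * y)⁻¹ = x * (y * n * y⁻¹) * x⁻¹ by group]
          exact cases' x hx x (Or.inl rfl) _ (ih n hn)
        | inv_mul_cancel x hx y _ ih =>
          intro n hn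
          rw [show x⁻¹ * y * n * (x⁻¹ * y)⁻¹ = x⁻¹ * (y * n * y⁻¹) * x⁻¹⁻¹ by group]
          exact cases' x hx x⁻¹ (Or.inr rfl) _ (ih n hn)
      · exact hF'.norm K hK
    · have cross : ∀ K ∈ GG '' comps H, ∀ L ∈ F', ⁅K, L⁆ = ⊥ := by
        rintro _ ⟨_, ⟨B, hB, rfl⟩, rfl⟩ L hL
        rw [Subgroup.commutator_eq_bot_iff_le_centralizer]
        intro z hz
        exact Subgroup.mem_centralizer_iff.2 fun l hl => (hcent l (hF'.le L hL hl) z (hsub B hz)).symm
      rintro K (hK | hK) L (hL | hL) hne
      · obtain ⟨_, ⟨B, hB, rfl⟩, rfl⟩ := hK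
        obtain ⟨_, ⟨C, hC, rfl⟩, rfl⟩ := hL
        rw [Subgroup.commutator_eq_bot_iff_le_centralizer]
        refine iSup₂_le fun X hX => ?_
        rw [Subgroup.le_centralizer_iff]
        refine iSup₂_le fun Y hY => ?_
        rw [Subgroup.le_centralizer_iff, ← Subgroup.commutator_eq_bot_iff_le_centralizer]
        exact comm_of_comp_ne hA.ss hs hX.1 hY.1 fun h => hne (by rw [← comp_eq hX, ← comp_eq hY, h])
      · exact cross K hK L hL
      · rw [Subgroup.commutator_comm]; exact cross L hL K hK
      · exact hF'.comm K hK L hL hne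
    · intro σ hσ
      rcases quad_split hA hs hσ with ⟨B, hB, hm⟩ | hc
      · exact ⟨_, Or.inl ⟨_, ⟨B, hB, rfl⟩, rfl⟩, hm⟩
      · obtain ⟨K, hK, hm⟩ := hF'.cover σ (hQ ▸ ⟨hσ, hc⟩)
        exact ⟨K, Or.inr hK, hm⟩

end Cfsg.Agent.QPair
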