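import Cfsg.Agent.QPair.RankOne

/-! Every root has an opposite conjugate. -/

set_option autoImplicit false

namespace Cfsg.Agent.QPair

open Cfsg Cfsg.Agent.Quad

variable {k : Type*} [Field k] {M : Type*} [AddCommGroup M] [Module k M]

local notation "GL'" => LinearMap.GeneralLinearGroup k M
local notation "End'" => Module.End k M

variable {G : Subgroup (LinearMap.GeneralLinearGroup k M)} {c t u w : Module.End k M} {d : ℕ}
  {g : LinearMap.GeneralLinearGroup k M}

theorem smul_le_R {A B : Submodule k End'} (C : Submodule k End') (h : A ≤ B) : C * A ≤ C * B :=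
  Submodule.mul_le.2 fun _ hu _ hv => Submodule.mul_mem_mul hu (h hv)

theorem smul_le_L {A B : Submodule k End'} (C : Submodule k End') (h : A ≤ B) : A * C ≤ B * C :=
  Submodule.mul_le.2 fun _ hu _ hv => Submodule.mul_mem_mul (h hu) hv

theorem step_bound {P : Submodule k End'} {x : End'} (hx : x * x = 0)
    (hP : ∀ p ∈ P, x * p - p * x ∈ P) (N : ℕ) (hN : P ^ N = ⊥) :
    (P ⊔ Submodule.span k {x}) ^ (2 * N) = ⊥ := by
  set X := Submodule.span k {x}
  set Q := P ⊔ X
  have hXP : X * P ≤ P * X ⊔ P := by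
    refine Submodule.mul_le.2 fun u hu p hp => ?_
    obtain ⟨r, rfl⟩ := Submodule.mem_span_singleton.1 hu
    rw [smul_mul_assoc, show x * p = p * x + (x * p - p * x) by abel]
    exact Submodule.smul_mem _ r (add_mem
      (Submodule.mem_sup_left (Submodule.mul_mem_mul hp (Submodule.mem_span_singleton_self x)))
      (Submodule.mem_sup_right (hP p hp)))
  have hXX : X * X = ⊥ := by
    rw [Submodule.span_mul_span, Set.singleton_mul_singleton, hx, Submodule.span_zero_singleton]
  have hXPm : ∀ m, X * P ^ (m + 1) ≤ P ^ (m + 1) * X ⊔ P ^ (m + 1) := by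
    intro m
    induction m with
    | zero => simpa using hXP
    | succ m ih =>
      calc X * P ^ (m + 2) = X * P ^ (m + 1) * P := by rw [pow_succ P (m + 1), mul_assoc]
        _ ≤ (P ^ (m + 1) * X ⊔ P ^ (m + 1)) * P := smul_le_L _ ih
        _ = P ^ (m + 1) * (X * P) ⊔ P ^ (m + 2) := by rw [Submodule.sup_mul, mul_assoc, ← pow_succ]
        _ ≤ P ^ (m + 1) * (P * X ⊔ P) ⊔ P ^ (m + 2) := sup_le_sup_right (smul_le_R _ hXP) _
        _ = P ^ (m + 2) * X ⊔ P ^ (m + 2) := by
          rw [Submodule.mul_sup, ← mul_assoc, ← pow_succ, sup_assoc, sup_idem]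
  have htop : ∀ A : Submodule k End', A ≤ A * ⊤ := fun A a ha => by
    simpa using Submodule.mul_mem_mul ha (Submodule.mem_top (x := (1 : End')))
  have hQQ : Q * Q ≤ P * Q ⊔ P := by
    show (P ⊔ X) * Q ≤ _
    rw [Submodule.sup_mul]
    refine sup_le le_sup_left ?_
    show X * (P ⊔ X) ≤ _
    rw [Submodule.mul_sup, hXX, sup_bot_eq]
    exact hXP.trans (sup_le_sup_right (smul_le_R _ le_sup_right) _)
  have key : ∀ m, Q ^ (2 * (m + 1)) ≤ P ^ (m + 1) * ⊤ := by
    intro m
    induction m with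
    | zero =>
      rw [show 2 * (0 + 1) = 2 from rfl, pow_two, pow_one]
      exact hQQ.trans (sup_le (smul_le_R _ le_top) (htop P))
    | succ m ih =>
      have h1 : Q * P ^ (m + 1) ≤ P ^ (m + 1) * ⊤ := by
        show (P ⊔ X) * _ ≤ _
        rw [Submodule.sup_mul]
        refine sup_le ?_ ((hXPm m).trans (sup_le (smul_le_R _ le_top) (htop _)))
        rw [← pow_succ', pow_succ]
        exact smul_le_R _ le_top
      calc Q ^ (2 * (m + 1 + 1)) = Q * Q * Q ^ (2 * (m + 1)) := by
            rw [show 2 * (m + 1 + 1) = 2 + 2 * (m + 1) by ring, pow_add, pow_two]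
        _ ≤ (P * Q ⊔ P) * (P ^ (m + 1) * ⊤) := (smul_le_L _ hQQ).trans (smul_le_R _ ih)
        _ ≤ P ^ (m + 1 + 1) * ⊤ := by
          rw [Submodule.sup_mul, ← mul_assoc P (P ^ (m + 1)), ← pow_succ']
          refine sup_le ?_ le_rfl
          calc P * Q * (P ^ (m + 1) * ⊤) = P * (Q * P ^ (m + 1)) * ⊤ := by simp only [mul_assoc]
            _ ≤ P * (P ^ (m + 1) * ⊤) * ⊤ := smul_le_L _ (smul_le_R _ h1)
            _ = P ^ (m + 1 + 1) * (⊤ * ⊤) := by rw [pow_succ' P (m + 1)]; simp only [mul_assoc]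
            _ ≤ P ^ (m + 1 + 1) * ⊤ := smul_le_R _ le_top
  rcases N with _ | N
  · rw [pow_zero] at hN
    rw [mul_zero, pow_zero, hN]
  · have h := key N
    rw [hN, Submodule.bot_mul] at h
    exact le_bot_iff.1 h

/-- A set of square-zero maps closed under commutators generates a nilpotent algebra. -/
theorem nilpotent_span [FiniteDimensional k M] (S : Set End') (hsq : ∀ t ∈ S, t * t = 0)
    (hz : ∀ t ∈ S, ∀ u ∈ S, zz t u ∈ S) : ∃ N, Submodule.span k S ^ N = ⊥ := by
  let good : Set (Submodule k End') := {P | P = Submodule.span k (S ∩ (P : Set End')) ∧ ∃ N, P ^ N = ⊥}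
  have hne : (⊥ : Submodule k End') ∈ good :=
    ⟨le_antisymm bot_le (Submodule.span_le.2 fun t ht => ht.2), 1, pow_one _⟩
  obtain ⟨P, ⟨hP, N, hN⟩, hmax⟩ := (wellFounded_gt (α := Submodule k End')).has_min good ⟨_, hne⟩
  by_cases hall : S ⊆ (P : Set End')
  · refine ⟨N, ?_⟩
    rwa [show Submodule.span k S = P from le_antisymm (Submodule.span_le.2 hall)
      (hP.le.trans (Submodule.span_mono Set.inter_subset_left))]
  exfalso
  -- an element outside normalising `P`
  obtain ⟨x, hx, hxP, hnorm⟩ : ∃ x ∈ S, x ∉ P ∧ ∀ t ∈ S, t ∈ P → zz t x ∈ P := by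
    by_contra hno
    push Not at hno
    obtain ⟨x0, hx0, hx0P⟩ := Set.not_subset.1 hall
    let U : ℕ → Submodule k End' := fun n =>
      ⨆ i ∈ Finset.range (n + 1), P ^ i * Submodule.span k {x0} * P ^ (n - i)
    have hstep : ∀ n, ∀ y ∈ U n, ∀ t ∈ P, t * y ∈ U (n + 1) ∧ y * t ∈ U (n + 1) := by
      intro n y hy t ht
      have hl : P * U n ≤ U (n + 1) := by
        simp only [U, Submodule.mul_iSup]
        refine iSup₂_le fun i hi => le_iSup₂_of_le (i + 1) ?_ (le_of_eq ?_)
        · simp only [Finset.mem_range] at hi ⊢; omega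
        · rw [pow_succ', show n + 1 - (i + 1) = n - i by omega]; simp only [mul_assoc]
      have hr : U n * P ≤ U (n + 1) := by
        simp only [U, Submodule.iSup_mul]
        refine iSup₂_le fun i hi => le_iSup₂_of_le i ?_ (le_of_eq ?_)
        · simp only [Finset.mem_range] at hi ⊢; omega
        · simp only [Finset.mem_range] at hi
          rw [show n + 1 - i = n - i + 1 by omega, pow_succ]; simp only [mul_assoc]
      exact ⟨hl (Submodule.mul_mem_mul ht hy), hr (Submodule.mul_mem_mul hy ht)⟩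
    have hseq : ∀ n, ∃ y ∈ S, y ∉ P ∧ y ∈ U n := by
      intro n
      induction n with
      | zero =>
        refine ⟨x0, hx0, hx0P, ?_⟩
        refine Submodule.mem_iSup_of_mem 0 (Submodule.mem_iSup_of_mem (by simp) ?_)
        simpa using Submodule.mem_span_singleton_self x0
      | succ n ih =>
        obtain ⟨y, hy, hyP, hyU⟩ := ih
        obtain ⟨t, ht, htP, hz'⟩ := hno y hy hyP
        exact ⟨_, hz t ht y hy, hz', sub_mem (hstep n y hyU t htP).1 (hstep n y hyU t htP).2⟩
    obtain ⟨y, -, hyP, hyU⟩ := hseq (2 * N)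
    refine hyP ?_
    have : U (2 * N) ≤ ⊥ := iSup₂_le fun i _ => by
      by_cases hi : N ≤ i
      · rw [show i = N + (i - N) by omega, pow_add, hN, Submodule.bot_mul, Submodule.bot_mul, Submodule.bot_mul]
      · rw [show 2 * N - i = N + (N - i) by omega, pow_add, hN, Submodule.bot_mul, Submodule.mul_bot]
    rw [(Submodule.mem_bot k).1 (this hyU)]
    exact zero_mem _
  have hnorm' : ∀ p ∈ P, x * p - p * x ∈ P := by
    intro p hp
    rw [hP] at hp
    induction hp using Submodule.span_induction with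
    | mem t ht => rw [show x * t - t * x = -zz t x by rw [zz]; abel]; exact neg_mem (hnorm t ht.1 ht.2)
    | zero => simp
    | add p q _ _ ip iq =>
      rw [mul_add, add_mul, add_sub_add_comm]; exact add_mem ip iq
    | smul r p _ ip => rw [mul_smul_comm, smul_mul_assoc, ← smul_sub]; exact Submodule.smul_mem _ r ip
  refine hmax (P ⊔ Submodule.span k {x}) ⟨le_antisymm ?_ (Submodule.span_le.2 fun t ht => ht.2),
    _, step_bound (hsq x hx) hnorm' N hN⟩ ?_
  · refine sup_le (hP.le.trans (Submodule.span_mono fun t ht => ⟨ht.1, Submodule.mem_sup_left ht.2⟩)) ?_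
    exact Submodule.span_mono (Set.singleton_subset_iff.2
      ⟨hx, Submodule.mem_sup_right (Submodule.mem_span_singleton_self x)⟩)
  · exact lt_of_le_of_ne le_sup_left fun e =>
      hxP (e ▸ Submodule.mem_sup_right (Submodule.mem_span_singleton_self x))

variable [FiniteDimensional k M]

/-- roots unipotent with all of `X` -/
def Orth (G : Subgroup GL') (d : ℕ) (X : Set End') : Set End' :=
  {u | (u = 0 ∨ Root G d u) ∧ ∀ w ∈ X, u * w * u = 0}

omit [FiniteDimensional k M] in
theorem Orth.conj {X : Set End'} (hX : ∀ w ∈ X, ∀ g ∈ G, (g : End') * w * ((g⁻¹ : GL') : End') ∈ X)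
    (hu : u ∈ Orth G d X) (hg : g ∈ G) : (g : End') * u * ((g⁻¹ : GL') : End') ∈ Orth G d X := by
  refine ⟨hu.1.imp (fun e => by simp [e]) (fun h => h.conj hg), fun w hw => ?_⟩
  have h := hu.2 _ (hX w hw g⁻¹ (inv_mem hg))
  rw [inv_inv] at h
  calc _ = (g : End') * (u * (((g⁻¹ : GL') : End') * w * (g : End')) * u) * ((g⁻¹ : GL') : End') := by
        simp only [mul_assoc]
    _ = 0 := by rw [h, mul_zero, zero_mul]

theorem Orth.zz_mem {X : Set End'} (hd : Deg G d)
    (hX : ∀ w ∈ X, ∀ g ∈ G, (g : End') * w * ((g⁻¹ : GL') : End') ∈ X)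
    (ht : t = 0 ∨ Root G d t) (hu : u ∈ Orth G d X) (htu : t * u * t = 0) : zz t u ∈ Orth G d X := by
  by_cases h0 : zz t u = 0
  · exact ⟨Or.inl h0, fun w _ => by simp [h0]⟩
  have hu0 : u ≠ 0 := fun e => h0 (by simp [zz, e])
  have ht0 : t ≠ 0 := fun e => h0 (by simp [zz, e])
  have hur := hu.1.resolve_left hu0
  have htr := ht.resolve_left ht0
  refine ⟨Or.inr (root_zz hd htr hur htu h0), fun w hw => ?_⟩
  have key : ∀ s : k, (u + s • zz t u) * w * (u + s • zz t u) = 0 := fun s => by
    have hgG := uu_mem (htr.tame.smul s)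
    have h := (Orth.conj hX hu hgG).2 w hw
    have e : ((uu (s • t) (htr.tame.smul s).sq : GL') : End') * u *
        (((uu (s • t) (htr.tame.smul s).sq)⁻¹ : GL') : End') = u + s • zz t u := by
      rw [uu_val, uu_inv_val]
      simp only [add_mul, mul_sub, one_mul, mul_one, smul_mul_assoc, mul_smul_comm, htu, smul_zero, zz, smul_sub]
      abel
    rwa [e] at h
  have h1 := key 1
  have h2 := key (-1)
  simp only [one_smul, neg_smul, add_mul, mul_add, neg_mul, mul_neg, hu.2 w hw, zero_add] at h1 h2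
  have : (2 : k) • (zz t u * w * zz t u) = 0 := by
    rw [two_smul]
    linear_combination (norm := abel) h1 + h2
  exact (smul_eq_zero.1 this).resolve_left hd.two

/-- `V` is stable under `H` -/
def Stab (H : Subgroup GL') (V : Submodule k M) : Prop := ∀ g ∈ H, ∀ v ∈ V, (g : End') v ∈ V

/-- minimal non-zero stable subspace -/
def MinStab (H : Subgroup GL') (V : Submodule k M) : Prop :=
  V ≠ ⊥ ∧ Stab H V ∧ ∀ W : Submodule k M, W ≤ V → Stab H W → W = ⊥ ∨ W = V

/-- `M` is the sum of minimal stable subspaces -/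
def SS (H : Subgroup GL') : Prop := ∀ W : Submodule k M, (∀ V, MinStab H V → V ≤ W) → W = ⊤

theorem exists_minStab {H : Subgroup GL'} {V : Submodule k M} (hV : V ≠ ⊥) (hs : Stab H V) : ∃ U ≤ V, MinStab H U := by
  obtain ⟨U, ⟨hUV, hU0, hUs⟩, hmin⟩ :=
    (wellFounded_lt (α := Submodule k M)).has_min {U | U ≤ V ∧ U ≠ ⊥ ∧ Stab H U} ⟨V, le_rfl, hV, hs⟩
  refine ⟨U, hUV, hU0, hUs, fun W hW hWs => ?_⟩
  by_cases h0 : W = ⊥
  · exact Or.inl h0
  · exact Or.inr (by
      by_contra hne
      exact hmin W ⟨hW.trans hUV, h0, hWs⟩ (lt_of_le_of_ne hW hne))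

omit [FiniteDimensional k M] in
theorem ss_irreducible {G : Subgroup GL'} (h : IsIrreducibleFor G) : SS G := by
  intro W hW
  refine eq_top_iff.2 (hW ⊤ ⟨?_, fun g _ v _ => Submodule.mem_top, fun U _ hU => h.2 U hU⟩)
  obtain ⟨m, hm⟩ := h.1
  exact fun e => hm ((Submodule.mem_bot k).1 (e ▸ Submodule.mem_top))

/-- every root has an opposite conjugate -/
theorem exists_opposite (hss : SS G) (hd : Deg G d) (hc : Root G d c) :
    ∃ g ∈ G, c * ((g : End') * c * ((g⁻¹ : GL') : End')) * c ≠ 0 := by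
  by_contra hno
  push Not at hno
  let C0 : Set End' := {w | ∃ g ∈ G, w = (g : End') * c * ((g⁻¹ : GL') : End')}
  have hC0 : ∀ w ∈ C0, ∀ g ∈ G, (g : End') * w * ((g⁻¹ : GL') : End') ∈ C0 := by
    rintro _ ⟨h, hh, rfl⟩ g hg
    exact ⟨g * h, mul_mem hg hh, by simp [mul_assoc]⟩
  let S0 := Orth G d C0
  have hS0 : ∀ w ∈ S0, ∀ g ∈ G, (g : End') * w * ((g⁻¹ : GL') : End') ∈ S0 := fun w hw g hg =>
    Orth.conj hC0 hw hg
  let S : Set End' := S0 ∩ Orth G d S0
  have hcS : c ∈ S := by
    have hc0 : c ∈ S0 := ⟨Or.inr hc, by rintro _ ⟨g, hg, rfl⟩; exact hno g hg⟩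
    refine ⟨hc0, Or.inr hc, fun w hw => ?_⟩
    rcases hw.1 with rfl | hr
    · simp
    · refine bab_of_aba hd hr hc ?_
      exact hw.2 c ⟨1, one_mem G, by simp⟩
  obtain ⟨N, hN⟩ := nilpotent_span S (fun t ht => by
      rcases ht.1.1 with rfl | h
      · simp
      · exact h.sq)
    (fun t ht u hu => ⟨Orth.zz_mem hd hC0 ht.1.1 hu.1 (ht.2.2 u hu.1),
      Orth.zz_mem hd hS0 ht.1.1 hu.2 (ht.2.2 u hu.1)⟩)
  let W : Submodule k M := ⨅ t ∈ S, LinearMap.ker t
  have hW : ∀ V : Submodule k M, MinStab G V → V ⊓ W ≠ ⊥ := by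
    intro V hV hVW
    have hst : ∀ n, ∀ p ∈ Submodule.span k S ^ n, ∀ v ∈ V, p v ∈ V := by
      have hb : ∀ t ∈ S, ∀ v ∈ V, t v ∈ V := by
        intro t ht v hv
        rcases ht.1.1 with rfl | hr
        · simp
        · have := sub_mem (hV.2.1 _ (uu_mem hr.tame) v hv) hv
          rwa [uu_val, LinearMap.add_apply, Module.End.one_apply, add_sub_cancel_left] at this
      intro n
      induction n with
      | zero =>
        intro p hp v hv
        rw [pow_zero, Submodule.mem_one] at hp
        obtain ⟨c, rfl⟩ := hp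
        rw [Algebra.algebraMap_eq_smul_one, LinearMap.smul_apply, Module.End.one_apply]
        exact V.smul_mem c hv
      | succ n ih =>
        intro p hp
        rw [pow_succ'] at hp
        refine Submodule.mul_induction_on hp (fun u hu w hw v hv => ?_)
          (fun u w hu hw v hv => by rw [LinearMap.add_apply]; exact add_mem (hu v hv) (hw v hv))
        rw [Module.End.mul_apply]
        have hwv := ih w hw v hv
        clear hw
        induction hu using Submodule.span_induction with
        | mem t ht => exact hb t ht _ hwv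
        | zero => simp
        | add x y _ _ hx hy => rw [LinearMap.add_apply]; exact add_mem hx hy
        | smul c x _ hx => rw [LinearMap.smul_apply]; exact V.smul_mem c hx
    have hall : ∀ n, ∀ m ∈ V, (∀ p ∈ Submodule.span k S ^ n, p m = 0) → m = 0 := by
      intro n
      induction n with
      | zero => intro m _ hm; simpa using hm 1 (by rw [pow_zero]; exact Submodule.one_le.1 le_rfl)
      | succ n ih =>
        intro m hmV hm
        refine ih m hmV fun p hp => ?_
        have : p m ∈ V ⊓ W := by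
          refine ⟨hst n p hp m hmV, ?_⟩
          simp only [W, SetLike.mem_coe, Submodule.mem_iInf, LinearMap.mem_ker]
          intro t ht
          exact hm (t * p) (by rw [pow_succ']; exact Submodule.mul_mem_mul (Submodule.subset_span ht) hp)
        rwa [hVW, Submodule.mem_bot] at this
    obtain ⟨m, hmV, hm⟩ := (Submodule.ne_bot_iff _).1 hV.1
    exact hm (hall N m hmV fun p hp => by rw [hN, Submodule.mem_bot] at hp; rw [hp, LinearMap.zero_apply])
  have hinv : ∀ g ∈ G, ∀ m ∈ W, (g : M →ₗ[k] M) m ∈ W := by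
    intro g hg m hm
    simp only [W, Submodule.mem_iInf, LinearMap.mem_ker] at hm ⊢
    intro t ht
    have h := hm _ ⟨Orth.conj hC0 ht.1 (inv_mem hg), Orth.conj hS0 ht.2 (inv_mem hg)⟩
    rw [inv_inv, Module.End.mul_apply, Module.End.mul_apply] at h
    have := congrArg (g : End') h
    rwa [map_zero, ← Module.End.mul_apply (g : End'), Units.mul_inv, Module.End.one_apply] at this
  have htop : W = ⊤ := hss W fun V hV => by
    rcases hV.2.2 (V ⊓ W) inf_le_left (fun g hg m hm => ⟨hV.2.1 g hg m hm.1, hinv g hg m hm.2⟩) with h | h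
    · exact absurd h (hW V hV)
    · exact h ▸ inf_le_right
  refine root_ne_zero hd hc (LinearMap.ext fun m => ?_)
  have hm : m ∈ W := htop ▸ Submodule.mem_top
  simp only [W, Submodule.mem_iInf, LinearMap.mem_ker] at hm
  exact hm c hcS

end Cfsg.Agent.QPair
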