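import Cfsg.Agent.QPair.Involution
import Cfsg.Agent.QPair.Opposite

/-! The commutator of two root subgroups is a whole root subgroup. -/

set_option autoImplicit false

namespace Cfsg.Agent.QPair

open Cfsg Cfsg.Agent.Quad

variable {k : Type*} [Field k] {M : Type*} [AddCommGroup M] [Module k M] [FiniteDimensional k M]

local notation "GL'" => LinearMap.GeneralLinearGroup k M
local notation "End'" => Module.End k M

variable {G : Subgroup (LinearMap.GeneralLinearGroup k M)} {a b c x y a' b' : Module.End k M} {d : ℕ}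
  {g : LinearMap.GeneralLinearGroup k M}

/-- a noncommuting nilpotent pair with a frame on its commutator -/
structure Two (G : Subgroup GL') (d : ℕ) (a b x : End') : Prop where
  deg : Deg G d
  left : Root G d a
  right : Root G d b
  nil : a * b * a = 0
  ne : zz a b ≠ 0
  frame : Frame G d (zz a b) x

theorem exists_two (hss : SS G) (hd : Deg G d) (ha : Root G d a) (hb : Root G d b)
    (h : a * b * a = 0) (h0 : zz a b ≠ 0) : ∃ x, Two G d a b x := by
  have hc := root_zz hd ha hb h h0
  obtain ⟨g, hg, hne⟩ := exists_opposite hss hd hc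
  obtain ⟨x, -, -, F⟩ := exists_frame hd hc (hc.conj hg) hne
  exact ⟨x, hd, ha, hb, h, h0, F⟩

omit [FiniteDimensional k M] in
theorem mem_range_comp {p : End'} {m : M} {q : End'} (h : m ∈ LinearMap.range (p * q)) :
    m ∈ LinearMap.range p := LinearMap.range_comp_le_range q p h

namespace Two

variable (T : Two G d a b x)
include T

theorem bab : b * a * b = 0 := bab_of_aba T.deg T.left T.right T.nil

theorem data : NilData a b d := nilData T.deg T.left T.right T.nil T.ne

omit [FiniteDimensional k M] in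
theorem a_mul_c : a * zz a b = 0 := zz_mul_left T.left.sq T.nil
omit [FiniteDimensional k M] in
theorem c_mul_a : zz a b * a = 0 := zz_mul_right T.left.sq T.nil

theorem b_mul_c : b * zz a b = 0 := by
  rw [zz_swap (a := b) (b := a), mul_neg, zz_mul_left T.right.sq T.bab, neg_zero]

theorem c_mul_b : zz a b * b = 0 := by
  rw [zz_swap (a := b) (b := a), neg_mul, zz_mul_right T.right.sq T.bab, neg_zero]

theorem a_ker {m : M} (hm : zz a b m = 0) : a m ∈ LinearMap.range (a * b) := by
  have : m ∈ (LinearMap.ker b ⊔ LinearMap.range a) ⊓ (LinearMap.ker a ⊔ LinearMap.range b) := by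
    rw [← T.data.ker]; exact hm
  obtain ⟨v, hv, _, ⟨u, rfl⟩, rfl⟩ := Submodule.mem_sup.1 this.2
  rw [map_add, LinearMap.mem_ker.1 hv, zero_add]
  exact ⟨u, rfl⟩

theorem b_ker {m : M} (hm : zz a b m = 0) : b m ∈ LinearMap.range (b * a) := by
  have : m ∈ (LinearMap.ker b ⊔ LinearMap.range a) ⊓ (LinearMap.ker a ⊔ LinearMap.range b) := by
    rw [← T.data.ker]; exact hm
  obtain ⟨v, hv, _, ⟨u, rfl⟩, rfl⟩ := Submodule.mem_sup.1 this.1
  rw [map_add, LinearMap.mem_ker.1 hv, zero_add]
  exact ⟨u, rfl⟩

theorem range_U : LinearMap.range (a * b) ≤ LinearMap.range (zz a b) := T.data.range.symm ▸ le_sup_left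
theorem range_V : LinearMap.range (b * a) ≤ LinearMap.range (zz a b) := T.data.range.symm ▸ le_sup_right

theorem ker_U : LinearMap.ker (zz a b) ≤ LinearMap.ker (a * b) := by
  intro m hm
  rw [LinearMap.mem_ker, zz, LinearMap.sub_apply, sub_eq_zero] at hm
  have : (a * b) m ∈ LinearMap.range (a * b) ⊓ LinearMap.range (b * a) :=
    ⟨LinearMap.mem_range_self _ m, hm ▸ LinearMap.mem_range_self _ m⟩
  rwa [T.data.disj, Submodule.mem_bot] at this

theorem ker_V : LinearMap.ker (zz a b) ≤ LinearMap.ker (b * a) := by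
  intro m hm
  have h := LinearMap.mem_ker.1 (T.ker_U hm)
  rw [LinearMap.mem_ker, zz, LinearMap.sub_apply, h, zero_sub, neg_eq_zero] at hm
  exact hm

omit [FiniteDimensional k M] in
theorem lfix {z : End'} (h : LinearMap.range z ≤ LinearMap.range (zz a b)) : zz a b * x * z = z := by
  ext m
  obtain ⟨u, hu⟩ := h (LinearMap.mem_range_self z m)
  show (zz a b * x) (z m) = z m
  rw [← hu]
  exact LinearMap.congr_fun T.frame.axa u

omit [FiniteDimensional k M] in
theorem rfix {z : End'} (h : LinearMap.ker (zz a b) ≤ LinearMap.ker z) : z * x * zz a b = z := by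
  ext m
  have h1 : m - (x * zz a b) m ∈ LinearMap.ker (zz a b) := by
    rw [LinearMap.mem_ker, map_sub, ← Module.End.mul_apply, ← mul_assoc, T.frame.axa, sub_self]
  have := h h1
  rw [LinearMap.mem_ker, map_sub, sub_eq_zero] at this
  exact this.symm

/-- the two projections -/
theorem proj : a * b * x * (a * b) = a * b ∧ b * a * x * (a * b) = 0 ∧ a * b * x * (b * a) = 0 ∧
    b * a * x * (b * a) = -(b * a) := by
  have key : ∀ z : End', LinearMap.range z ≤ LinearMap.range (zz a b) →
      a * b * x * z - b * a * x * z = z := fun z hz => by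
    rw [← sub_mul, ← sub_mul]; exact T.lfix hz
  have k1 := key _ T.range_U
  have k2 := key _ T.range_V
  have disj : ∀ {p q : End'}, LinearMap.range p ≤ LinearMap.range (a * b) → LinearMap.range q ≤ LinearMap.range (b * a) →
      p = q → p = 0 := fun {p q} hp hq e => by
    rw [← LinearMap.range_eq_bot, eq_bot_iff, ← T.data.disj]
    exact le_inf hp (e ▸ hq)
  have h2 : b * a * x * (a * b) = 0 := by
    have e : a * b * x * (a * b) - a * b = b * a * x * (a * b) :=
      sub_eq_iff_eq_add.2 (sub_eq_iff_eq_add'.1 k1)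
    have := disj (p := a * b * x * (a * b) - a * b) (q := b * a * x * (a * b)) (by
      rintro _ ⟨m, rfl⟩
      exact sub_mem ⟨(x * (a * b)) m, rfl⟩ ⟨m, rfl⟩) (by rintro _ ⟨m, rfl⟩; exact ⟨(x * (a * b)) m, rfl⟩) e
    exact e.symm.trans this
  have h3 : a * b * x * (b * a) = 0 :=
    disj (p := a * b * x * (b * a)) (q := b * a * x * (b * a) + b * a)
      (by rintro _ ⟨m, rfl⟩; exact ⟨(x * (b * a)) m, rfl⟩)
      (by rintro _ ⟨m, rfl⟩; exact add_mem ⟨(x * (b * a)) m, rfl⟩ ⟨m, rfl⟩)
      (sub_eq_iff_eq_add'.1 k2)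
  refine ⟨?_, h2, h3, ?_⟩
  · rwa [h2, sub_zero] at k1
  · rw [h3, zero_sub] at k2; exact neg_eq_iff_eq_neg.1 k2

/-- the torus element taking `zz a b` to `y` -/
theorem exists_torus (hy : InL G (zz a b) y) (h0 : y ≠ 0) : ∃ x', ∃ g ∈ G,
    y * x' = zz a b * x ∧ x' * y = x * zz a b ∧
    (g : End') = y * x + x' * zz a b + e0 (zz a b) x ∧
    ((g⁻¹ : GL') : End') = zz a b * x' + x * y + e0 (zz a b) x := by
  obtain ⟨x', hx', hx0, F', e1, e2⟩ := T.frame.exists_inv T.deg hy h0
  have hmem : ∀ {p q : End'} (F : Frame G d p q), F.swapper ∈ G := fun F => by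
    rw [Frame.swapper]
    exact mul_mem (mul_mem (uu_mem F.left.tame) (inv_mem (uu_mem F.right.tame))) (uu_mem F.left.tame)
  have he : e0 y x' = e0 (zz a b) x := by rw [e0, e0, e1, e2]
  have inv : ∀ {p q : End'} (F : Frame G d p q), ((F.swapper⁻¹ : GL') : End') = -p + q + e0 p q := fun {p q} F => by
    refine Units.inv_eq_of_mul_eq_one_right ?_
    rw [F.swapper_val]
    have h2 : q * e0 p q = 0 := by rw [← Frame.e0_swap]; exact F.symm.mul_e0 (InL.refl F.right.tame)
    have h4 : e0 p q * q = 0 := by rw [← Frame.e0_swap]; exact F.symm.e0_mul (InL.refl F.right.tame)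
    simp only [add_mul, mul_add, sub_mul, mul_neg, F.mul_e0 (InL.refl F.left.tame), h2,
      F.e0_mul (InL.refl F.left.tame), h4, F.e0_sq, F.left.sq, F.right.sq]
    rw [e0]; abel
  refine ⟨x', F'.swapper * T.frame.swapper⁻¹, mul_mem (hmem F') (inv_mem (hmem T.frame)), e1, e2, ?_, ?_⟩
  · have h1 : y * zz a b = 0 := T.frame.mul_a hy
    have h2 : x' * x = 0 := T.frame.symm.mul_a hx'
    have h3 : x' * e0 (zz a b) x = 0 := by rw [← Frame.e0_swap]; exact T.frame.symm.mul_e0 hx'
    have h4 : e0 (zz a b) x * x = 0 := by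
      rw [← Frame.e0_swap]; exact T.frame.symm.e0_mul (InL.refl T.frame.right.tame)
    rw [Units.val_mul, F'.swapper_val, inv T.frame, he]
    simp only [add_mul, sub_mul, mul_add, mul_neg, h1, h2, h3, T.frame.mul_e0 hy,
      T.frame.e0_mul (InL.refl T.frame.left.tame), h4, T.frame.e0_sq]
    abel
  · have h1 : zz a b * y = 0 := T.frame.a_mul hy
    have h2 : x * x' = 0 := T.frame.symm.a_mul hx'
    have h3 : e0 (zz a b) x * x' = 0 := by rw [← Frame.e0_swap]; exact T.frame.symm.e0_mul hx'
    have h4 : x * e0 (zz a b) x = 0 := by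
      rw [← Frame.e0_swap]; exact T.frame.symm.mul_e0 (InL.refl T.frame.right.tame)
    rw [_root_.mul_inv_rev, inv_inv, Units.val_mul, T.frame.swapper_val, inv F', he]
    simp only [add_mul, sub_mul, mul_add, mul_neg, h1, h2, h3, h4, T.frame.e0_mul hy,
      T.frame.mul_e0 (InL.refl T.frame.left.tame), T.frame.e0_sq]
    abel

theorem torus_products {x' : End'} {g : GL'} (hy : InL G (zz a b) y) (hg : (g : End') = y * x + x' * zz a b + e0 (zz a b) x)
    (hgi : ((g⁻¹ : GL') : End') = zz a b * x' + x * y + e0 (zz a b) x) :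
    a * ((g : End') * b * ((g⁻¹ : GL') : End')) = a * b * x * y ∧
    (g : End') * b * ((g⁻¹ : GL') : End') * a = y * x * (b * a) ∧
    (g : End') * a * ((g⁻¹ : GL') : End') * b = y * x * (a * b) ∧
    b * ((g : End') * a * ((g⁻¹ : GL') : End')) = b * a * x * y := by
  have ay : a * y = 0 := mul_zero_right hy.im T.a_mul_c
  have ya : y * a = 0 := mul_zero_left hy.ker T.c_mul_a
  have by' : b * y = 0 := mul_zero_right hy.im T.b_mul_c
  have yb : y * b = 0 := mul_zero_left hy.ker T.c_mul_b
  have e0U : ∀ {z : End'}, LinearMap.range z ≤ LinearMap.range (zz a b) → e0 (zz a b) x * z = 0 := fun {z} hz => by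
    rw [← T.lfix hz, ← mul_assoc, ← mul_assoc, T.frame.e0_mul (InL.refl T.frame.left.tame), zero_mul, zero_mul]
  have Ue0 : ∀ {z : End'}, LinearMap.ker (zz a b) ≤ LinearMap.ker z → z * e0 (zz a b) x = 0 := fun {z} hz => by
    rw [← T.rfix hz, mul_assoc, T.frame.mul_e0 (InL.refl T.frame.left.tame), mul_zero]
  have ab' : a * e0 (zz a b) x * b = a * b := by
    rw [e0, mul_sub, mul_sub, sub_mul, sub_mul, mul_one, ← mul_assoc, T.a_mul_c, zero_mul, zero_mul, sub_zero,
      mul_assoc, mul_assoc x, T.c_mul_b, mul_zero, mul_zero, sub_zero]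
  have ba' : b * e0 (zz a b) x * a = b * a := by
    rw [e0, mul_sub, mul_sub, sub_mul, sub_mul, mul_one, ← mul_assoc, T.b_mul_c, zero_mul, zero_mul, sub_zero,
      mul_assoc, mul_assoc x, T.c_mul_a, mul_zero, mul_zero, sub_zero]
  have s1 : a * (g : End') * b = a * b := by
    rw [hg, mul_add, mul_add, add_mul, add_mul, ← mul_assoc a y, ay, zero_mul, zero_mul, mul_assoc a,
      mul_assoc x', T.c_mul_b, mul_zero, mul_zero, zero_add, zero_add, ab']
  have s2 : b * ((g⁻¹ : GL') : End') * a = b * a := by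
    rw [hgi, mul_add, mul_add, add_mul, add_mul, ← mul_assoc b (zz a b), T.b_mul_c, zero_mul, zero_mul,
      mul_assoc b, mul_assoc x, ya, mul_zero, mul_zero, zero_add, zero_add, ba']
  have s3 : b * (g : End') * a = b * a := by
    rw [hg, mul_add, mul_add, add_mul, add_mul, ← mul_assoc b y, by', zero_mul, zero_mul, mul_assoc b,
      mul_assoc x', T.c_mul_a, mul_zero, mul_zero, zero_add, zero_add, ba']
  have s4 : a * ((g⁻¹ : GL') : End') * b = a * b := by
    rw [hgi, mul_add, mul_add, add_mul, add_mul, ← mul_assoc a (zz a b), T.a_mul_c, zero_mul, zero_mul,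
      mul_assoc a, mul_assoc x, yb, mul_zero, mul_zero, zero_add, zero_add, ab']
  have cU : zz a b * (a * b) = 0 := by rw [← mul_assoc, T.c_mul_a, zero_mul]
  have cV : zz a b * (b * a) = 0 := by rw [← mul_assoc, T.c_mul_b, zero_mul]
  have Uc : a * b * zz a b = 0 := by rw [mul_assoc, T.b_mul_c, mul_zero]
  have Vc : b * a * zz a b = 0 := by rw [mul_assoc, T.a_mul_c, mul_zero]
  refine ⟨?_, ?_, ?_, ?_⟩
  · calc a * ((g : End') * b * ((g⁻¹ : GL') : End')) = a * (g : End') * b * ((g⁻¹ : GL') : End') := by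
          simp only [mul_assoc]
      _ = a * b * x * y := by
          rw [s1, hgi, mul_add, mul_add, ← mul_assoc, Uc, zero_mul, Ue0 T.ker_U, zero_add, add_zero, ← mul_assoc]
  · calc (g : End') * b * ((g⁻¹ : GL') : End') * a = (g : End') * (b * ((g⁻¹ : GL') : End') * a) := by
          simp only [mul_assoc]
      _ = y * x * (b * a) := by
          rw [s2, hg, add_mul, add_mul, mul_assoc x', cV, mul_zero, e0U T.range_V, add_zero, add_zero]
  · calc (g : End') * a * ((g⁻¹ : GL') : End') * b = (g : End') * (a * ((g⁻¹ : GL') : End') * b) := by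
          simp only [mul_assoc]
      _ = y * x * (a * b) := by
          rw [s4, hg, add_mul, add_mul, mul_assoc x', cU, mul_zero, e0U T.range_U, add_zero, add_zero]
  · calc b * ((g : End') * a * ((g⁻¹ : GL') : End')) = b * (g : End') * a * ((g⁻¹ : GL') : End') := by
          simp only [mul_assoc]
      _ = b * a * x * y := by
          rw [s3, hgi, mul_add, mul_add, ← mul_assoc, Vc, zero_mul, Ue0 T.ker_V, zero_add, add_zero, ← mul_assoc]

theorem phi_mem (hy : InL G (zz a b) y) : InL G (zz a b) (a * b * x * y - y * x * (b * a)) ∧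
    InL G (zz a b) (y * x * (a * b) - b * a * x * y) := by
  by_cases h0 : y = 0
  · subst h0; simp only [mul_zero, zero_mul, sub_zero]; exact ⟨InL.zero, InL.zero⟩
  obtain ⟨x', g, hg, -, -, hv, hvi⟩ := T.exists_torus hy h0
  obtain ⟨p1, p2, p3, p4⟩ := T.torus_products hy hv hvi
  have hb' := T.right.conj hg
  have ha' := T.left.conj hg
  have n1 : a * ((g : End') * b * ((g⁻¹ : GL') : End')) * a = 0 := by
    rw [p1, mul_assoc _ y, mul_zero_left hy.ker T.c_mul_a, mul_zero]
  have n2 : b * ((g : End') * a * ((g⁻¹ : GL') : End')) * b = 0 := by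
    rw [p4, mul_assoc _ y, mul_zero_left hy.ker T.c_mul_b, mul_zero]
  refine ⟨⟨?_, ?_, ?_⟩, ?_, ?_, ?_⟩
  · have := tame_zz T.left.tame hb'.tame n1 (bab_of_aba T.deg T.left hb' n1)
    rwa [zz, p1, p2] at this
  · rintro _ ⟨m, rfl⟩
    exact sub_mem (T.range_U ⟨(x * y) m, rfl⟩) (hy.im ⟨(x * (b * a)) m, rfl⟩)
  · intro m hm
    simp [LinearMap.mem_ker.1 (hy.ker hm), show b (a m) = 0 from LinearMap.mem_ker.1 (T.ker_V hm)]
  · have := (tame_zz T.right.tame ha'.tame n2 (bab_of_aba T.deg T.right ha' n2)).neg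
    rwa [zz, p4, p3, neg_sub] at this
  · rintro _ ⟨m, rfl⟩
    exact sub_mem (hy.im ⟨(x * (a * b)) m, rfl⟩) (T.range_V ⟨(x * y) m, rfl⟩)
  · intro m hm
    simp [LinearMap.mem_ker.1 (hy.ker hm), show a (b m) = 0 from LinearMap.mem_ker.1 (T.ker_U hm)]

theorem off_diag (hy : InL G (zz a b) y) :
    a * b * x * y * x * (b * a) = 0 ∧ b * a * x * y * x * (a * b) = 0 := by
  obtain ⟨h1, h1'⟩ := T.phi_mem hy
  obtain ⟨P1, -⟩ := T.phi_mem h1
  obtain ⟨-, P2⟩ := T.phi_mem h1'
  obtain ⟨pp, qp, pq, qq⟩ := T.proj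
  have hs1 := P1.sub T.frame.left.sq h1
  have hs2 := P2.sub T.frame.left.sq h1'
  have e1 : a * b * x * (a * b * x * y - y * x * (b * a)) - (a * b * x * y - y * x * (b * a)) * x * (b * a) -
      (a * b * x * y - y * x * (b * a)) = (-2 : k) • (a * b * x * y * x * (b * a)) := by
    rw [mul_sub, sub_mul, sub_mul, ← mul_assoc (a * b * x), ← mul_assoc (a * b * x), pp,
      mul_assoc (y * x * (b * a)), mul_assoc (y * x), ← mul_assoc (b * a) x, qq, mul_neg]
    simp only [mul_assoc, neg_smul, two_smul]
    abel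
  have e2 : (y * x * (a * b) - b * a * x * y) * x * (a * b) - b * a * x * (y * x * (a * b) - b * a * x * y) -
      (y * x * (a * b) - b * a * x * y) = (-2 : k) • (b * a * x * y * x * (a * b)) := by
    rw [mul_sub, sub_mul, sub_mul, ← mul_assoc (b * a * x) (b * a * x), ← mul_assoc (b * a * x) (b * a), qq,
      mul_assoc (y * x * (a * b)), mul_assoc (y * x), ← mul_assoc (a * b) x, pp]
    simp only [mul_assoc, neg_mul, neg_smul, two_smul]
    abel
  rw [e1] at hs1
  rw [e2] at hs2
  have h2 : (-2 : k) ≠ 0 := neg_ne_zero.2 T.deg.two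
  have m1 := hs1.smul (-2 : k)⁻¹
  have m2 := hs2.smul (-2 : k)⁻¹
  rw [smul_smul, inv_mul_cancel₀ h2, one_smul] at m1 m2
  have hsum := T.data.sum
  have hdp := T.deg.pos
  constructor
  · refine T.deg.min _ m1.tame ?_
    have l1 := (rk_mul_le_left (a * b * x * y * x) (b * a))
    have l2 : rk (a * b * x * y * x) ≤ rk (a * b) :=
      ((rk_mul_le_left _ x).trans (rk_mul_le_left _ y)).trans (rk_mul_le_left _ x)
    have l3 := rk_mul_le_right (a * b * x * y * x) (b * a)
    omega
  · refine T.deg.min _ m2.tame ?_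
    have l1 := (rk_mul_le_left (b * a * x * y * x) (a * b))
    have l2 : rk (b * a * x * y * x) ≤ rk (b * a) :=
      ((rk_mul_le_left _ x).trans (rk_mul_le_left _ y)).trans (rk_mul_le_left _ x)
    have l3 := rk_mul_le_right (b * a * x * y * x) (a * b)
    omega

theorem commute_proj (hy : InL G (zz a b) y) :
    a * b * x * y = y * x * (a * b) ∧ b * a * x * y = y * x * (b * a) := by
  obtain ⟨o1, o2⟩ := T.off_diag hy
  have hl : ∀ z : End', y * z = a * b * x * (y * z) - b * a * x * (y * z) := fun z => by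
    rw [← sub_mul, ← sub_mul, ← mul_assoc]
    exact congrArg (· * z) (T.frame.lmul hy).symm
  have hr : ∀ z : End', z * y = z * y * x * (a * b) - z * y * x * (b * a) := fun z => by
    rw [← mul_sub, mul_assoc, mul_assoc z]
    exact congrArg (z * ·) (T.frame.rmul hy).symm
  constructor
  · have r1 := hr (a * b * x)
    have r2 := hl (x * (a * b))
    simp only [← mul_assoc] at r2 o1 o2 r1
    rw [o1, sub_zero] at r1
    rw [o2, sub_zero] at r2
    simp only [← mul_assoc]
    exact r1.trans r2.symm
  · have r1 := hr (b * a * x)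
    have r2 := hl (x * (b * a))
    simp only [← mul_assoc] at r2 o1 o2 r1
    rw [o2, zero_sub] at r1
    rw [o1, zero_sub] at r2
    simp only [← mul_assoc]
    exact r1.trans r2.symm

theorem phi_eq (hy : InL G (zz a b) y) :
    a * b * x * y - y * x * (b * a) = y ∧ y * x * (a * b) - b * a * x * y = y := by
  obtain ⟨c1, c2⟩ := T.commute_proj hy
  have h : y * x * zz a b = y := T.frame.rmul hy
  rw [c1, c2, ← mul_sub]
  exact ⟨h, h⟩

theorem q_mem : InL G (zz a b) (zz a b * x * b * x * zz a b) := by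
  have hgi := Units.inv_eq_of_mul_eq_one_right (u := T.frame.swapper * T.frame.swapper)
    (a := 1 - (2 : k) • (zz a b * x + x * zz a b)) (by
      rw [← T.frame.invol_val]
      refine LinearMap.ext fun m => ?_
      obtain ⟨p, hp, q, hq, e⟩ := Submodule.mem_sup.1
        (show m ∈ _ ⊔ _ by rw [T.frame.compl.sup_eq_top]; exact Submodule.mem_top)
      rw [← e, Module.End.mul_apply, map_add, T.frame.invol_pos hp, T.frame.invol_neg hq, map_add, map_neg,
        T.frame.invol_pos hp, T.frame.invol_neg hq, neg_neg]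
      rfl)
  have hgG : T.frame.swapper * T.frame.swapper ∈ G := by
    have : T.frame.swapper ∈ G := by
      rw [Frame.swapper]
      exact mul_mem (mul_mem (uu_mem T.frame.left.tame) (inv_mem (uu_mem T.frame.right.tame)))
        (uu_mem T.frame.left.tame)
    exact mul_mem this this
  have ht := T.right.tame.conjUnit hgG
  rw [T.frame.invol_val, hgi] at ht
  set c := zz a b with hc
  have hbc : b * c = 0 := T.b_mul_c
  have hcb : c * b = 0 := T.c_mul_b
  have bc' : ∀ t, b * (c * t) = 0 := fun t => by rw [← mul_assoc, hbc, zero_mul]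
  have e00 : e0 c x * b * e0 c x = 0 := by
    refine LinearMap.ext fun m => ?_
    have hk : c (e0 c x m) = 0 := LinearMap.congr_fun (T.frame.mul_e0 (InL.refl T.frame.left.tame)) m
    obtain ⟨u, hu⟩ := T.range_V (T.b_ker hk)
    show e0 c x (b (e0 c x m)) = 0
    rw [← hu]
    exact LinearMap.congr_fun (T.frame.e0_mul (InL.refl T.frame.left.tame)) u
  rw [e0] at e00
  simp only [sub_mul, mul_sub, one_mul, mul_one, mul_assoc, hcb, bc', mul_zero, sub_zero] at e00
  have h1 : b = c * (x * b) + b * (x * c) - c * (x * (b * (x * c))) := by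
    rw [← sub_eq_zero, ← e00]; abel
  have hb' : (1 - (2 : k) • (c * x + x * c)) * b * (1 - (2 : k) • (c * x + x * c)) =
      -b + (2 : k) • (c * x * b * x * c) := by
    have : (1 - (2 : k) • (c * x + x * c)) * b * (1 - (2 : k) • (c * x + x * c)) =
        b - (2 : k) • (c * (x * b) + b * (x * c)) + (2 : k) • ((2 : k) • (c * (x * (b * (x * c))))) := by
      simp only [sub_mul, mul_sub, one_mul, mul_one, smul_mul_assoc, mul_smul_comm, add_mul, mul_add, mul_assoc,
        hcb, bc', mul_zero, add_zero, smul_zero, smul_sub, smul_add]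
      abel
    rw [this, show c * (x * b) + b * (x * c) = b + c * (x * (b * (x * c))) from (eq_sub_iff_add_eq.1 h1).symm]
    simp only [mul_assoc, two_smul]
    abel
  rw [hb'] at ht
  set q := c * x * b * x * c with hqdef
  have hbq : b * q = 0 := by rw [hqdef]; simp only [mul_assoc, bc']
  have hqb : q * b = 0 := by rw [hqdef]; simp only [mul_assoc, hcb, mul_zero]
  have hsum := T.right.tame.add ht
    (by rw [mul_add, mul_neg, T.right.sq, mul_smul_comm, hbq, smul_zero, neg_zero, add_zero])
    (by rw [add_mul, neg_mul, T.right.sq, smul_mul_assoc, hqb, smul_zero, neg_zero, add_zero])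
  rw [add_neg_cancel_left] at hsum
  have hq := hsum.smul (2 : k)⁻¹
  rw [smul_smul, inv_mul_cancel₀ T.deg.two, one_smul] at hq
  refine ⟨hq, ?_, ?_⟩
  · rintro _ ⟨m, rfl⟩; exact ⟨(x * b * x * c) m, rfl⟩
  · intro m hm
    rw [LinearMap.mem_ker, hqdef, Module.End.mul_apply, LinearMap.mem_ker.1 hm, map_zero]

/-- every element of the commutator line is a commutator with `a` -/
theorem surj (hy : InL G (zz a b) y) : ∃ b'', InL G b b'' ∧ zz a b'' = y := by
  by_cases h0 : y = 0
  · exact ⟨0, InL.zero, by simp [zz, h0]⟩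
  set c := zz a b with hc
  set b2 := c * x * b * x * c
  have hq : InL G c b2 := T.q_mem
  -- conjugate `b` to its part off the corner
  obtain ⟨g, hgG, hg1, hgv⟩ : ∃ g ∈ G, (g : End') * b * ((g⁻¹ : GL') : End') = b - b2 ∧
      ∃ v : End', ((g⁻¹ : GL') : End') = 1 - v ∧ (g : End') = 1 + v ∧
      a * v = 0 ∧ v * a = 0 ∧ c * v = 0 ∧ v * c = 0 := by
    by_cases h2 : b2 = 0
    · exact ⟨1, one_mem G, by simp [h2], 0, by simp, by simp, by simp, by simp, by simp, by simp⟩
    obtain ⟨x', h, hhG, -, -, hv, hvi⟩ := T.exists_torus hq.neg (neg_ne_zero.2 h2)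
    obtain ⟨-, -, p3, p4⟩ := T.torus_products hq.neg hv hvi
    set v := (h : End') * a * ((h⁻¹ : GL') : End') with hvdef
    have hvr := T.left.conj hhG
    have hz : v * b - b * v = -b2 := by rw [p3, p4, (T.phi_eq hq.neg).2]
    have hvbv : v * b * v = 0 := by
      refine bab_of_aba T.deg T.right hvr ?_
      rw [p4, mul_assoc _ (-b2), mul_zero_left hq.neg.ker T.c_mul_b, mul_zero]
    have ay : a * (-b2) = 0 := mul_zero_right hq.neg.im T.a_mul_c
    have ya : (-b2) * a = 0 := mul_zero_left hq.neg.ker T.c_mul_a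
    have hae0a : a * e0 c x * a = 0 := by
      rw [e0, mul_sub, mul_sub, sub_mul, sub_mul, mul_one, T.left.sq, ← mul_assoc, T.a_mul_c, zero_mul,
        zero_mul, mul_assoc a, mul_assoc x, T.c_mul_a, mul_zero, mul_zero, sub_zero, sub_zero]
    have hav : a * v = 0 := by
      have e : a * (h : End') * a = 0 := by
        rw [hv, mul_add, mul_add, add_mul, add_mul, ← mul_assoc a (-b2), ay, zero_mul, zero_mul, mul_assoc a,
          mul_assoc x', T.c_mul_a, mul_zero, mul_zero, zero_add, zero_add, hae0a]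
      rw [hvdef, ← mul_assoc, ← mul_assoc, e, zero_mul]
    have hva : v * a = 0 := by
      have e : a * ((h⁻¹ : GL') : End') * a = 0 := by
        rw [hvi, mul_add, mul_add, add_mul, add_mul, ← mul_assoc a c, T.a_mul_c, zero_mul, zero_mul, mul_assoc a,
          mul_assoc x, ya, mul_zero, mul_zero, zero_add, zero_add, hae0a]
      rw [hvdef]
      calc _ = (h : End') * (a * ((h⁻¹ : GL') : End') * a) := by simp only [mul_assoc]
        _ = 0 := by rw [e, mul_zero]
    have hcv : c * v = 0 := by
      have e : c * (h : End') = c * x' * c := by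
        rw [hv, mul_add, mul_add, ← mul_assoc, T.frame.a_mul hq.neg, zero_mul,
          T.frame.mul_e0 (InL.refl T.frame.left.tame), zero_add, add_zero, mul_assoc]
      rw [hvdef, ← mul_assoc, ← mul_assoc, e, mul_assoc (c * x') c a, T.c_mul_a, mul_zero, zero_mul]
    have hvc : v * c = 0 := by
      have e : ((h⁻¹ : GL') : End') * c = c * x' * c := by
        rw [hvi, add_mul, add_mul, mul_assoc x, T.frame.mul_a hq.neg, mul_zero,
          T.frame.e0_mul (InL.refl T.frame.left.tame), add_zero, add_zero]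
      rw [hvdef, mul_assoc, e, mul_assoc (h : End'), ← mul_assoc a (c * x'), ← mul_assoc a c, T.a_mul_c,
        zero_mul, zero_mul, mul_zero]
    refine ⟨uu v hvr.sq, uu_mem hvr.tame, ?_, v, uu_inv_val _, uu_val _, hav, hva, hcv, hvc⟩
    rw [uu_val, uu_inv_val, add_mul, one_mul, mul_sub, mul_one, add_mul, hvbv, sub_eq_add_neg b b2, ← hz]
    abel
  obtain ⟨v, hgi, hgval, hav, hva, hcv, hvc⟩ := hgv
  obtain ⟨x', h, hhG, -, -, hv, hvi⟩ := T.exists_torus hy h0
  obtain ⟨p1, p2, -, -⟩ := T.torus_products hy hv hvi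
  rw [← hc] at hv hvi
  set b1 := b - b2 with hb1def
  set b' := (h : End') * b1 * ((h⁻¹ : GL') : End') with hb'def
  have hb2ker : LinearMap.ker c ≤ LinearMap.ker b2 := hq.ker
  have e0c : e0 c x * c = 0 := T.frame.e0_mul (InL.refl T.frame.left.tame)
  have ce0 : c * e0 c x = 0 := T.frame.mul_e0 (InL.refl T.frame.left.tame)
  have e0b2 : e0 c x * b2 = 0 := T.frame.e0_mul hq
  have b2e0 : b2 * e0 c x = 0 := T.frame.mul_e0 hq
  have b2c : b2 * c = 0 := T.frame.mul_a hq
  have b1c : b1 * c = 0 := by rw [hb1def, sub_mul, T.b_mul_c, b2c, sub_zero]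
  have cb1 : c * b1 = 0 := by rw [hb1def, mul_sub, T.c_mul_b, T.frame.a_mul hq, sub_zero]
  have e0sq : e0 c x * e0 c x = e0 c x := T.frame.e0_sq
  -- the two parts of `b1`
  have hsplit : b1 = b * e0 c x + e0 c x * b * x * c := by
    rw [hb1def, e0]
    have hcb' : ∀ t, c * (b * t) = 0 := fun t => by rw [← mul_assoc, T.c_mul_b, zero_mul]
    have hbc' : ∀ t, b * (c * t) = 0 := fun t => by rw [← mul_assoc, T.b_mul_c, zero_mul]
    simp only [sub_mul, mul_sub, one_mul, mul_one, mul_assoc, b2, hbc', hcb', mul_zero, sub_zero]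
    abel
  have hP : ∀ m, (b * e0 c x) m ∈ LinearMap.range (b * a) := fun m =>
    T.b_ker (LinearMap.congr_fun ce0 m)
  have hVb1 : b1 * a = b * a := by rw [hb1def, sub_mul, mul_zero_left hq.ker T.c_mul_a, sub_zero]
  have hin : InL G b1 b' := by
    have hb1t : Tame G b1 := hg1 ▸ T.right.tame.conjUnit hgG
    refine ⟨hb1t.conjUnit hhG, ?_, ?_⟩
    · rintro _ ⟨m, rfl⟩
      obtain ⟨u, hu⟩ := hP (((h⁻¹ : GL') : End') m)
      have : b' m = (y * x) ((b * e0 c x) (((h⁻¹ : GL') : End') m)) +
          (e0 c x * b * x * c) (((h⁻¹ : GL') : End') m) := by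
        have h1 : (h : End') * (b * e0 c x) = y * x * (b * e0 c x) := by
          rw [hv, add_mul, add_mul, mul_assoc x', ← mul_assoc c, T.c_mul_b, zero_mul, mul_zero, add_zero]
          refine add_eq_left.2 ?_
          rw [← mul_assoc]
          refine LinearMap.ext fun n => ?_
          obtain ⟨u', hu'⟩ := T.range_V (hP n)
          show e0 c x ((b * e0 c x) n) = 0
          rw [← hu']
          exact LinearMap.congr_fun e0c u'
        have h2 : (h : End') * (e0 c x * b * x * c) = e0 c x * b * x * c := by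
          rw [hv, add_mul, add_mul]
          simp only [← mul_assoc]
          rw [e0sq, show x' * c * e0 c x = 0 by rw [mul_assoc, ce0, mul_zero],
            show y * x * e0 c x = 0 by
              rw [mul_assoc, ← Frame.e0_swap, T.frame.symm.mul_e0 (InL.refl T.frame.right.tame), mul_zero]]
          simp
        rw [hb'def, hsplit, mul_add, add_mul, h1, h2]
        rfl
      rw [this, ← hu]
      refine add_mem ?_ ⟨(x * c) (((h⁻¹ : GL') : End') m), ?_⟩
      · show (y * x * (b * a)) u ∈ _
        rw [← (T.commute_proj hy).2, ← hVb1, mul_assoc b1, mul_assoc b1]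
        exact ⟨_, rfl⟩
      · rw [hsplit, LinearMap.add_apply]
        have : (b * e0 c x) ((x * c) (((h⁻¹ : GL') : End') m)) = 0 := by
          rw [← Module.End.mul_apply, mul_assoc b, ← mul_assoc (e0 c x),
            show e0 c x * x = 0 by rw [← Frame.e0_swap]; exact T.frame.symm.e0_mul (InL.refl T.frame.right.tame),
            zero_mul, mul_zero, LinearMap.zero_apply]
        rw [this, zero_add, ← Module.End.mul_apply, show e0 c x * b * x * c * (x * c) = e0 c x * b * x * (c * x * c) by
          simp only [mul_assoc], T.frame.axa]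
    · intro m hm
      rw [LinearMap.mem_ker, hsplit, LinearMap.add_apply] at hm
      have hS : (e0 c x * b * x * c) m = 0 := by
        have h1 := congrArg (e0 c x) hm
        rw [map_add, map_zero] at h1
        have h2 : e0 c x ((b * e0 c x) m) = 0 := by
          obtain ⟨u', hu'⟩ := T.range_V (hP m)
          rw [← hu']; exact LinearMap.congr_fun e0c u'
        rw [h2, zero_add] at h1
        rwa [← Module.End.mul_apply, ← mul_assoc, ← mul_assoc, ← mul_assoc, e0sq] at h1
      have hPm : (b * e0 c x) m = 0 := by rwa [hS, add_zero] at hm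
      -- the lower part
      set n := (x * c) m with hn
      have hbn : e0 c x (b n) = 0 := hS
      have hbnI : b n ∈ LinearMap.range c := by
        have h1 : b n = (c * x) (b n) + (x * c) (b n) + e0 c x (b n) := by
          simp [e0]
        have h2 : (x * c) (b n) = 0 := by
          rw [Module.End.mul_apply, ← Module.End.mul_apply c b, T.c_mul_b, LinearMap.zero_apply, map_zero]
        rw [h1, h2, hbn, add_zero, add_zero]
        exact ⟨_, rfl⟩
      have hU : (a * b) n = 0 := by
        rw [hc, T.data.range] at hbnI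
        obtain ⟨p, hp, q, hq', e⟩ := Submodule.mem_sup.1 hbnI
        have hpb : p ∈ LinearMap.range a ⊓ LinearMap.range b :=
          ⟨(T.data.ab.le hp).1, by
            have : p = b n - q := eq_sub_of_add_eq e
            rw [this]
            exact sub_mem ⟨n, rfl⟩ (T.data.ba.le hq').1⟩
        rw [T.data.disj', Submodule.mem_bot] at hpb
        rw [hpb, zero_add] at e
        obtain ⟨u', rfl⟩ := hq'
        rw [Module.End.mul_apply, ← e, ← Module.End.mul_apply, ← mul_assoc, T.nil, LinearMap.zero_apply]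
      have hm1 : (a * b) m = 0 := by
        rw [← T.rfix T.ker_U, mul_assoc]
        exact hU
      have hU2 : (a * b) ((x * y) m) = 0 := by
        rw [← Module.End.mul_apply, ← mul_assoc, (T.commute_proj hy).1, Module.End.mul_apply, hm1, map_zero]
      have hbxy : e0 c x (b ((x * y) m)) = 0 := by
        have hbk : b ((x * y) m) ∈ LinearMap.range b ⊓ LinearMap.ker a := ⟨⟨_, rfl⟩, hU2⟩
        rw [← T.data.ba] at hbk
        obtain ⟨u', hu'⟩ := T.range_V hbk
        rw [← hu']; exact LinearMap.congr_fun e0c u'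
      rw [LinearMap.mem_ker]
      show ((h : End') * b1 * ((h⁻¹ : GL') : End')) m = 0
      have e1 : b1 * ((h⁻¹ : GL') : End') = b * e0 c x + e0 c x * b * x * y := by
        rw [hsplit, hvi]
        have x1 : e0 c x * x = 0 := by
          rw [← Frame.e0_swap]; exact T.frame.symm.e0_mul (InL.refl T.frame.right.tame)
        simp only [add_mul, mul_add, mul_assoc, e0sq, ce0, mul_zero, add_zero]
        have z1 : e0 c x * (c * x') = 0 := by rw [← mul_assoc, e0c, zero_mul]
        have z2 : e0 c x * (x * y) = 0 := by rw [← mul_assoc, x1, zero_mul]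
        have z3 : c * (c * x') = 0 := by rw [← mul_assoc, T.frame.left.sq, zero_mul]
        have z4 : x * (c * (x * y)) = x * y := by
          rw [← mul_assoc c, T.lfix hy.im]
        simp only [z1, z2, z3, z4, mul_zero, zero_add, add_zero]
        abel
      rw [mul_assoc, e1, Module.End.mul_apply, LinearMap.add_apply, hPm, zero_add,
        show (e0 c x * b * x * y) m = e0 c x (b ((x * y) m)) from rfl, hbxy, map_zero]
  refine ⟨((g⁻¹ : GL') : End') * b' * (g : End'), ?_, ?_⟩
  · have := hin.conj (inv_mem hgG)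
    rw [inv_inv] at this
    have e : ((g⁻¹ : GL') : End') * b1 * (g : End') = b := by
      rw [← hg1, ← mul_assoc, ← mul_assoc, Units.inv_mul, one_mul, mul_assoc, Units.inv_mul, mul_one]
    rwa [e] at this
  · -- the commutator
    set b'2 := (h : End') * b2 * ((h⁻¹ : GL') : End')
    have hb'2 : b'2 = y * x * b2 * x * y := by
      show (h : End') * b2 * ((h⁻¹ : GL') : End') = _
      have l : (h : End') * b2 = y * x * b2 := by
        rw [hv, add_mul, add_mul, mul_assoc x' c, T.frame.a_mul hq, mul_zero, e0b2, add_zero, add_zero]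
      have r : b2 * ((h⁻¹ : GL') : End') = b2 * x * y := by
        rw [hvi, mul_add, mul_add, ← mul_assoc b2 c, b2c, zero_mul, b2e0, zero_add, add_zero, ← mul_assoc]
      rw [l, mul_assoc, r]
      simp only [mul_assoc]
    have hz2 : a * b'2 = 0 ∧ b'2 * a = 0 := by
      rw [hb'2]
      constructor
      · simp only [← mul_assoc]
        rw [mul_zero_right hy.im T.a_mul_c]; simp
      · simp only [mul_assoc]
        rw [mul_zero_left hy.ker T.c_mul_a]; simp
    have hb'eq : b' = (h : End') * b * ((h⁻¹ : GL') : End') - b'2 := by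
      rw [hb'def, hb1def, mul_sub, sub_mul]
    have hzab : zz a b' = y := by
      rw [zz, hb'eq, mul_sub, sub_mul, hz2.1, hz2.2, sub_zero, sub_zero, p1, p2]
      exact (T.phi_eq hy).1
    have hab' : a * b' = a * b * x * y := by rw [hb'eq, mul_sub, hz2.1, sub_zero, p1]
    have hba' : b' * a = y * x * (b * a) := by rw [hb'eq, sub_mul, hz2.2, sub_zero, p2]
    have yv : y * v = 0 := mul_zero_left hy.ker hcv
    have vy : v * y = 0 := mul_zero_right hy.im hvc
    rw [zz, hgi, hgval]
    have k1 : a * ((1 - v) * b' * (1 + v)) = a * b' := by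
      rw [← mul_assoc, ← mul_assoc, mul_sub, mul_one, hav, sub_zero, mul_add, mul_one, hab',
        mul_assoc _ y v, yv, mul_zero, add_zero]
    have k2 : (1 - v) * b' * (1 + v) * a = b' * a := by
      rw [mul_assoc _ (1 + v) a, add_mul, one_mul, hva, add_zero, mul_assoc, sub_mul, one_mul, hba',
        ← mul_assoc v, ← mul_assoc v, vy, zero_mul, zero_mul, sub_zero]
    rw [k1, k2]
    exact hzab

end Two

end Cfsg.Agent.QPair
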