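import Cfsg.Agent.QPair.ClassTwo

/-! The commutator of two root subgroups, as subgroups. -/

set_option autoImplicit false

namespace Cfsg.Agent.QPair

open Cfsg Cfsg.Agent.Quad
open scoped commutatorElement

variable {k : Type*} [Field k] {M : Type*} [AddCommGroup M] [Module k M] [FiniteDimensional k M]

local notation "GL'" => LinearMap.GeneralLinearGroup k M
local notation "End'" => Module.End k M

variable {G : Subgroup (LinearMap.GeneralLinearGroup k M)} {a b c x y a' b' : Module.End k M} {d : ℕ}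
  {g h : LinearMap.GeneralLinearGroup k M}

omit [FiniteDimensional k M] in
theorem dev_comm (h1 : dev g * dev g = 0) (h2 : dev h * dev h = 0) (h3 : dev g * dev h * dev g = 0)
    (h4 : dev h * dev g * dev h = 0) : dev (g * h * g⁻¹ * h⁻¹) = zz (dev g) (dev h) := by
  rw [show g * h * g⁻¹ * h⁻¹ = (g * h * g⁻¹) * h⁻¹ from rfl, dev_mul, dev_conj, dev_inv h2, inv_val h1, val_eq g]
  simp only [zz, add_mul, mul_sub, one_mul, mul_one, sub_mul, mul_neg, h3, h2, zero_mul]
  have e1 : dev g * dev h * dev h = 0 := by rw [mul_assoc, h2, mul_zero]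
  have e2 : dev h * dev g * dev h = 0 := h4
  simp only [e1, e2]
  abel

theorem surj' (hss : SS G) (hd : Deg G d) (ha : Root G d a) (hb : Root G d b)
    (h : a * b * a = 0) (h0 : zz a b ≠ 0) (hy : InL G (zz a b) y) : ∃ b'', InL G b b'' ∧ zz a b'' = y := by
  obtain ⟨x, T⟩ := exists_two hss hd ha hb h h0
  exact T.surj hy

theorem comm_closure (hss : SS G) (P : NilPair G d a b) (h0 : zz a b ≠ 0) (hz : Root G d (zz a b))
    {e : GL'} (he : e ∈ RS G a P.left.sq) (he1 : e ≠ 1) :
    Subgroup.closure ((fun f : GL' => e * f * e⁻¹ * f⁻¹) '' (RS G b P.right.sq : Set GL')) =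
      RS G (zz a b) hz.sq := by
  have hd := P.deg
  have hx := (mem_RS hd P.left).1 he
  have hx0 : dev e ≠ 0 := fun h => he1 (dev_eq_zero.1 h)
  have hxr := hx.root hd P.left hx0
  have hn : dev e * b * dev e = 0 := nil_all hd P.left P.right P.nil hx hx (InL.refl P.right.tame)
  have hzm := zz_mem hd P.left P.right P.nil h0 hx (InL.refl P.right.tame)
  have hz' : zz (dev e) b ≠ 0 := fun h => h0 (zz_eq_zero.2
    (comm_of_mem hd P.left P.right hx (InL.refl P.right.tame) hx0 (root_ne_zero hd P.right) (zz_eq_zero.1 h)))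
  refine le_antisymm ((Subgroup.closure_le _).2 ?_) fun g hg => ?_
  · rintro _ ⟨f, hf, rfl⟩
    have hf' := (mem_RS hd P.right).1 hf
    rw [SetLike.mem_coe, mem_RS hd hz, dev_comm hx.tame.sq hf'.tame.sq
      (nil_all hd P.left P.right P.nil hx hx hf') (nil_all' hd P.left P.right P.nil hx hf' hf')]
    exact zz_mem hd P.left P.right P.nil h0 hx hf'
  · have hy := (mem_RS hd hz).1 hg
    have hy' : InL G (zz (dev e) b) (dev g) :=
      ⟨hy.tame, hy.im.trans (hzm.range_eq hd hz hz').ge, (hzm.ker_eq hd hz hz').le.trans hy.ker⟩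
    obtain ⟨b'', hb'', e'⟩ := surj' hss hd hxr P.right hn hz' hy'
    refine Subgroup.subset_closure ⟨uu b'' hb''.tame.sq, uu_mem_RS hd P.right hb'', ?_⟩
    have hd' : dev (uu b'' hb''.tame.sq) = b'' := dev_uu _
    have := dev_comm (g := e) (h := uu b'' hb''.tame.sq) hx.tame.sq (by rw [hd']; exact hb''.tame.sq)
      (by rw [hd']; exact nil_all hd P.left P.right P.nil hx hx hb'')
      (by rw [hd']; exact nil_all' hd P.left P.right P.nil hx hb'' hb'')
    rw [hd', e'] at this
    exact Units.ext (by rw [val_eq g, val_eq (e * _ * _ * _), this])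

theorem comm_eq_RS (hss : SS G) (P : NilPair G d a b) (h0 : zz a b ≠ 0) (hz : Root G d (zz a b)) :
    ⁅RS G a P.left.sq, RS G b P.right.sq⁆ = RS G (zz a b) hz.sq := by
  refine le_antisymm (Subgroup.commutator_le.2 fun e he f hf => ?_) ?_
  · rw [mem_RS P.deg hz, commutatorElement_def, dev_comm ((mem_RS P.deg P.left).1 he).tame.sq
      ((mem_RS P.deg P.right).1 hf).tame.sq
      (nil_all P.deg P.left P.right P.nil ((mem_RS P.deg P.left).1 he) ((mem_RS P.deg P.left).1 he)
        ((mem_RS P.deg P.right).1 hf))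
      (nil_all' P.deg P.left P.right P.nil ((mem_RS P.deg P.left).1 he) ((mem_RS P.deg P.right).1 hf)
        ((mem_RS P.deg P.right).1 hf))]
    exact zz_mem P.deg P.left P.right P.nil h0 ((mem_RS P.deg P.left).1 he) ((mem_RS P.deg P.right).1 hf)
  · have he := uu_mem_RS P.deg P.left (InL.refl P.left.tame)
    rw [← comm_closure hss P h0 hz he (fun e => root_ne_zero P.deg P.left (by
      rw [← dev_uu P.left.sq, e, dev_one])), Subgroup.closure_le]
    rintro _ ⟨f, hf, rfl⟩
    exact Subgroup.commutator_mem_commutator he hf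

theorem comm_closure' (hss : SS G) (P : NilPair G d a b) (h0 : zz a b ≠ 0)
    (hz : Root G d (zz a b)) {f : GL'} (hf : f ∈ RS G b P.right.sq) (hf1 : f ≠ 1) :
    Subgroup.closure ((fun e : GL' => e * f * e⁻¹ * f⁻¹) '' (RS G a P.left.sq : Set GL')) =
      RS G (zz a b) hz.sq := by
  have h0' : zz b a ≠ 0 := by rw [zz_swap, neg_ne_zero]; exact h0
  have hz' := root_zz P.deg P.symm.left P.symm.right P.symm.nil h0'
  have key := comm_closure hss P.symm h0' hz' hf hf1
  have hneg : InL G (zz b a) (zz a b) := by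
    have := (InL.refl hz'.tame).neg
    rw [zz_swap (a := a) (b := b)] at this ⊢
    rwa [neg_neg] at this
  rw [RS_eq P.deg hz' hz hneg, ← key, ← Subgroup.closure_inv]
  congr 1
  ext g
  simp only [Set.mem_inv, Set.mem_image]
  constructor
  · rintro ⟨e, he, h⟩
    exact ⟨e, he, by rw [← inv_inv g, ← h]; group⟩
  · rintro ⟨e, he, h⟩
    exact ⟨e, he, by rw [← h]; group⟩

theorem core_mem (P : NilPair G d a b) (hz : Root G d (zz a b)) (h0 : zz a b ≠ 0)
    (hg : g ∈ RS G a P.left.sq ⊔ RS G b P.right.sq) :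
    g ∈ quadraticUnipotentCore G (RS G (zz a b) hz.sq) := by
  have hd := P.deg
  set c := zz a b with hc
  have hfix : fixedSubmodule (RS G c hz.sq) = LinearMap.ker c := by
    refine le_antisymm ((iInf₂_le (uu c hz.sq) (uu_mem_RS hd hz (InL.refl hz.tame))).trans
      (le_of_eq (congrArg LinearMap.ker (dev_uu hz.sq)))) (le_iInf₂ fun u hu => ?_)
    exact ((mem_RS hd hz).1 hu).ker
  have hcom : commutatorSubmodule (RS G c hz.sq) = LinearMap.range c := by
    refine le_antisymm (iSup₂_le fun u hu => ((mem_RS hd hz).1 hu).im) ?_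
    refine le_trans ?_ (le_iSup₂ (uu c hz.sq) (uu_mem_RS hd hz (InL.refl hz.tame)))
    exact le_of_eq (congrArg LinearMap.range (dev_uu hz.sq)).symm
  have gens : ∀ {p : End'}, InL G a p ∨ InL G b p → c * p = 0 ∧ p * c = 0 ∧
      (∀ m, c m = 0 → p m ∈ LinearMap.range c) := by
    have D := nilData hd P.left P.right P.nil h0
    have h1 := zz_mul_left P.left.sq P.nil
    have h2 := zz_mul_right P.left.sq P.nil
    have h3 : b * c = 0 := by rw [hc, zz_swap (a := b) (b := a), mul_neg, zz_mul_left P.right.sq P.symm.nil, neg_zero]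
    have h4 : c * b = 0 := by rw [hc, zz_swap (a := b) (b := a), neg_mul, zz_mul_right P.right.sq P.symm.nil, neg_zero]
    rintro p (hp | hp)
    · refine ⟨mul_zero_right hp.im h2, mul_zero_left hp.ker h1, fun m hm => ?_⟩
      have : m ∈ (LinearMap.ker b ⊔ LinearMap.range a) ⊓ (LinearMap.ker a ⊔ LinearMap.range b) := by
        rw [← D.ker]; exact hm
      obtain ⟨v, hv, _, ⟨u, rfl⟩, rfl⟩ := Submodule.mem_sup.1 this.2
      rw [map_add, LinearMap.mem_ker.1 (hp.ker hv), zero_add]
      refine D.range.ge (Submodule.mem_sup_left (D.ab.ge ⟨hp.im ⟨_, rfl⟩, ?_⟩))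
      exact LinearMap.congr_fun (P.t2 hp (InL.refl P.right.tame) (InL.refl P.right.tame)) u
    · refine ⟨mul_zero_right hp.im h4, mul_zero_left hp.ker h3, fun m hm => ?_⟩
      have : m ∈ (LinearMap.ker b ⊔ LinearMap.range a) ⊓ (LinearMap.ker a ⊔ LinearMap.range b) := by
        rw [← D.ker]; exact hm
      obtain ⟨v, hv, _, ⟨u, rfl⟩, rfl⟩ := Submodule.mem_sup.1 this.1
      rw [map_add, LinearMap.mem_ker.1 (hp.ker hv), zero_add]
      refine D.range.ge (Submodule.mem_sup_right (D.ba.ge ⟨hp.im ⟨_, rfl⟩, ?_⟩))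
      exact LinearMap.congr_fun (P.t1 (InL.refl P.left.tame) hp (InL.refl P.left.tame)) u
  have key : ∀ g ∈ RS G a P.left.sq ⊔ RS G b P.right.sq,
      c * dev g = 0 ∧ dev g * c = 0 ∧ (∀ m, c m = 0 → dev g m ∈ LinearMap.range c) := by
    intro g hg
    rw [Subgroup.sup_eq_closure] at hg
    have base : ∀ {u : GL'}, u ∈ (RS G a P.left.sq : Set GL') ∪ (RS G b P.right.sq : Set GL') →
        InL G a (dev u) ∨ InL G b (dev u) := fun hu => hu.imp (mem_RS hd P.left).1 (mem_RS hd P.right).1
    induction hg using Subgroup.closure_induction'' with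
    | one => simp [dev_one]
    | mem u hu => exact gens (base hu)
    | inv_mem u hu => exact gens (base (hu.imp inv_mem inv_mem))
    | mul u v _ _ iu iv =>
      obtain ⟨u1, u2, u3⟩ := iu
      obtain ⟨v1, v2, v3⟩ := iv
      rw [dev_mul]
      refine ⟨?_, ?_, fun m hm => ?_⟩
      · rw [mul_add, mul_add, u1, v1, ← mul_assoc, u1, zero_mul]; simp
      · rw [add_mul, add_mul, u2, v2, mul_assoc, v2, mul_zero]; simp
      · rw [LinearMap.add_apply, LinearMap.add_apply]
        refine add_mem (add_mem ?_ (u3 m hm)) (v3 m hm)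
        obtain ⟨w, hw⟩ := v3 m hm
        rw [Module.End.mul_apply, ← hw, ← Module.End.mul_apply, u2, LinearMap.zero_apply]
        exact zero_mem _
  obtain ⟨k1, k2, k3⟩ := key g hg
  have hcomm : ∀ u ∈ RS G c hz.sq, g * u = u * g := fun u hu => comm_iff.2 (by
    have hu' := (mem_RS hd hz).1 hu
    rw [mul_zero_right hu'.im k2, mul_zero_left hu'.ker k1])
  refine ⟨sup_le (RS_le hd P.left) (RS_le hd P.right) hg, ?_, fun m => ?_, fun m hm => ?_, fun m hm => ?_⟩
  · rw [Subgroup.mem_normalizer_iff]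
    intro u
    constructor
    · intro hu; rwa [hcomm u hu, mul_inv_cancel_right]
    · intro hu
      have := hcomm _ hu
      have e : u = g * u * g⁻¹ := by
        rw [← mul_right_inj g]; rw [this, inv_mul_cancel_right]
      rwa [e]
  · rw [hfix, LinearMap.mem_ker]
    exact LinearMap.congr_fun k1 m
  · rw [hcom]
    rw [hfix] at hm
    exact k3 m hm
  · rw [hcom] at hm
    obtain ⟨u, rfl⟩ := hm
    rw [← sub_eq_zero]
    exact LinearMap.congr_fun k2 u

theorem class_two (P : NilPair G d a b) (h : a * b ≠ b * a) :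
    ⁅RS G a P.left.sq ⊔ RS G b P.right.sq, RS G a P.left.sq ⊔ RS G b P.right.sq⁆ ≠ ⊥ ∧
    ⁅⁅RS G a P.left.sq ⊔ RS G b P.right.sq, RS G a P.left.sq ⊔ RS G b P.right.sq⁆,
      RS G a P.left.sq ⊔ RS G b P.right.sq⁆ = ⊥ := by
  set X := RS G a P.left.sq ⊔ RS G b P.right.sq
  constructor
  · intro e
    have h1 := Subgroup.commutator_eq_bot_iff_le_centralizer.1 e
      (Subgroup.mem_sup_left (uu_mem_RS P.deg P.left (InL.refl P.left.tame)))
    have h2 := Subgroup.mem_centralizer_iff.1 h1 _
      (Subgroup.mem_sup_right (uu_mem_RS P.deg P.right (InL.refl P.right.tame)))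
    have := comm_iff.1 h2
    rw [dev_uu, dev_uu] at this
    exact h this.symm
  have hcom : ⁅X, X⁆ ≤ Subgroup.centralizer (X : Set GL') := by
    refine Subgroup.commutator_le.2 fun g hg h hh => ?_
    rw [Subgroup.mem_centralizer_iff]
    intro u hu
    have hgN := P.dev_mem hg
    have hhN := P.dev_mem hh
    have hN2 : dev ⁅g, h⁆ ∈ N2 G a b := by
      have e : dev ⁅g, h⁆ = ((g * h : GL') - (h * g : GL') : End') * (((h * g)⁻¹ : GL') : End') := by
        rw [sub_mul, Units.mul_inv, ← Units.val_mul, show g * h * (h * g)⁻¹ = ⁅g, h⁆ by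
          rw [commutatorElement_def]; group]
        rfl
      have e' : ((g * h : GL') : End') - (h * g : GL') = dev g * dev h - dev h * dev g := by
        rw [Units.val_mul, Units.val_mul, val_eq g, val_eq h]
        simp only [add_mul, mul_add, one_mul, mul_one]
        abel
      have hsub : dev g * dev h - dev h * dev g ∈ N2 G a b := sub_mem (P.N1_mul hgN hhN) (P.N1_mul hhN hgN)
      rw [e, e', show (((h * g)⁻¹ : GL') : End') = 1 + dev (h * g)⁻¹ from val_eq _, mul_add, mul_one,
        P.N2_mul hsub (P.dev_mem (inv_mem (mul_mem hh hg))), add_zero]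
      exact hsub
    exact comm_iff.2 (by rw [P.N2_mul hN2 (P.dev_mem hu), P.mul_N2 (P.dev_mem hu) hN2])
  exact Subgroup.commutator_eq_bot_iff_le_centralizer.2 hcom

theorem unipotent_result (hss : SS G) (P : NilPair G d a b) (h : a * b ≠ b * a) :
    ⁅RS G a P.left.sq, RS G b P.right.sq⁆ ∈ quadraticRootSubgroups G ∧
    (∀ e ∈ RS G a P.left.sq, e ≠ 1 → Subgroup.closure ((fun f : GL' => e * f * e⁻¹ * f⁻¹) ''
      (RS G b P.right.sq : Set GL')) = ⁅RS G a P.left.sq, RS G b P.right.sq⁆) ∧
    (∀ f ∈ RS G b P.right.sq, f ≠ 1 → Subgroup.closure ((fun e : GL' => e * f * e⁻¹ * f⁻¹) ''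
      (RS G a P.left.sq : Set GL')) = ⁅RS G a P.left.sq, RS G b P.right.sq⁆) ∧
    ((RS G a P.left.sq ⊔ RS G b P.right.sq : Subgroup GL') : Set GL') ⊆
      quadraticUnipotentCore G ⁅RS G a P.left.sq, RS G b P.right.sq⁆ := by
  have h0 : zz a b ≠ 0 := sub_ne_zero.2 h
  have hz := root_zz P.deg P.left P.right P.nil h0
  rw [comm_eq_RS hss P h0 hz]
  exact ⟨RS_mem P.deg hz, fun e he he1 => comm_closure hss P h0 hz he he1,
    fun f hf hf1 => comm_closure' hss P h0 hz hf hf1, fun g hg => core_mem P hz h0 hg⟩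

end Cfsg.Agent.QPair
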