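import Cfsg.Agent.QPair.Dickson

/-! A noncentral normal subgroup of `SL₂` contains a transvection. -/

set_option autoImplicit false

namespace Cfsg.Agent.QPair.SL2Ring

open Matrix

variable {K : Type*} [Field K]

theorem lower_unip_of_normal (h2 : (2 : K) ≠ 0) {s : K} (hs0 : s ≠ 0) (hs1 : s ^ 2 ≠ 1) (N : Subgroup (S2 K))
    [N.Normal] {g : S2 K} (hg : g ∈ N) (hg10 : g 1 0 ≠ 0) : ∃ u : K, u ≠ 0 ∧ lR u ∈ N := by
  -- clear the corner
  have corner : ∀ g ∈ N, g 1 0 ≠ 0 → ∃ g' ∈ N, g' 0 0 = 0 ∧ g' 1 0 = g 1 0 ∧ g' 1 1 = g 0 0 + g 1 1 := by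
    intro g hg h10
    refine ⟨uR (-(g 0 0 / g 1 0)) * g * (uR (-(g 0 0 / g 1 0)))⁻¹, Subgroup.Normal.conj_mem ‹_› g hg _, ?_, ?_, ?_⟩
    · simp; field_simp; ring
    · simp
    · simp; field_simp
  obtain ⟨g, hg, h00, hc, ht⟩ : ∃ g' ∈ N, g' 0 0 = 0 ∧ g' 1 0 ≠ 0 ∧ g' 1 1 ≠ 0 := by
    obtain ⟨g', hg', e0, e1, -⟩ := corner g hg hg10
    by_cases ht : g' 1 1 = 0
    · have hc : g' 1 0 ≠ 0 := e1 ▸ hg10
      obtain ⟨w, hw0, hw⟩ : ∃ w : K, w ≠ 0 ∧ 2 + w ^ 2 ≠ 0 := by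
        by_cases h3 : (3 : K) = 0
        · exact ⟨s, hs0, fun e => hs1 (by linear_combination e - h3)⟩
        · exact ⟨1, one_ne_zero, fun e => h3 (by linear_combination e)⟩
      set u := w / g' 1 0 with hu
      set h := g' * uR u * g'⁻¹ * (uR u)⁻¹ with hh
      have hhN : h ∈ N := by
        rw [hh, show g' * uR u * g'⁻¹ * (uR u)⁻¹ = g' * (uR u * g'⁻¹ * (uR u)⁻¹) by group]
        exact mul_mem hg' (Subgroup.Normal.conj_mem ‹_› _ (inv_mem hg') _)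
      have hd := det_eq g'
      rw [e0, zero_mul, zero_sub] at hd
      have h10 : h 1 0 = -(g' 1 0 ^ 2 * u) := by simp [hh, e0, ht]; ring
      have htr : h 0 0 + h 1 1 = 2 + w ^ 2 := by
        have : w = g' 1 0 * u := by rw [hu]; field_simp
        rw [this]
        simp [hh, e0, ht]
        linear_combination (2 : K) * hd
      obtain ⟨h', hh', f0, f1, f2⟩ := corner h hhN (by
        rw [h10, neg_ne_zero]; exact mul_ne_zero (pow_ne_zero 2 hc) (div_ne_zero hw0 hc))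
      exact ⟨h', hh', f0, by rw [f1, h10, neg_ne_zero]; exact mul_ne_zero (pow_ne_zero 2 hc) (div_ne_zero hw0 hc),
        by rw [f2, htr]; exact hw⟩
    · exact ⟨g', hg', e0, e1 ▸ hg10, ht⟩
  set c := g 1 0 with hcdef
  set t := g 1 1 with htdef
  have hd := det_eq g
  rw [h00, zero_mul, zero_sub, ← hcdef] at hd
  set h := dR (Units.mk0 s hs0)
  set m := h * g * h⁻¹ * g⁻¹ with hm
  have hmN : m ∈ N := by
    rw [hm]; exact mul_mem (Subgroup.Normal.conj_mem ‹_› g hg _) (inv_mem hg)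
  have m01 : m 0 1 = 0 := by simp [hm, h, h00]
  have m00 : m 0 0 = s ^ 2 := by
    simp [hm, h, h00, ← hcdef]
    linear_combination s * s * hd
  have m11 : m 1 1 = (s ^ 2)⁻¹ := by
    simp [hm, h, h00, ← hcdef]
    field_simp
    linear_combination hd
  have m10 : m 1 0 = t * c * ((s ^ 2)⁻¹ - 1) := by
    simp [hm, h, h00, ← hcdef, ← htdef]
    field_simp
    ring
  have hsi : (s ^ 2)⁻¹ ≠ 1 := fun e => hs1 (inv_eq_one.1 e)
  have m10' : m 1 0 ≠ 0 := by rw [m10]; exact mul_ne_zero (mul_ne_zero ht hc) (sub_ne_zero.2 hsi)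
  by_cases hs4 : (s ^ 2) ^ 2 = 1
  · have hs2 : s ^ 2 = -1 := by
      rcases mul_self_eq_one_iff.1 ((pow_two (s ^ 2)).symm.trans hs4) with r | r
      · exact absurd r hs1
      · exact r
    refine ⟨-(2 * m 1 0), neg_ne_zero.2 (mul_ne_zero h2 m10'), ?_⟩
    have : lR (-(2 * m 1 0)) = m * m := by
      apply ext2 <;> simp [m00, m01, m11, hs2] <;> ring
    rw [this]; exact mul_mem hmN hmN
  · refine ⟨((s ^ 2)⁻¹) ^ 2 - 1, fun e => hs4 ?_, ?_⟩
    · rw [sub_eq_zero, inv_pow, inv_eq_one] at e; exact e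
    · have : lR (((s ^ 2)⁻¹) ^ 2 - 1) = m * (lR 1 * m⁻¹ * (lR 1)⁻¹) := by
        apply ext2 <;> simp [m00, m01, m11] <;> field_simp <;> ring
      rw [this]
      exact mul_mem hmN (Subgroup.Normal.conj_mem ‹_› _ (inv_mem hmN) _)

end Cfsg.Agent.QPair.SL2Ring
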