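import Cfsg.Agent.QPair.Commutator

/-! Semisimplicity passes to normal subgroups. -/

set_option autoImplicit false

namespace Cfsg.Agent.QPair

open Cfsg Cfsg.Agent.Quad

variable {k : Type*} [Field k] {M : Type*} [AddCommGroup M] [Module k M] [FiniteDimensional k M]

local notation "GL'" => LinearMap.GeneralLinearGroup k M
local notation "End'" => Module.End k M

variable {H N : Subgroup (LinearMap.GeneralLinearGroup k M)} {V W : Submodule k M}

theorem SS.normal (hH : SS H) (hN : N ≤ H) (hnorm : ∀ g ∈ H, ∀ n ∈ N, g * n * g⁻¹ ∈ N) : SS N := by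
  intro W hW
  refine hH W fun V hV => ?_
  obtain ⟨hV0, hVs, hVmin⟩ := hV
  set S := sSup {U | U ≤ V ∧ MinStab N U}
  have hSV : S ≤ V := sSup_le fun U hU => hU.1
  have hSs : Stab H S := by
    intro g hg v hv
    have : S ≤ S.comap (g : End') := by
      refine sSup_le fun U hU => ?_
      rw [← Submodule.map_le_iff_le_comap]
      refine le_sSup ⟨?_, ?_⟩
      · rintro _ ⟨u, hu, rfl⟩; exact hVs g hg u (hU.1 hu)
      obtain ⟨hU0, hUs, hUmin⟩ := hU.2
      have gi : ∀ m, ((g⁻¹ : GL') : End') ((g : End') m) = m := fun m => by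
        rw [← Module.End.mul_apply, Units.inv_mul, Module.End.one_apply]
      have ig : ∀ m, (g : End') (((g⁻¹ : GL') : End') m) = m := fun m => by
        rw [← Module.End.mul_apply, Units.mul_inv, Module.End.one_apply]
      refine ⟨fun e => hU0 ?_, ?_, fun T hT hTs => ?_⟩
      · rw [eq_bot_iff]
        intro u hu
        have : (g : End') u ∈ U.map (g : End') := ⟨u, hu, rfl⟩
        rw [e, Submodule.mem_bot] at this
        rw [Submodule.mem_bot, ← gi u, this, map_zero]
      · rintro n hn _ ⟨u, hu, rfl⟩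
        refine ⟨((g⁻¹ * n * g : GL') : End') u, hUs _ ?_ u hu, ?_⟩
        · have := hnorm g⁻¹ (inv_mem hg) n hn; rwa [inv_inv] at this
        · rw [Units.val_mul, Units.val_mul, Module.End.mul_apply, Module.End.mul_apply, ig]
      · have hT' : T.comap (g : End') ≤ U := fun u hu => by
          obtain ⟨u', hu', e⟩ := hT hu
          have e' := congrArg ((g⁻¹ : GL') : End') e
          rw [gi, gi] at e'
          exact e' ▸ hu'
        have hTs' : Stab N (T.comap (g : End')) := fun n hn u hu => by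
          have := hTs (g * n * g⁻¹) (hnorm g hg n hn) _ hu
          rw [Units.val_mul, Units.val_mul, Module.End.mul_apply, Module.End.mul_apply, gi] at this
          exact this
        rcases hUmin _ hT' hTs' with r | r
        · left
          rw [eq_bot_iff]
          intro t ht
          have : ((g⁻¹ : GL') : End') t ∈ T.comap (g : End') := by
            rw [Submodule.mem_comap, ig]; exact ht
          rw [r, Submodule.mem_bot] at this
          rw [Submodule.mem_bot, ← ig t, this, map_zero]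
        · right
          refine le_antisymm hT ?_
          rintro _ ⟨u, hu, rfl⟩
          exact (r.ge hu : _)
    exact this hv
  rcases hVmin S hSV hSs with h | h
  · exfalso
    obtain ⟨U, hU, hUm⟩ := exists_minStab (H := N) hV0 (fun g hg => hVs g (hN hg))
    refine hUm.1 ?_
    rw [eq_bot_iff, ← h]
    exact le_sSup ⟨hU, hUm⟩
  · rw [← h]; exact sSup_le fun U hU => hW U hU.2

omit [FiniteDimensional k M] in
theorem isNilpotent_apply {V : Submodule k M} {t : End'} (ht : IsNilpotent t) (hV : V ≠ ⊥)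
    (hs : ∀ v ∈ V, t v ∈ V) : V ⊓ LinearMap.ker t ≠ ⊥ := by
  obtain ⟨n, hn⟩ := ht
  obtain ⟨v, hv, hv0⟩ := (Submodule.ne_bot_iff _).1 hV
  intro h
  have key : ∀ i, (t ^ i) v ∈ V ∧ (t ^ i) v ≠ 0 := by
    intro i
    induction i with
    | zero => simpa using ⟨hv, hv0⟩
    | succ i ih =>
      rw [pow_succ', Module.End.mul_apply]
      refine ⟨hs _ ih.1, fun e => ih.2 ?_⟩
      have : (t ^ i) v ∈ V ⊓ LinearMap.ker t := ⟨ih.1, e⟩
      rwa [h, Submodule.mem_bot] at this
  exact (key n).2 (by rw [hn, LinearMap.zero_apply])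

/-- commuting nilpotent maps have a common zero on a stable subspace -/
theorem common_kernel {V : Submodule k M} (hV : V ≠ ⊥) {T : Set End'} (hn : ∀ t ∈ T, IsNilpotent t)
    (hc : ∀ s ∈ T, ∀ t ∈ T, Commute s t) (hs : ∀ t ∈ T, ∀ v ∈ V, t v ∈ V) :
    ∃ v ∈ V, v ≠ 0 ∧ ∀ t ∈ T, t v = 0 := by
  obtain ⟨U, ⟨hUV, hU0, hUs⟩, hmin⟩ :=
    (wellFounded_lt (α := Submodule k M)).has_min
      {U | U ≤ V ∧ U ≠ ⊥ ∧ ∀ t ∈ T, ∀ v ∈ U, t v ∈ U} ⟨V, le_rfl, hV, hs⟩
  obtain ⟨v, hv, hv0⟩ := (Submodule.ne_bot_iff _).1 hU0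
  refine ⟨v, hUV hv, hv0, fun t ht => ?_⟩
  have h1 : U ⊓ LinearMap.ker t = U := by
    by_contra hne
    refine hmin (U ⊓ LinearMap.ker t) ⟨inf_le_left.trans hUV, isNilpotent_apply (hn t ht) hU0 (hUs t ht),
      fun s hs' w hw => ⟨hUs s hs' w hw.1, ?_⟩⟩ (lt_of_le_of_ne inf_le_left hne)
    have := LinearMap.congr_fun (hc t ht s hs').eq w
    rw [Module.End.mul_apply, Module.End.mul_apply, LinearMap.mem_ker.1 hw.2, map_zero] at this
    exact this
  rw [← h1] at hv
  exact hv.2

theorem centralizes_of_commuting (hss : SS N) {e : GL'} (hnil : ∀ n ∈ N, IsNilpotent (dev (n * e * n⁻¹ * e⁻¹)))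
    (hmem : ∀ n ∈ N, n * e * n⁻¹ * e⁻¹ ∈ N)
    (hc : ∀ n ∈ N, ∀ m ∈ N, (n * e * n⁻¹) * (m * e * m⁻¹) = (m * e * m⁻¹) * (n * e * n⁻¹)) :
    ∀ n ∈ N, n * e = e * n := by
  set W : Submodule k M := ⨅ n ∈ N, LinearMap.ker (dev (n * e * n⁻¹ * e⁻¹))
  have htop : W = ⊤ := by
    refine hss W fun V hV => ?_
    obtain ⟨hV0, hVs, hVmin⟩ := hV
    have hcomm : ∀ n ∈ N, ∀ m ∈ N, (n * e * n⁻¹ * e⁻¹) * (m * e * m⁻¹ * e⁻¹) =
        (m * e * m⁻¹ * e⁻¹) * (n * e * n⁻¹ * e⁻¹) := fun n hn m hm => by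
      have c : ∀ p ∈ N, Commute (p * e * p⁻¹) e := fun p hp => by
        have := hc p hp 1 (one_mem N)
        simp only [one_mul, inv_one, mul_one] at this
        exact this
      have h1 : Commute (n * e * n⁻¹) (m * e * m⁻¹) := hc n hn m hm
      exact ((h1.mul_right (c n hn).inv_right).mul_left
        ((c m hm).symm.inv_left.mul_right (Commute.refl e⁻¹))).eq
    obtain ⟨v, hv, hv0, hvt⟩ := common_kernel hV0
      (T := {t | ∃ n ∈ N, t = dev (n * e * n⁻¹ * e⁻¹)})
      (by rintro _ ⟨n, hn, rfl⟩; exact hnil n hn)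
      (by rintro _ ⟨n, hn, rfl⟩ _ ⟨m, hm, rfl⟩; exact comm_iff.1 (hcomm n hn m hm))
      (by
        rintro _ ⟨n, hn, rfl⟩ w hw
        rw [dev, LinearMap.sub_apply, Module.End.one_apply]
        exact sub_mem (hVs _ (hmem n hn) w hw) hw)
    have hWs : Stab N W := by
      intro m hm w hw
      simp only [W, Submodule.mem_iInf, LinearMap.mem_ker] at hw ⊢
      intro n hn
      have fixw : ∀ p ∈ N, ((p * e * p⁻¹ * e⁻¹ : GL') : End') w = w := fun p hp => by
        have := hw p hp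
        rwa [dev, LinearMap.sub_apply, Module.End.one_apply, sub_eq_zero] at this
      have fixi : ∀ p ∈ N, (((p * e * p⁻¹ * e⁻¹)⁻¹ : GL') : End') w = w := fun p hp => by
        conv_lhs => rw [← fixw p hp]
        rw [← Module.End.mul_apply, Units.inv_mul, Module.End.one_apply]
      rw [dev, LinearMap.sub_apply, Module.End.one_apply, sub_eq_zero]
      have e1 : (n * e * n⁻¹ * e⁻¹) * m = m * (((m⁻¹ * n) * e * (m⁻¹ * n)⁻¹ * e⁻¹) *
          (m⁻¹ * e * m⁻¹⁻¹ * e⁻¹)⁻¹) := by group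
      rw [← Module.End.mul_apply, ← Units.val_mul, e1, Units.val_mul, Units.val_mul, Module.End.mul_apply,
        Module.End.mul_apply, fixi _ (inv_mem hm), fixw _ (mul_mem (inv_mem hm) hn)]
    rcases hVmin (V ⊓ W) inf_le_left (fun g hg w hw => ⟨hVs g hg w hw.1, hWs g hg w hw.2⟩) with h | h
    · exfalso
      refine hv0 ((Submodule.mem_bot k).1 ?_)
      rw [← h]
      refine ⟨hv, ?_⟩
      simp only [W, SetLike.mem_coe, Submodule.mem_iInf, LinearMap.mem_ker]
      exact fun n hn => hvt _ ⟨n, hn, rfl⟩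
    · exact h ▸ inf_le_right
  intro n hn
  have h0 : dev (n * e * n⁻¹ * e⁻¹) = 0 := LinearMap.ext fun m => by
    have : m ∈ W := htop ▸ Submodule.mem_top
    simp only [W, Submodule.mem_iInf, LinearMap.mem_ker] at this
    exact this n hn
  have := dev_eq_zero.1 h0
  rwa [mul_inv_eq_one, mul_inv_eq_iff_eq_mul] at this

end Cfsg.Agent.QPair
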