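import Cfsg.Prelude.Def_RootSubgroups

/-! Passing the root subgroup notions to an intermediate group. -/

set_option autoImplicit false
set_option linter.style.haveILetI false

namespace Cfsg.Agent.QPair

open Cfsg

variable {Γ : Type*} [Group Γ] {H A B : Subgroup Γ}

theorem map_sub (hA : A ≤ H) : (A.subgroupOf H).map H.subtype = A :=
  Subgroup.map_subgroupOf_eq_of_le hA

theorem conj_map (A' : Subgroup H) (h : H) :
    (conjBy A' h).map H.subtype = conjBy (A'.map H.subtype) (h : Γ) := by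
  rw [conjBy, conjBy, Subgroup.map_map, Subgroup.map_map]
  congr 1

theorem sub_inj (hA : A ≤ H) (hB : B ≤ H) (e : A.subgroupOf H = B.subgroupOf H) : A = B := by
  rw [← map_sub hA, ← map_sub hB, e]

theorem rankOne_sub (hA : A ≤ H) (hB : B ≤ H) (h : IsRankOnePair A B) :
    IsRankOnePair (A.subgroupOf H) (B.subgroupOf H) := by
  have key : ∀ {C D : Subgroup Γ}, C ≤ H → D ≤ H → RankOneCondition C D →
      RankOneCondition (C.subgroupOf H) (D.subgroupOf H) := by
    intro C D hC hD hc a ha ha1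
    obtain ⟨b, hb, hb1, he⟩ := hc (a : Γ) ha (fun e => ha1 (Subtype.ext e))
    refine ⟨⟨b, hD hb⟩, hb, fun e => hb1 (congrArg Subtype.val e), ?_⟩
    apply Subgroup.map_injective H.subtype_injective
    rw [conj_map, conj_map, map_sub hC, map_sub hD]
    exact he
  refine ⟨fun e => h.ne (sub_inj hA hB e), ?_, ?_, key hA hB h.cond_left, key hB hA h.cond_right⟩
  · haveI := h.nilpotent_left
    exact Group.nilpotent_of_mulEquiv (Subgroup.subgroupOfEquivOfLe hA).symm
  · haveI := h.nilpotent_right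
    exact Group.nilpotent_of_mulEquiv (Subgroup.subgroupOfEquivOfLe hB).symm

theorem comm_sub (hA : A ≤ H) (hB : B ≤ H) :
    ⁅A.subgroupOf H, B.subgroupOf H⁆.map H.subtype = ⁅A, B⁆ := by
  rw [Subgroup.map_commutator, map_sub hA, map_sub hB]

theorem commutatorCase_sub {S : Set (Subgroup Γ)} {S' : Set (Subgroup H)} (hS : ∀ C ∈ S, C.subgroupOf H ∈ S')
    (hA : A ≤ H) (hB : B ≤ H) (hle : ∀ C ∈ S, C ≤ H) (h : RootCommutatorCase S A B) :
    RootCommutatorCase S' (A.subgroupOf H) (B.subgroupOf H) := by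
  obtain ⟨h1, h2, h3, h4⟩ := h
  have e : ⁅A, B⁆.subgroupOf H = ⁅A.subgroupOf H, B.subgroupOf H⁆ := by
    apply Subgroup.map_injective H.subtype_injective
    rw [map_sub (hle _ h1), comm_sub hA hB]
  refine ⟨e ▸ hS _ h1, ?_, ?_, ?_⟩
  · intro c hc x hx
    apply Subtype.ext
    refine h2 c (by rw [← comm_sub hA hB]; exact ⟨c, hc, rfl⟩) x ?_
    have : (x : Γ) ∈ (A.subgroupOf H ⊔ B.subgroupOf H).map H.subtype := ⟨x, hx, rfl⟩
    rwa [Subgroup.map_sup, map_sub hA, map_sub hB] at this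
  · intro a ha ha1
    apply Subgroup.map_injective H.subtype_injective
    rw [comm_sub hA hB, MonoidHom.map_closure, Set.image_image]
    rw [← h3 (a : Γ) ha (fun e => ha1 (Subtype.ext e))]
    congr 1
    ext g
    constructor
    · rintro ⟨b, hb, rfl⟩; exact ⟨b, hb, rfl⟩
    · rintro ⟨b, hb, rfl⟩; exact ⟨⟨b, hB hb⟩, hb, rfl⟩
  · intro b hb hb1
    apply Subgroup.map_injective H.subtype_injective
    rw [comm_sub hA hB, MonoidHom.map_closure, Set.image_image]
    rw [← h4 (b : Γ) hb (fun e => hb1 (Subtype.ext e))]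
    congr 1
    ext g
    constructor
    · rintro ⟨a, ha, rfl⟩; exact ⟨a, ha, rfl⟩
    · rintro ⟨a, ha, rfl⟩; exact ⟨⟨a, hA ha⟩, ha, rfl⟩

/-- Root subgroup sets pass to the subgroup they generate. -/
theorem rootSet_sub {S : Set (Subgroup Γ)} (hH : H = ⨆ C ∈ S, C)
    (hcomm : ∀ C ∈ S, IsMulCommutative C) (hbot : ∀ C ∈ S, C ≠ ⊥)
    (hconj : ∀ C ∈ S, ∀ g ∈ H, conjBy C g ∈ S)
    (hpair : ∀ A ∈ S, ∀ B ∈ S, ⁅A, B⁆ = ⊥ ∨ IsRankOnePair A B ∨ RootCommutatorCase S A B) :
    IsRootSubgroupSet ((fun C : Subgroup Γ => C.subgroupOf H) '' S) := by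
  have hle : ∀ C ∈ S, C ≤ H := fun C hC => hH ▸ le_iSup₂ (f := fun C _ => C) C hC
  constructor
  · rintro _ ⟨C, hC, rfl⟩
    have := hcomm C hC
    exact ⟨⟨fun p q => Subtype.ext (Subtype.ext (show (p.1.1 * q.1.1 : Γ) = q.1.1 * p.1.1 from
      congrArg Subtype.val (this.is_comm.comm (⟨p.1.1, p.2⟩ : C) ⟨q.1.1, q.2⟩)))⟩⟩
  · rintro _ ⟨C, hC, rfl⟩ e
    apply hbot C hC
    dsimp only at e
    rw [← map_sub (hle C hC), e, Subgroup.map_bot]
  · apply Subgroup.map_injective H.subtype_injective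
    rw [← MonoidHom.range_eq_map, Subgroup.range_subtype]
    simp only [iSup_image, Subgroup.map_iSup]
    conv_rhs => rw [hH]
    exact iSup_congr fun C => iSup_congr fun hC => map_sub (hle C hC)
  · rintro _ ⟨C, hC, rfl⟩ g
    refine ⟨_, hconj C hC g g.2, ?_⟩
    apply Subgroup.map_injective H.subtype_injective
    rw [map_sub (hle _ (hconj C hC g g.2)), conj_map, map_sub (hle C hC)]
  · rintro _ ⟨A, hA, rfl⟩ _ ⟨B, hB, rfl⟩
    rcases hpair A hA B hB with h | h | h
    · refine Or.inl (Subgroup.map_injective H.subtype_injective ?_)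
      rw [comm_sub (hle A hA) (hle B hB), h, Subgroup.map_bot]
    · exact Or.inr (Or.inl (rankOne_sub (hle A hA) (hle B hB) h))
    · exact Or.inr (Or.inr (commutatorCase_sub (fun C hC => ⟨C, hC, rfl⟩) (hle A hA) (hle B hB) hle h))

end Cfsg.Agent.QPair
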