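import Cfsg.Agent.QPair.PSLPair
import Cfsg.Agent.QPair.Transfer
import Cfsg.Agent.QPair.Semisimple
import Cfsg.Agent.QPair.SL2Normal

/-! The components of the graph of rank one pairs generate quasisimple groups. -/

set_option autoImplicit false
set_option linter.style.haveILetI false

namespace Cfsg.Agent.QPair

open Cfsg Cfsg.Agent.Quad SL2Ring
open scoped commutatorElement

variable {k : Type*} [Field k] {M : Type*} [AddCommGroup M] [Module k M]

local notation "GL'" => LinearMap.GeneralLinearGroup k M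
local notation "End'" => Module.End k M
local notation "Sig" => quadraticRootSubgroups

variable {G : Subgroup (LinearMap.GeneralLinearGroup k M)} {a b x y : Module.End k M} {d : ℕ}
  {A B C : Subgroup (LinearMap.GeneralLinearGroup k M)} {g : LinearMap.GeneralLinearGroup k M}

namespace Frame

variable (F : Frame G d a x)
include F

theorem scale {c : k} (hc : c ≠ 0) : Frame G d (c • a) (c⁻¹ • x) where
  left := ⟨F.left.tame.smul c, by rw [rk, LinearMap.range_smul a c hc]; exact F.left.rank⟩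
  right := ⟨F.right.tame.smul c⁻¹, by rw [rk, LinearMap.range_smul x c⁻¹ (inv_ne_zero hc)]; exact F.right.rank⟩
  axa := by simp only [smul_mul_assoc, mul_smul_comm, smul_smul, F.axa]; congr 1; field_simp
  xax := by simp only [smul_mul_assoc, mul_smul_comm, smul_smul, F.xax]; congr 1; field_simp

theorem swapper_inv_val : ((F.swapper⁻¹ : GL') : End') = -a + x + e0 a x := by
  refine Units.inv_eq_of_mul_eq_one_right ?_
  rw [F.swapper_val]
  have h1 : a * e0 a x = 0 := F.mul_e0 (InL.refl F.left.tame)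
  have h2 : x * e0 a x = 0 := by rw [← e0_swap]; exact F.symm.mul_e0 (InL.refl F.right.tame)
  have h3 : e0 a x * a = 0 := F.e0_mul (InL.refl F.left.tame)
  have h4 : e0 a x * x = 0 := by rw [← e0_swap]; exact F.symm.e0_mul (InL.refl F.right.tame)
  simp only [add_mul, mul_add, sub_mul, mul_neg, h1, h2, h3, h4, F.e0_sq, F.left.sq, F.right.sq]
  rw [e0]
  abel

theorem swap_left : ((F.swapper : GL') : End') * a * ((F.swapper⁻¹ : GL') : End') = -x := by
  have h4 : e0 a x * a = 0 := F.e0_mul (InL.refl F.left.tame)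
  have h2 : x * e0 a x = 0 := by rw [← e0_swap]; exact F.symm.mul_e0 (InL.refl F.right.tame)
  have h1 : a * e0 a x = 0 := F.mul_e0 (InL.refl F.left.tame)
  rw [F.swapper_val, F.swapper_inv_val]
  simp only [add_mul, sub_mul, mul_add, mul_neg, h4, F.left.sq, zero_mul, F.xax, mul_assoc x a, h1, mul_zero]
  abel

theorem swapper_mem_closed {N : Subgroup GL'} (h1 : uu a F.left.sq ∈ N) (h2 : uu x F.right.sq ∈ N) :
    F.swapper ∈ N :=
  mul_mem (mul_mem h1 (inv_mem h2)) h1

theorem exists_torus_scalar {c : k} (hc : c ≠ 0) :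
    ((((F.scale hc).swapper * F.swapper⁻¹ : GL')) : End') = c • (a * x) + c⁻¹ • (x * a) + e0 a x ∧
    ((((F.scale hc).swapper * F.swapper⁻¹)⁻¹ : GL') : End') = c⁻¹ • (a * x) + c • (x * a) + e0 a x := by
  have he : e0 (c • a) (c⁻¹ • x) = e0 a x := by
    simp only [e0, smul_mul_assoc, mul_smul_comm, smul_smul, mul_inv_cancel₀ hc, inv_mul_cancel₀ hc, one_smul]
  have h1 : a * e0 a x = 0 := F.mul_e0 (InL.refl F.left.tame)
  have h2 : x * e0 a x = 0 := by rw [← e0_swap]; exact F.symm.mul_e0 (InL.refl F.right.tame)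
  have h3 : e0 a x * a = 0 := F.e0_mul (InL.refl F.left.tame)
  have h4 : e0 a x * x = 0 := by rw [← e0_swap]; exact F.symm.e0_mul (InL.refl F.right.tame)
  constructor
  · rw [Units.val_mul, (F.scale hc).swapper_val, F.swapper_inv_val, he]
    simp only [add_mul, sub_mul, mul_add, mul_neg, smul_mul_assoc, h1, h2, h3, h4, F.e0_sq, F.left.sq, F.right.sq,
      smul_zero]
    abel
  · rw [_root_.mul_inv_rev, inv_inv, Units.val_mul, F.swapper_val, (F.scale hc).swapper_inv_val, he]
    simp only [add_mul, sub_mul, mul_add, mul_neg, mul_smul_comm, h1, h2, h3, h4, F.e0_sq, F.left.sq,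
      F.right.sq]
    module

theorem torus_conj {c : k} (hc : c ≠ 0) (hy : InL G a y) :
    ((((F.scale hc).swapper * F.swapper⁻¹ : GL')) : End') * y *
      ((((F.scale hc).swapper * F.swapper⁻¹)⁻¹ : GL') : End') = (c * c) • y := by
  obtain ⟨e1, e2⟩ := F.exists_torus_scalar hc
  rw [e1, e2]
  simp only [add_mul, mul_add, smul_mul_assoc, mul_smul_comm, smul_smul, F.lmul hy, mul_assoc x a, F.a_mul hy,
    mul_zero, smul_zero, add_zero, F.e0_mul hy, ← mul_assoc, F.mul_a hy, zero_mul, F.rmul hy, F.mul_e0 hy,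
    zero_add]

theorem torus_conj' {c : k} (hc : c ≠ 0) (hy : InL G x y) :
    ((((F.scale hc).swapper * F.swapper⁻¹ : GL')) : End') * y *
      ((((F.scale hc).swapper * F.swapper⁻¹)⁻¹ : GL') : End') = (c⁻¹ * c⁻¹) • y := by
  obtain ⟨e1, e2⟩ := F.exists_torus_scalar hc
  rw [e1, e2, ← e0_swap]
  simp only [add_mul, mul_add, smul_mul_assoc, mul_smul_comm, smul_smul, F.symm.lmul hy, mul_assoc a x,
    F.symm.a_mul hy, mul_zero, smul_zero, add_zero, F.symm.e0_mul hy, ← mul_assoc, F.symm.mul_a hy, zero_mul,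
    F.symm.rmul hy, F.symm.mul_e0 hy, zero_add]

end Frame

theorem exists_good_scalar (h2 : (2 : k) ≠ 0) (h3 : Nat.card k ≠ 3) : ∃ c : k, c ≠ 0 ∧ c ^ 2 ≠ 1 := by
  rcases finite_or_infinite k with hk | hk
  · letI : Fintype k := Fintype.ofFinite k
    obtain ⟨c, h1, h2'⟩ := exists_scalar k (five_le h2 h3)
    exact ⟨c, h1, h2'⟩
  · obtain ⟨c, hc⟩ := ((Set.finite_singleton (-1 : k)).insert 1 |>.insert 0).exists_notMem
    simp only [Set.mem_insert_iff, Set.mem_singleton_iff, not_or] at hc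
    exact ⟨c, hc.1, fun e => (sq_eq_one_iff.1 e).elim hc.2.1 hc.2.2⟩

variable [FiniteDimensional k M]

/-- the torus normalises and multiplies -/
theorem RS_le_commutator (hd : Deg G d) (F : Frame G d a x) :
    RS G a F.left.sq ≤ ⁅RS G a F.left.sq ⊔ RS G x F.right.sq, RS G a F.left.sq ⊔ RS G x F.right.sq⁆ := by
  obtain ⟨c, hc, hc1⟩ := exists_good_scalar hd.two hd.three
  set X := RS G a F.left.sq ⊔ RS G x F.right.sq
  have hL : ∀ {e : k}, uu (e • a) (F.left.tame.smul e).sq ∈ X := fun {e} =>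
    Subgroup.mem_sup_left (uu_mem_RS hd F.left ((InL.refl F.left.tame).smul e))
  have hR : ∀ {e : k}, uu (e • x) (F.right.tame.smul e).sq ∈ X := fun {e} =>
    Subgroup.mem_sup_right (uu_mem_RS hd F.right ((InL.refl F.right.tame).smul e))
  have hh : (F.scale hc).swapper * F.swapper⁻¹ ∈ X :=
    mul_mem ((F.scale hc).swapper_mem_closed hL hR) (inv_mem (F.swapper_mem hd))
  intro g hg
  have hy := (mem_RS hd F.left).1 hg
  have hne : c * c - 1 ≠ 0 := by rw [← pow_two]; exact sub_ne_zero.2 hc1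
  set e := uu ((c * c - 1)⁻¹ • dev g) (hy.tame.smul _).sq
  have he : e ∈ RS G a F.left.sq := uu_mem_RS hd F.left (hy.smul _)
  have hm := Subgroup.commutator_mem_commutator hh (Subgroup.mem_sup_left (T := RS G x F.right.sq) he)
  convert hm using 1
  rw [commutatorElement_def]
  apply Units.ext
  rw [val_eq g, val_eq ((F.scale hc).swapper * F.swapper⁻¹ * e * _ * _), dev_mul, dev_conj,
    dev_inv (by rw [dev_uu]; exact (hy.tame.smul _).sq), dev_uu, F.torus_conj hc (hy.smul _)]
  congr 1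
  simp only [smul_mul_assoc, mul_neg, mul_smul_comm, hy.tame.sq, smul_zero, neg_zero, zero_add,
    smul_smul, ← sub_eq_add_neg, ← sub_smul]
  rw [show c * c * (c * c - 1)⁻¹ - (c * c - 1)⁻¹ = 1 by field_simp, one_smul]

/-- a normalised subgroup containing one root element contains both root groups -/
theorem spread (hd : Deg G d) (F : Frame G d a x) {N : Subgroup GL'}
    (hN : ∀ g ∈ RS G a F.left.sq ⊔ RS G x F.right.sq, ∀ n ∈ N, g * n * g⁻¹ ∈ N) (ha : uu a F.left.sq ∈ N) :
    RS G a F.left.sq ≤ N ∧ RS G x F.right.sq ≤ N := by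
  obtain ⟨c, hc, hc1⟩ := exists_good_scalar hd.two hd.three
  set X := RS G a F.left.sq ⊔ RS G x F.right.sq
  have hL : ∀ {e : k}, uu (e • a) (F.left.tame.smul e).sq ∈ X := fun {e} =>
    Subgroup.mem_sup_left (uu_mem_RS hd F.left ((InL.refl F.left.tame).smul e))
  have hR : ∀ {e : k}, uu (e • x) (F.right.tame.smul e).sq ∈ X := fun {e} =>
    Subgroup.mem_sup_right (uu_mem_RS hd F.right ((InL.refl F.right.tame).smul e))
  -- membership by nilpotent parts
  let P : End' → Prop := fun z => ∃ g ∈ N, dev g = z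
  have hadd : ∀ {z w : End'}, InL G a z → InL G a w → P z → P w → P (z + w) := by
    rintro z w hz hw ⟨g, hg, rfl⟩ ⟨h, hh, rfl⟩
    exact ⟨g * h, mul_mem hg hh, by rw [dev_mul, hz.mul_zero F.left.sq hw, zero_add]⟩
  have hneg : ∀ {z : End'}, z * z = 0 → P z → P (-z) := by
    rintro z hz ⟨g, hg, rfl⟩
    exact ⟨g⁻¹, inv_mem hg, dev_inv hz⟩
  have hsq : ∀ e : k, P ((e * e) • a) := by
    intro e
    by_cases he : e = 0
    · exact ⟨1, one_mem N, by simp [he, dev_one]⟩
    refine ⟨_, hN _ (mul_mem ((F.scale he).swapper_mem_closed hL hR) (inv_mem (F.swapper_mem hd))) _ ha, ?_⟩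
    rw [dev_conj, dev_uu, F.torus_conj he (InL.refl F.left.tame)]
  have hall : ∀ e : k, P (e • a) := by
    intro e
    have h4 := hd.two
    have e1 : e = ((e + 1) / 2) * ((e + 1) / 2) + -(((e - 1) / 2) * ((e - 1) / 2)) := by field_simp; ring
    rw [e1, add_smul, neg_smul]
    exact hadd ((InL.refl F.left.tame).smul _) ((InL.refl F.left.tame).smul _).neg (hsq _)
      (hneg (F.left.tame.smul _).sq (hsq _))
  have hmem : ∀ {z : End'} (hz : z * z = 0), P z → uu z hz ∈ N := by
    rintro z hz ⟨g, hg, rfl⟩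
    rwa [← eq_uu hz]
  have haN : ∀ e : k, uu (e • a) (F.left.tame.smul e).sq ∈ N := fun e => hmem _ (hall e)
  have hxN : ∀ e : k, uu (e • x) (F.right.tame.smul e).sq ∈ N := fun e => by
    refine hmem _ ⟨_, hN _ (F.swapper_mem hd) _ (haN (-e)), ?_⟩
    rw [dev_conj, dev_uu, mul_smul_comm, smul_mul_assoc, F.swap_left, neg_smul, smul_neg, neg_neg]
  have hn : F.swapper ∈ N := F.swapper_mem_closed ha (hmem _ (by simpa [P] using
    (⟨uu ((1 : k) • x) (F.right.tame.smul 1).sq, hxN 1, dev_uu _⟩ : P ((1 : k) • x))))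
  have hh : (F.scale hc).swapper * F.swapper⁻¹ ∈ N :=
    mul_mem ((F.scale hc).swapper_mem_closed (haN c) (hxN c⁻¹)) (inv_mem hn)
  have hhX : (F.scale hc).swapper * F.swapper⁻¹ ∈ X :=
    mul_mem ((F.scale hc).swapper_mem_closed hL hR) (inv_mem (F.swapper_mem hd))
  have hne : c * c - 1 ≠ 0 := by rw [← pow_two]; exact sub_ne_zero.2 hc1
  have hne' : c⁻¹ * c⁻¹ - 1 ≠ 0 := by
    rw [← pow_two, inv_pow]; exact sub_ne_zero.2 fun e => hc1 (inv_eq_one.1 e)
  have gen : ∀ {p : End'} (hp : Root G d p) (s : k), s - 1 ≠ 0 → RS G p hp.sq ≤ X →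
      (∀ y, InL G p y → (((F.scale hc).swapper * F.swapper⁻¹ : GL') : End') * y *
        ((((F.scale hc).swapper * F.swapper⁻¹)⁻¹ : GL') : End') = s • y) → RS G p hp.sq ≤ N := by
    intro p hp s hs hpX htor g hg
    have hy := (mem_RS hd hp).1 hg
    set e := uu ((s - 1)⁻¹ • dev g) (hy.tame.smul _).sq
    have he : e ∈ X := hpX (uu_mem_RS hd hp (hy.smul _))
    have hm : (F.scale hc).swapper * F.swapper⁻¹ * (e * ((F.scale hc).swapper * F.swapper⁻¹)⁻¹ * e⁻¹) ∈ N :=
      mul_mem hh (hN e he _ (inv_mem hh))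
    convert hm using 1
    rw [show (F.scale hc).swapper * F.swapper⁻¹ * (e * ((F.scale hc).swapper * F.swapper⁻¹)⁻¹ * e⁻¹) =
      (F.scale hc).swapper * F.swapper⁻¹ * e * ((F.scale hc).swapper * F.swapper⁻¹)⁻¹ * e⁻¹ by group]
    apply Units.ext
    rw [val_eq g, val_eq ((F.scale hc).swapper * F.swapper⁻¹ * e * _ * _), dev_mul, dev_conj,
      dev_inv (by rw [dev_uu]; exact (hy.tame.smul _).sq), dev_uu, htor _ (hy.smul _)]
    congr 1
    simp only [smul_mul_assoc, mul_neg, mul_smul_comm, hy.tame.sq, smul_zero, neg_zero, zero_add, smul_smul,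
      ← sub_eq_add_neg, ← sub_smul]
    rw [show s * (s - 1)⁻¹ - (s - 1)⁻¹ = 1 by field_simp, one_smul]
  exact ⟨gen F.left _ hne le_sup_left fun y hy => F.torus_conj hc hy,
    gen F.right _ hne' le_sup_right fun y hy => F.torus_conj' hc hy⟩

/-- the component of a member -/
def comp (G : Subgroup GL') (A : Subgroup GL') : Set (Subgroup GL') := componentOf (FAdj (Sig G)) (Sig G) A

/-- the group generated by a family -/
def GG (P : Set (Subgroup GL')) : Subgroup GL' := ⨆ B ∈ P, B

omit [FiniteDimensional k M] in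
theorem le_GG {P : Set (Subgroup GL')} (h : B ∈ P) : B ≤ GG P := le_iSup₂ (f := fun B _ => B) B h

omit [FiniteDimensional k M] in
theorem mem_comp_self (hA : A ∈ Sig G) : A ∈ comp G A := ⟨hA, Relation.ReflTransGen.refl⟩

omit [FiniteDimensional k M] in
theorem comp_eq (hB : B ∈ comp G A) : comp G B = comp G A :=
  Set.ext fun _ => ⟨fun h => ⟨h.1, hB.2.trans h.2⟩, fun h => ⟨h.1, (reach_symm hB.2).trans h.2⟩⟩

theorem comm_of_comp_ne (hss : SS G) (hs : Std G d) (hA : A ∈ Sig G) (hB : B ∈ Sig G)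
    (h : comp G A ≠ comp G B) : ⁅A, B⁆ = ⊥ := by
  by_contra hne
  exact h (comp_eq (G := G) ⟨hB, reach_of_noncomm hss hs hA hB hne⟩).symm

theorem rankOne_conj (hs : Std G d) (hA : A ∈ Sig G) (hB : B ∈ Sig G) (h : IsRankOnePair A B) (hg : g ∈ G) :
    IsRankOnePair (conjBy A g) (conjBy B g) := by
  obtain ⟨a, ha, rfl⟩ := exists_root hs hA
  obtain ⟨b, hb, rfl⟩ := exists_root hs hB
  rw [conj_RS hs.deg ha hg, conj_RS hs.deg hb hg, rankOne_iff hs.deg (ha.conj hg) (hb.conj hg)]
  intro e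
  refine (rankOne_iff hs.deg ha hb).1 h ?_
  have h1 := congrArg (fun t => ((g⁻¹ : GL') : End') * t * (g : End')) e
  simp only [mul_zero, zero_mul] at h1
  rw [← h1]
  simp only [mul_assoc, Units.inv_mul, mul_one, Units.inv_mul_cancel_left]

theorem reach_conj (hs : Std G d) (h : Relation.ReflTransGen (FAdj (Sig G)) A B) (hg : g ∈ G) :
    Relation.ReflTransGen (FAdj (Sig G)) (conjBy A g) (conjBy B g) := by
  induction h with
  | refl => exact Relation.ReflTransGen.refl
  | tail _ h2 ih =>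
    exact ih.tail ⟨sigma_conj hs h2.1 hg, sigma_conj hs h2.2.1 hg, rankOne_conj hs h2.1 h2.2.1 h2.2.2 hg⟩

omit [FiniteDimensional k M] in
theorem conjBy_self {u : GL'} (hu : u ∈ C) : conjBy C u = C := by
  ext z
  rw [Subgroup.mem_map_equiv, MulAut.conj_symm_apply]
  constructor
  · intro h
    have := mul_mem (mul_mem hu h) (inv_mem hu)
    simpa [mul_assoc] using this
  · intro h; exact mul_mem (mul_mem (inv_mem hu) h) hu

omit [FiniteDimensional k M] in
theorem conjBy_conjBy (u v : GL') : conjBy (conjBy C u) v = conjBy C (v * u) := by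
  rw [conjBy, conjBy, conjBy, Subgroup.map_map]
  rw [map_mul]
  rfl

theorem GG_le (hs : Std G d) {P : Set (Subgroup GL')} (hP : P ⊆ Sig G) : GG P ≤ G :=
  iSup₂_le fun _ h => sigma_le hs (hP h)

theorem comp_conj (hs : Std G d) (hg : g ∈ GG (comp G A)) (hB : B ∈ comp G A) : conjBy B g ∈ comp G A := by
  have key : GG (comp G A) ≤
      { carrier := {g : GL' | g ∈ G ∧ ∀ B ∈ comp G A, conjBy B g ∈ comp G A ∧ conjBy B g⁻¹ ∈ comp G A}
        one_mem' := ⟨one_mem G, fun B hB => by
          rw [inv_one, conjBy_self (one_mem B)]; exact ⟨hB, hB⟩⟩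
        mul_mem' := fun {u v} hu hv => ⟨mul_mem hu.1 hv.1, fun B hB => by
          rw [_root_.mul_inv_rev, ← conjBy_conjBy, ← conjBy_conjBy]
          exact ⟨(hu.2 _ (hv.2 B hB).1).1, (hv.2 _ (hu.2 B hB).2).2⟩⟩
        inv_mem' := fun {u} hu => ⟨inv_mem hu.1, fun B hB => by
          rw [inv_inv]; exact ⟨(hu.2 B hB).2, (hu.2 B hB).1⟩⟩ } := by
    refine iSup₂_le fun C hC u hu => ⟨sigma_le hs hC.1 hu, fun B hB => ?_⟩
    have hCB : Relation.ReflTransGen (FAdj (Sig G)) C B := (reach_symm hC.2).trans hB.2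
    have step : ∀ {w : GL'}, w ∈ C → conjBy B w ∈ comp G A := fun {w} hw => by
      have := reach_conj hs hCB (sigma_le hs hC.1 hw)
      rw [conjBy_self hw] at this
      exact ⟨sigma_conj hs hB.1 (sigma_le hs hC.1 hw), hC.2.trans this⟩
    exact ⟨step hu, step (inv_mem hu)⟩
  exact ((key hg).2 B hB).1

theorem GG_comp_normal (hss : SS G) (hs : Std G d) (_hA : A ∈ Sig G)
    (hg : g ∈ GG (Sig G)) {n : GL'} (hn : n ∈ GG (comp G A)) : g * n * g⁻¹ ∈ GG (comp G A) := by
  have key : GG (Sig G) ≤ Subgroup.normalizer ((GG (comp G A) : Subgroup GL') : Set GL') := by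
    refine iSup₂_le fun C hC => ?_
    by_cases h : comp G C = comp G A
    · exact ((le_GG (h ▸ mem_comp_self hC)).trans Subgroup.le_normalizer)
    · intro u hu
      have hz : ∀ z ∈ GG (comp G A), z * u = u * z := by
        intro z hz
        have : GG (comp G A) ≤ Subgroup.centralizer {u} := iSup₂_le fun B hB v hv => by
          rw [Subgroup.mem_centralizer_singleton_iff]
          have hc := comm_of_comp_ne hss hs hB.1 hC (by rw [comp_eq hB]; exact Ne.symm h)
          have := Subgroup.commutator_eq_bot_iff_le_centralizer.1 hc hv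
          exact ((Subgroup.mem_centralizer_iff.1 this) u hu).symm
        exact Subgroup.mem_centralizer_singleton_iff.1 (this hz)
      rw [Subgroup.mem_normalizer_iff]
      intro z
      constructor
      · intro h'; rwa [← hz z h', mul_inv_cancel_right]
      · intro h'
        have e := hz _ h'
        rw [inv_mul_cancel_right, ← mul_assoc, ← mul_assoc] at e
        have : z = u * z * u⁻¹ := by
          rw [eq_mul_inv_iff_mul_eq]
          calc z * u = u⁻¹ * (u * z) * u := by group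
            _ = u⁻¹ * (u * u * z * u⁻¹) * u := by rw [← e]
            _ = u * z := by group
        rwa [this]
  exact (Subgroup.mem_normalizer_iff.1 (key hg) n).1 hn

/-- a normalised subgroup is central or contains a root element -/
theorem central_or_root (hss : SS G) (hs : Std G d) {A0 : Subgroup GL'}
    (hA0 : A0 ∈ Sig G) {N : Subgroup GL'} (hN : N ≤ GG (comp G A0))
    (hnorm : ∀ g ∈ GG (comp G A0), ∀ n ∈ N, g * n * g⁻¹ ∈ N) :
    (∀ n ∈ N, ∀ g ∈ GG (comp G A0), n * g = g * n) ∨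
      ∃ (a : End') (ha : Root G d a), RS G a ha.sq ∈ comp G A0 ∧ uu a ha.sq ∈ N := by
  refine or_iff_not_imp_right.2 fun hno => ?_
  push Not at hno
  have hd := hs.deg
  have hXG : GG (comp G A0) ≤ G := GG_le hs fun _ h => h.1
  -- every member commutes with its conjugates
  have hcomm : ∀ (a : End') (ha : Root G d a), RS G a ha.sq ∈ comp G A0 → ∀ n ∈ N,
      ((n : End') * a * ((n⁻¹ : GL') : End')) * a = a * ((n : End') * a * ((n⁻¹ : GL') : End')) := by
    intro a ha haP n hn
    set a' := (n : End') * a * ((n⁻¹ : GL') : End') with ha'def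
    have hnG := hXG (hN hn)
    have ha' : Root G d a' := ha.conj hnG
    have hP' : RS G a' ha'.sq ∈ comp G A0 := by
      have := comp_conj hs (hN hn) haP
      rwa [conj_RS hd ha hnG] at this
    by_contra hne
    set e := uu a ha.sq
    set f := uu a' ha'.sq
    have hfe : n * e * n⁻¹ = f := Units.ext (by rw [val_eq (n * e * n⁻¹), dev_conj, dev_uu]; rfl)
    have heX : e ∈ GG (comp G A0) := le_GG haP (uu_mem_RS hd ha (InL.refl ha.tame))
    have hm : f * e⁻¹ ∈ N := by
      rw [← hfe, show n * e * n⁻¹ * e⁻¹ = n * (e * n⁻¹ * e⁻¹) by group]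
      exact mul_mem hn (hnorm e heX _ (inv_mem hn))
    by_cases hnil : a * a' * a = 0
    · have h0 : zz a a' ≠ 0 := fun e => hne (zz_eq_zero.1 e).symm
      have hn' := bab_of_aba hd ha ha' hnil
      have h0' : zz a' a ≠ 0 := by rw [zz_swap, neg_ne_zero]; exact h0
      have hz := root_zz hd ha' ha hn' h0'
      refine hno _ hz ⟨RS_mem hd hz, haP.2.trans (reach_commutator hss hd ha' ha hn' h0' hz)⟩ ?_
      have hm' : f * e⁻¹ * (e * (f * e⁻¹)⁻¹ * e⁻¹) ∈ N := mul_mem hm (hnorm e heX _ (inv_mem hm))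
      convert hm' using 1
      rw [show f * e⁻¹ * (e * (f * e⁻¹)⁻¹ * e⁻¹) = f * e * f⁻¹ * e⁻¹ by group]
      refine Units.ext ?_
      rw [uu_val, val_eq (f * e * f⁻¹ * e⁻¹), dev_comm (by rw [dev_uu]; exact ha'.sq) (by rw [dev_uu]; exact ha.sq)
        (by rw [dev_uu, dev_uu]; exact hn') (by rw [dev_uu, dev_uu]; exact hnil), dev_uu, dev_uu]
    · obtain ⟨x, p, L⟩ := exists_link hd ha ha' hnil
      haveI := Fact.mk L.irr
      have hPhiX : ∀ m, L.Phi m ∈ GG (comp G A0) := by
        intro m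
        have hm' : m ∈ Hf p := by rw [L.Hf_eq_top]; exact Subgroup.mem_top m
        have : Hf p ≤ (GG (comp G A0)).comap L.Phi := by
          rw [SL2Ring.Hf, SL2Ring.gen, Subgroup.closure_le]
          rintro _ (⟨c, rfl⟩ | ⟨c, rfl⟩) <;> rw [SetLike.mem_coe, Subgroup.mem_comap]
          · refine le_GG haP ((mem_RS hd ha).2 ?_)
            rw [dev, Link.Phi_val, L.phi_gen_u, add_sub_cancel_left]
            exact (InL.refl ha.tame).smul c
          · refine le_GG hP' ((mem_RS hd ha').2 ?_)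
            rw [dev, Link.Phi_val, L.phi_gen_l, add_sub_cancel_left]
            exact (InL.refl ha'.tame).smul c
        exact this hm'
      set N'' := N.comap L.Phi
      haveI : N''.Normal := ⟨fun m hm' u => by
        rw [Subgroup.mem_comap, map_mul, map_mul, map_inv]
        exact hnorm _ (hPhiX u) _ hm'⟩
      have hmem : lR ((1 : k) • AdjoinRoot.root p) * uR (algebraMap k (Qf p) (-1)) ∈ N'' := by
        rw [Subgroup.mem_comap, map_mul]
        convert hm using 2 <;> refine Units.ext ?_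
        · rw [Link.Phi_val, L.phi_gen_l, one_smul]; rfl
        · rw [Link.Phi_val, L.phi_gen_u, neg_smul, one_smul, uu_inv_val, sub_eq_add_neg]
      have hr0 : AdjoinRoot.root p ≠ 0 := fun e => by
        rw [← AdjoinRoot.mk_X, AdjoinRoot.mk_eq_zero] at e
        exact L.irr.not_isUnit (L.cop.isUnit_of_dvd' dvd_rfl e)
      obtain ⟨s, hs0, hs1⟩ := exists_good_scalar hd.two hd.three
      obtain ⟨u, hu0, huN⟩ := lower_unip_of_normal (K := Qf p) (two_ne_zero_map hd.two)
        (s := algebraMap k (Qf p) s) (by simpa using hs0)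
        (fun e => hs1 ((algebraMap k (Qf p)).injective (by rw [map_pow, map_one]; exact e))) N'' hmem
        (by simpa using hr0)
      have hy := L.lower_mem u
      have hy0 : x * rho a a' x p u ≠ 0 := fun e => hu0 (by
        have : L.phi (lR u) = L.phi 1 := by rw [L.phi_lR, e, add_zero, map_one]
        simpa using congrArg (fun m : S2 _ => m 1 0) (L.phi_injective this))
      have hyr := hy.root hd ha' hy0
      refine hno _ hyr (RS_eq hd ha' hyr hy ▸ hP') ?_
      have e : uu (x * rho a a' x p u) hy.tame.sq = L.Phi (lR u) := Units.ext (by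
        rw [uu_val, Link.Phi_val, L.phi_lR])
      exact (e.symm ▸ huN : uu (x * rho a a' x p u) hy.tame.sq ∈ N)
  -- semisimplicity
  have hcent : ∀ A ∈ comp G A0, ∀ e ∈ A, ∀ n ∈ N, n * e = e * n := by
    intro A hA e he
    obtain ⟨a, ha, rfl⟩ := exists_root hs hA.1
    have hy := (mem_RS hd ha).1 he
    by_cases hy0 : dev e = 0
    · intro n _; rw [dev_eq_zero.1 hy0]; simp
    have hyr := hy.root hd ha hy0
    have hyP : RS G (dev e) hyr.sq ∈ comp G A0 := RS_eq hd ha hyr hy ▸ hA
    have heX : e ∈ GG (comp G A0) := le_GG hA he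
    have hss : SS N := by
      have s1 : SS (GG (Sig G)) := hss.normal (GG_le (P := Sig G) hs (fun _ h => h)) (by
        intro g hg n hn
        have : GG (Sig G) ≤ (GG (Sig G)).comap (MulAut.conj g).toMonoidHom := iSup₂_le fun C hC u hu =>
          le_GG (sigma_conj hs hC hg) ⟨u, hu, rfl⟩
        exact this hn)
      have s2 : SS (GG (comp G A0)) := s1.normal (iSup₂_le fun B hB => le_GG hB.1)
        (fun g hg n hn => GG_comp_normal hss hs hA0 hg hn)
      exact s2.normal hN hnorm
    have hc2 : ∀ n ∈ N, ∀ m ∈ N, (n * e * n⁻¹) * (m * e * m⁻¹) = (m * e * m⁻¹) * (n * e * n⁻¹) := by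
      intro n hn m hm
      have h := hcomm (dev e) hyr hyP (n⁻¹ * m) (mul_mem (inv_mem hn) hm)
      rw [← dev_conj] at h
      have h' := comm_iff.2 h
      calc n * e * n⁻¹ * (m * e * m⁻¹) = n * (e * ((n⁻¹ * m) * e * (n⁻¹ * m)⁻¹)) * n⁻¹ := by group
        _ = n * (((n⁻¹ * m) * e * (n⁻¹ * m)⁻¹) * e) * n⁻¹ := by rw [h']
        _ = m * e * m⁻¹ * (n * e * n⁻¹) := by group
    refine centralizes_of_commuting hss (fun n hn => ?_) (fun n hn => ?_) hc2
    · have h := hcomm (dev e) hyr hyP n hn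
      have ha' := hyr.conj (hXG (hN hn))
      rw [dev_mul, dev_conj, dev_inv hyr.sq]
      have c1 : Commute ((n : End') * dev e * ((n⁻¹ : GL') : End')) (-dev e) := (Commute.neg_right h : _)
      have n1 : IsNilpotent ((n : End') * dev e * ((n⁻¹ : GL') : End')) := ⟨2, by rw [pow_two, ha'.sq]⟩
      have n2 : IsNilpotent (-dev e) := ⟨2, by rw [pow_two, neg_mul_neg, hyr.sq]⟩
      have n3 : IsNilpotent (((n : End') * dev e * ((n⁻¹ : GL') : End')) * -dev e) := ⟨2, by
        rw [c1.mul_pow, pow_two (-dev e), neg_mul_neg, hyr.sq, mul_zero]⟩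
      exact ((c1.mul_left (Commute.refl _)).add_left c1).isNilpotent_add
        (((Commute.refl _).mul_left c1.symm).isNilpotent_add n3 n1) n2
    · rw [show n * e * n⁻¹ * e⁻¹ = n * (e * n⁻¹ * e⁻¹) by group]
      exact mul_mem hn (hnorm e heX _ (inv_mem hn))
  intro n hn g hg
  have : GG (comp G A0) ≤ Subgroup.centralizer {n} := iSup₂_le fun A hA e he => by
    rw [Subgroup.mem_centralizer_singleton_iff]; exact (hcent A hA e he n hn).symm
  exact (Subgroup.mem_centralizer_singleton_iff.1 (this hg)).symm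

theorem all_of_root (hs : Std G d) {A0 : Subgroup GL'} {N : Subgroup GL'}
    (hnorm : ∀ g ∈ GG (comp G A0), ∀ n ∈ N, g * n * g⁻¹ ∈ N) (ha : Root G d a)
    (hP : RS G a ha.sq ∈ comp G A0) (hmem : uu a ha.sq ∈ N) (hss : SS G) :
    GG (comp G A0) ≤ N := by
  have hd := hs.deg
  have step : ∀ {C D : Subgroup GL'}, C ∈ comp G A0 → FAdj (Sig G) C D → (∃ u ∈ C, u ≠ 1 ∧ u ∈ N) →
      C ≤ N ∧ D ≤ N := by
    rintro C D hC ⟨-, hD, hCD⟩ ⟨u, huC, hu1, huN⟩
    obtain ⟨c, hc, rfl⟩ := exists_root hs hC.1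
    obtain ⟨b, hb, rfl⟩ := exists_root hs hD
    have hy := (mem_RS hd hc).1 huC
    have hy0 : dev u ≠ 0 := fun e => hu1 (dev_eq_zero.1 e)
    have hyr := hy.root hd hc hy0
    rw [← RS_eq hd hc hyr hy] at hC hCD ⊢
    obtain ⟨x, hx, hx0, F⟩ := exists_frame hd hyr hb ((rankOne_iff hd hyr hb).1 hCD)
    have hDC : RS G b hb.sq ∈ comp G A0 := ⟨hD, hC.2.trans (Relation.ReflTransGen.single ⟨hC.1, hD, hCD⟩)⟩
    have := spread hd F (N := N) (fun g hg => hnorm g ((sup_le (le_GG hC) (RS_eq hd hb F.right hx ▸ le_GG hDC :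
      RS G x F.right.sq ≤ GG (comp G A0))) hg)) (by rwa [← eq_uu hyr.sq])
    rw [RS_eq hd hb F.right hx] at this
    exact this
  have nontriv : ∀ {C : Subgroup GL'}, C ∈ Sig G → C ≤ N → ∃ u ∈ C, u ≠ 1 ∧ u ∈ N := fun {C} hC hCN => by
    obtain ⟨⟨u, hu⟩, hu1⟩ := Subgroup.ne_bot_iff_exists_ne_one.1 (sigma_ne_bot hs hC)
    exact ⟨u, hu, fun e => hu1 (Subtype.ext e), hCN hu⟩
  obtain ⟨D, hD⟩ := exists_partner hss hs hP.1
  have h0 : RS G a ha.sq ≤ N := (step hP hD ⟨_, uu_mem_RS hd ha (InL.refl ha.tame),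
    fun e => root_ne_zero hd ha (by rw [← dev_uu ha.sq, e, dev_one]), hmem⟩).1
  refine iSup₂_le fun B hB => ?_
  have hreach : Relation.ReflTransGen (FAdj (Sig G)) (RS G a ha.sq) B := (reach_symm hP.2).trans hB.2
  clear hB
  induction hreach with
  | refl => exact h0
  | @tail C D' hC hCD ih =>
    exact (step ⟨hCD.1, hP.2.trans hC⟩ hCD (nontriv hCD.1 ih)).2

theorem quasisimple (hss : SS G) (hs : Std G d) {A0 : Subgroup GL'} (hA0 : A0 ∈ Sig G) :
    IsQuasisimple ↥(GG (comp G A0)) := by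
  have hd := hs.deg
  set X := GG (comp G A0) with hX
  constructor
  · rw [Group.isPerfect_def]
    apply Subgroup.map_injective X.subtype_injective
    rw [← MonoidHom.range_eq_map, Subgroup.range_subtype, commutator_def, Subgroup.map_commutator,
      ← MonoidHom.range_eq_map, Subgroup.range_subtype]
    refine le_antisymm (Subgroup.commutator_le.2 fun p hp q hq => ?_) (iSup₂_le fun A hA => ?_)
    · rw [commutatorElement_def]; exact mul_mem (mul_mem (mul_mem hp hq) (inv_mem hp)) (inv_mem hq)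
    · obtain ⟨B, hB⟩ := exists_partner hss hs hA.1
      have hBc : B ∈ comp G A0 := ⟨hB.2.1, hA.2.trans (Relation.ReflTransGen.single hB)⟩
      obtain ⟨a, ha, rfl⟩ := exists_root hs hA.1
      obtain ⟨b, hb, rfl⟩ := exists_root hs hBc.1
      obtain ⟨x, hx, -, F⟩ := exists_frame hd ha hb ((rankOne_iff hd ha hb).1 hB.2.2)
      have hle : RS G a ha.sq ⊔ RS G x F.right.sq ≤ X :=
        sup_le (le_GG hA) (RS_eq hd hb F.right hx ▸ le_GG hBc)
      exact (RS_le_commutator hd F).trans (Subgroup.commutator_mono hle hle)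
  · haveI : Nontrivial (↥X ⧸ Subgroup.center ↥X) := by
      obtain ⟨B, hB⟩ := exists_partner hss hs hA0
      obtain ⟨a, ha, rfl⟩ := exists_root hs hA0
      obtain ⟨b, hb, rfl⟩ := exists_root hs hB.2.1
      have hne := (rankOne_iff hd ha hb).1 hB.2.2
      set u : ↥X := ⟨uu a ha.sq, le_GG (mem_comp_self hA0) (uu_mem_RS hd ha (InL.refl ha.tame))⟩ with hu
      set v : ↥X := ⟨uu b hb.sq, le_GG (P := comp G (RS G a ha.sq)) ⟨hB.2.1, Relation.ReflTransGen.single hB⟩
        (uu_mem_RS hd hb (InL.refl hb.tame))⟩ with hv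
      refine QuotientGroup.nontrivial_iff.2 fun htop => hne ?_
      have hu' : u ∈ Subgroup.center ↥X := htop ▸ Subgroup.mem_top u
      have h := comm_iff.1 (congrArg Subtype.val (Subgroup.mem_center_iff.1 hu' v)).symm
      rw [show ((u : ↥X) : GL') = uu a ha.sq from rfl, show ((v : ↥X) : GL') = uu b hb.sq from rfl, dev_uu,
        dev_uu] at h
      rw [h, mul_assoc, ha.sq, mul_zero]
    refine ⟨fun H hH => ?_⟩
    set π := QuotientGroup.mk' (Subgroup.center ↥X)
    set N0 := H.comap π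
    haveI : N0.Normal := hH.comap π
    set N := N0.map X.subtype
    have hNX : N ≤ X := Subgroup.map_subtype_le N0
    have hnorm : ∀ g ∈ X, ∀ n ∈ N, g * n * g⁻¹ ∈ N := by
      rintro g hg _ ⟨n, hn, rfl⟩
      exact ⟨⟨g, hg⟩ * n * (⟨g, hg⟩ : ↥X)⁻¹, Subgroup.Normal.conj_mem ‹_› n hn _, rfl⟩
    have hsurj := QuotientGroup.mk'_surjective (Subgroup.center ↥X)
    rcases central_or_root hss hs hA0 hNX hnorm with h | ⟨a, ha, hP, hmem⟩
    · left
      rw [← Subgroup.map_comap_eq_self_of_surjective hsurj H, Subgroup.map_eq_bot_iff, QuotientGroup.ker_mk']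
      intro n hn
      rw [Subgroup.mem_center_iff]
      intro g
      exact Subtype.ext (h _ ⟨n, hn, rfl⟩ g g.2).symm
    · right
      have hall := all_of_root hs hnorm ha hP hmem hss
      rw [← Subgroup.map_comap_eq_self_of_surjective hsurj H, eq_top_iff]
      intro q _
      obtain ⟨g, rfl⟩ := hsurj q
      obtain ⟨n, hn, e⟩ := hall g.2
      exact ⟨g, by rwa [← Subtype.ext (e : (n : GL') = g)], rfl⟩

theorem root_class (hss : SS G) (hs : Std G d) {A0 : Subgroup GL'} (hA0 : A0 ∈ Sig G) :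
    IsRootSubgroupClass ((fun A : Subgroup GL' => A.subgroupOf (GG (comp G A0))) '' comp G A0) := by
  have hd := hs.deg
  refine ⟨rootSet_sub rfl (fun A hA => sigma_comm hs hA.1) (fun A hA => sigma_ne_bot hs hA.1)
    (fun A hA g hg => comp_conj hs hg hA) (fun A hA B hB => ?_), ⟨_, A0, mem_comp_self hA0, rfl⟩, ?_⟩
  · obtain ⟨a, ha, rfl⟩ := exists_root hs hA.1
    obtain ⟨b, hb, rfl⟩ := exists_root hs hB.1
    rcases pair_cases hss hd ha hb with h | h | h
    · exact Or.inl h
    · exact Or.inr (Or.inl h)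
    · refine Or.inr (Or.inr ⟨?_, h.2⟩)
      have hne : a * b ≠ b * a := fun hc => sigma_ne_bot hs h.1 (commutator_RS hd ha hb hc)
      have h0 : zz a b ≠ 0 := sub_ne_zero.2 hne
      have hn : a * b * a = 0 := by
        refine aba_of_class_two hd ha hb ?_
        have hea := uu_mem_RS hd ha (InL.refl ha.tame)
        have heb := uu_mem_RS hd hb (InL.refl hb.tame)
        set e := uu a ha.sq
        set f := uu b hb.sq
        have hk := h.2.1 _ (Subgroup.commutator_mem_commutator hea heb) e (Subgroup.mem_sup_left hea)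
        rw [commutatorElement_def] at hk
        have hk' : e * (f * e * f⁻¹) = (f * e * f⁻¹) * e := by
          calc e * (f * e * f⁻¹) = e * (e * f * e⁻¹ * f⁻¹)⁻¹ * e := by group
            _ = (e * f * e⁻¹ * f⁻¹)⁻¹ * e * e := by
              rw [show e * (e * f * e⁻¹ * f⁻¹)⁻¹ = (e * f * e⁻¹ * f⁻¹)⁻¹ * e from
                (Commute.inv_left (hk : Commute _ e)).eq.symm]
            _ = (f * e * f⁻¹) * e := by group
        have h' := comm_iff.1 hk'
        have hd' : dev (f * e * f⁻¹) = a + (b * a - a * b) - b * a * b := by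
          rw [dev_conj, dev_uu, uu_val, uu_inv_val]
          simp only [add_mul, mul_sub, one_mul, mul_one, mul_assoc]
          abel
        rwa [dev_uu, hd'] at h'
      have P : NilPair G d a b := ⟨hd, ha, hb, hn⟩
      have hz := root_zz hd ha hb hn h0
      rw [comm_eq_RS hss P h0 hz]
      exact ⟨RS_mem hd hz, hB.2.trans (reach_commutator hss hd ha hb hn h0 hz)⟩
  · rintro _ ⟨A, hA, rfl⟩ _ ⟨B, hB, rfl⟩
    have key : ∀ C, Relation.ReflTransGen (FAdj (Sig G)) A C → ∃ g ∈ GG (comp G A0), C = conjBy A g := by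
      intro C hAC
      induction hAC with
      | refl => exact ⟨1, one_mem _, (conjBy_self (one_mem A)).symm⟩
      | @tail C D hAC hCD ih =>
        obtain ⟨g, hg, hgC⟩ := ih
        have hCc : C ∈ comp G A0 := ⟨hCD.1, hA.2.trans hAC⟩
        have hDc : D ∈ comp G A0 := ⟨hCD.2.1, hA.2.trans (hAC.tail hCD)⟩
        obtain ⟨a, ha, rfl⟩ := exists_root hs hCD.1
        obtain ⟨b, hb, rfl⟩ := exists_root hs hCD.2.1
        obtain ⟨x, hx, -, F⟩ := exists_frame hd ha hb ((rankOne_iff hd ha hb).1 hCD.2.2)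
        have hn : F.swapper ∈ GG (comp G A0) :=
          sup_le (le_GG hCc) (RS_eq hd hb F.right hx ▸ le_GG hDc) (F.swapper_mem hd)
        refine ⟨F.swapper * g, mul_mem hn hg, ?_⟩
        rw [← conjBy_conjBy, ← hgC, ← RS_eq hd hb F.right hx]
        refine (conj_RS' hd F.left (GG_le hs (fun _ h => h.1) hn) F.right ?_).symm
        rw [F.swap_left]; exact (InL.refl F.right.tame).neg
    obtain ⟨g, hg, rfl⟩ := key B ((reach_symm hA.2).trans hB.2)
    refine ⟨⟨g, hg⟩, ?_⟩
    apply Subgroup.map_injective (GG (comp G A0)).subtype_injective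
    rw [conj_map, map_sub (le_GG hA), map_sub (le_GG hB)]

end Cfsg.Agent.QPair
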