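import Cfsg.Agent.QPair.Parts

/-! A root and its conjugates under an arbitrary quadratic element. -/

set_option autoImplicit false
set_option linter.style.haveILetI false

namespace Cfsg.Agent.QPair

open Cfsg Cfsg.Agent.Quad

variable {k : Type*} [Field k] {M : Type*} [AddCommGroup M] [Module k M]

local notation "GL'" => LinearMap.GeneralLinearGroup k M
local notation "End'" => Module.End k M
local notation "Sig" => quadraticRootSubgroups

variable {G : Subgroup (LinearMap.GeneralLinearGroup k M)} {a q x y : Module.End k M} {d : ℕ}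

/-- the conjugate of `a` by `1 + q` -/
def cj (q a : End') : End' := (1 + q) * a * (1 - q)

theorem cj_eq (q a : End') : cj q a = a + zz q a - q * a * q := by
  simp only [cj, zz, add_mul, mul_sub, one_mul, mul_one, mul_assoc]; abel

theorem cj_neg (q a : End') : cj (-q) a = a - zz q a - q * a * q := by
  simp only [cj_eq, zz, neg_mul, mul_neg, neg_neg]; abel

theorem root_cj (ha : Root G d a) (hq : Tame G q) : Root G d (cj q a) := by
  have h := ha.conj (uu_mem hq)
  rwa [uu_inv_val, uu_val] at h

theorem a_cj_a (ha : a * a = 0) (q : End') : a * cj q a * a = -(a * q * a * q * a) := by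
  simp only [cj, add_mul, mul_add, sub_mul, mul_sub, one_mul, mul_one, mul_neg, mul_assoc, ha, mul_zero,
    ← mul_assoc a a, zero_mul]
  abel

/-- the vanishing products of an endomorphism with `(aq)²a = 0` -/
theorem pair_nil (hd : Deg G d) [FiniteDimensional k M] (ha : Root G d a) (hq : Tame G q)
    (h : a * q * a * q * a = 0) : Tame G (zz a (cj q a)) ∧
      rk (a * cj q a) + rk (cj q a * a) ≤ d := by
  have hb := root_cj ha hq
  have h1 : a * cj q a * a = 0 := by rw [a_cj_a ha.sq, h, neg_zero]
  exact ⟨tame_zz ha.tame hb.tame h1 (bab_of_aba hd ha hb h1), nil_bound hd ha hb h1⟩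

/-- (L1) -/
theorem aqa_zero [FiniteDimensional k M] (hd : Deg G d) (ha : Root G d a) (hq : Tame G q)
    (h : a * q * a * q * a = 0) : a * q * a = 0 := by
  set v := a * q * a with hv
  obtain ⟨t1, r1⟩ := pair_nil hd ha hq h
  obtain ⟨t2, -⟩ := pair_nil hd ha hq.neg (by simpa using h)
  have e1 : a * cj q a = v * (1 - q) := by
    simp only [cj, hv, ← mul_assoc, mul_add, mul_one, ha.sq, add_mul, zero_mul, zero_add]
  have e2 : cj q a * a = -((1 + q) * v) := by
    simp only [cj, hv, mul_assoc, sub_mul, one_mul, ha.sq, mul_sub, mul_zero, zero_sub, mul_neg]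
  have e1' : a * cj (-q) a = -(v * (1 + q)) := by
    simp only [cj, hv, ← mul_assoc, mul_add, mul_one, ha.sq, add_mul, zero_mul, zero_add, mul_neg, neg_mul,
      sub_neg_eq_add]
    try abel
  have e2' : cj (-q) a * a = (1 - q) * v := by
    simp only [cj, hv, mul_assoc, sub_mul, one_mul, ha.sq, mul_sub, mul_zero, zero_sub, mul_neg, neg_mul,
      neg_neg, ← sub_eq_add_neg]
    try abel
  have vv : v * v = 0 := by
    calc v * v = a * q * (a * a) * (q * a) := by simp only [hv, mul_assoc]
      _ = 0 := by rw [ha.sq]; simp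
  have vqv : v * q * v = 0 := by
    calc v * q * v = a * q * a * q * a * (q * a) := by simp only [hv, mul_assoc]
      _ = 0 := by rw [h, zero_mul]
  have vqv' : v * (q * v) = 0 := by rw [← mul_assoc]; exact vqv
  have c1 : zz a (cj q a) = (v + v) + (q * v - v * q) := by
    rw [zz, e1, e2]; simp only [mul_sub, add_mul, mul_one, one_mul]; abel
  have c2 : zz a (cj (-q) a) = -(v + v) + (q * v - v * q) := by
    rw [zz, e1', e2']; simp only [mul_add, sub_mul, mul_one, one_mul]; abel
  have k1 : ∀ t, v * (v * t) = 0 := fun t => by rw [← mul_assoc, vv, zero_mul]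
  have k2 : ∀ t, v * (q * (v * t)) = 0 := fun t => by rw [← mul_assoc q, ← mul_assoc, vqv', zero_mul]
  have k3 : ∀ t, q * (q * t) = 0 := fun t => by rw [← mul_assoc, hq.sq, zero_mul]
  have htame : Tame G (zz a (cj q a) + -zz a (cj (-q) a)) := by
    refine t1.add t2.neg ?_ ?_ <;>
    · rw [c1, c2]
      simp only [mul_add, add_mul, mul_sub, sub_mul, mul_neg, neg_mul, mul_assoc, vv, vqv', k1, k2, k3,
        mul_zero, neg_zero, add_zero, sub_zero, zero_add]
  have hvt : Tame G v := by
    have h4 : (4 : k) ≠ 0 := by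
      rw [show (4 : k) = 2 * 2 by norm_num]; exact mul_ne_zero hd.two hd.two
    have := htame.smul (4⁻¹ : k)
    rwa [show zz a (cj q a) + -zz a (cj (-q) a) = (4 : k) • v by rw [c1, c2]; module,
      smul_smul, inv_mul_cancel₀ h4, one_smul] at this
  refine hd.min v hvt ?_
  have r2 : rk v ≤ rk (a * cj q a) := by
    have : v = a * cj q a * (1 + q) := by rw [e1, mul_assoc, one_sub_mul_one_add hq.sq, mul_one]
    exact this ▸ rk_mul_le_left _ _
  have r3 : rk v ≤ rk (cj q a * a) := by
    have : v = -(1 - q) * (cj q a * a) := by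
      rw [e2, neg_mul_neg, ← mul_assoc, one_sub_mul_one_add hq.sq, one_mul]
    exact this ▸ rk_mul_le_right _ _
  have := hd.pos
  omega

/-- (L2) the tame elements made from `aqa = 0` -/
theorem zz_qaq [FiniteDimensional k M] (hd : Deg G d) (ha : Root G d a) (hq : Tame G q)
    (h : a * q * a = 0) : Tame G (zz q a) ∧ Tame G (q * a * q) := by
  have ab : ∀ p : End', a * p * a = 0 → a * cj p a = 0 ∧ cj p a * a = 0 := fun p hp => by
    constructor
    · simp only [cj, ← mul_assoc, mul_add, mul_one, ha.sq, add_mul, zero_mul, zero_add, hp]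
    · have e : a * (p * a) = 0 := by rw [← mul_assoc, hp]
      simp only [cj, mul_assoc, sub_mul, one_mul, ha.sq, mul_sub, mul_zero, zero_sub, e, neg_zero]
  obtain ⟨a1, a2⟩ := ab q h
  obtain ⟨b1, b2⟩ := ab (-q) (by simp [h])
  have t1 : Tame G (cj q a + -a) :=
    (root_cj ha hq).tame.add ha.tame.neg (by rw [mul_neg, a2, neg_zero]) (by rw [neg_mul, a1, neg_zero])
  have t2 : Tame G (cj (-q) a + -a) :=
    (root_cj ha hq.neg).tame.add ha.tame.neg (by rw [mul_neg, b2, neg_zero]) (by rw [neg_mul, b1, neg_zero])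
  have h' : a * (q * a) = 0 := by rw [← mul_assoc, h]
  have k1 : ∀ t, a * (q * (a * t)) = 0 := fun t => by rw [← mul_assoc q, ← mul_assoc, h', zero_mul]
  have k2 : ∀ t, q * (q * t) = 0 := fun t => by rw [← mul_assoc, hq.sq, zero_mul]
  have k3 : ∀ t, a * (a * t) = 0 := fun t => by rw [← mul_assoc, ha.sq, zero_mul]
  have e1 : (cj q a + -a) * (cj (-q) a + -a) = 0 := by
    simp only [cj_eq, cj_neg, zz]
    noncomm_ring
    simp only [h', k1, k2, k3, ha.sq, hq.sq, mul_zero, smul_zero, add_zero, zero_add, sub_zero, neg_zero]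
  have e2 : (cj (-q) a + -a) * (cj q a + -a) = 0 := by
    simp only [cj_eq, cj_neg, zz]
    noncomm_ring
    simp only [h', k1, k2, k3, ha.sq, hq.sq, mul_zero, smul_zero, add_zero, zero_add, sub_zero, neg_zero]
  have h2 := hd.two
  constructor
  · have := (t1.add t2.neg (by rw [mul_neg, e1, neg_zero]) (by rw [neg_mul, e2, neg_zero])).smul (2⁻¹ : k)
    rwa [show cj q a + -a + -(cj (-q) a + -a) = (2 : k) • zz q a by rw [cj_eq, cj_neg]; module,
      smul_smul, inv_mul_cancel₀ h2, one_smul] at this
  · have := (t1.add t2 e1 e2).smul (-2⁻¹ : k)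
    rwa [show cj q a + -a + (cj (-q) a + -a) = (-2 : k) • (q * a * q) by rw [cj_eq, cj_neg]; module,
      smul_smul, neg_mul_neg, inv_mul_cancel₀ h2, one_smul] at this

/-- five elements -/
theorem exists_shift {k : Type*} [Field k] (h2 : (2 : k) ≠ 0) (h3 : Nat.card k ≠ 3) :
    ∃ t : k, t ^ 2 ≠ 1 ∧ (1 - t) ^ 2 ≠ 1 := by
  obtain ⟨c, hc0, hc1⟩ := exists_good_scalar h2 h3
  by_cases hc2 : c = 2
  · subst hc2
    refine ⟨-2, by rwa [neg_sq], fun e => ?_⟩
    rcases sq_eq_one_iff.1 e with e' | e'
    · exact h2 (by linear_combination e')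
    · have : (2 : k) * 2 = 0 := by linear_combination e'
      exact h2 ((mul_self_eq_zero).1 this)
  · refine ⟨c, hc1, fun e => ?_⟩
    rcases sq_eq_one_iff.1 e with e' | e'
    · exact hc0 (by linear_combination -e')
    · exact hc2 (by linear_combination -e')

variable [FiniteDimensional k M]

/-- the data of a frame from a conjugate -/
theorem frame_cj (hd : Deg G d) (ha : Root G d a) (hq : Tame G q) (h : a * q * a * q * a ≠ 0) :
    ∃ x, Frame G d a x ∧ q * a = x * a * q * a - a ∧ a * q = a + a * q * a * x ∧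
      LinearMap.range x ≤ LinearMap.range (cj q a) ∧ LinearMap.ker (cj q a) ≤ LinearMap.ker x := by
  have hb := root_cj ha hq
  have hne : a * cj q a * a ≠ 0 := by rw [a_cj_a ha.sq]; exact neg_ne_zero.2 h
  obtain ⟨x, hx, hx0, F⟩ := exists_frame hd ha hb hne
  have hbx := hx.symm hd hb hx0
  refine ⟨x, F, ?_, ?_, hx.im, hx.ker⟩
  · have e := congrArg (fun t => t * (1 + q)) (F.symm.lmul hbx)
    simp only [cj, mul_assoc, one_sub_mul_one_add hq.sq, mul_one] at e
    simp only [add_mul, one_mul, mul_add, ha.sq, mul_zero, zero_add] at e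
    rw [show x * a * q * a = x * (a * (q * a)) by simp only [mul_assoc], e]; abel
  · have e := congrArg (fun t => (1 - q) * t) (F.symm.rmul hbx)
    simp only [cj, ← mul_assoc, one_sub_mul_one_add hq.sq, one_mul] at e
    simp only [sub_mul, mul_sub, mul_one, ha.sq, zero_mul, zero_sub, neg_mul] at e
    linear_combination (norm := abel) e

theorem proj_cj {x x' : End'} (F : Frame G d a x) (hqa : q * a = x * a * q * a - a)
    (haq : a * q = a + a * q * a * x) (hr : LinearMap.range x' ≤ LinearMap.range (cj (-q) a))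
    (hk : LinearMap.ker (cj (-q) a) ≤ LinearMap.ker x') :
    (a * x + x * a) * x' = x' ∧ x' * (a * x + x * a) = x' := by
  have hea : (a * x + x * a) * a = a := by rw [add_mul, F.axa, mul_assoc x, F.left.sq]; simp
  have hae : a * (a * x + x * a) = a := by rw [mul_add, ← mul_assoc, ← mul_assoc, F.axa, F.left.sq]; simp
  constructor
  · have h1 : (1 - (a * x + x * a)) * cj (-q) a = 0 := by
      have : (1 - (a * x + x * a)) * ((1 - q) * a) = 0 := by
        rw [sub_mul 1 q, one_mul, hqa]
        simp only [mul_sub, sub_mul, add_mul, one_mul, ← mul_assoc, F.axa, F.xax, F.left.sq, mul_assoc a x x,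
          F.right.sq, mul_zero, zero_mul, add_zero, zero_add, mul_assoc x a a]
        abel
      simp only [cj, ← sub_eq_add_neg, ← mul_assoc] at this ⊢
      rw [this, zero_mul]
    have := mul_zero_right hr h1
    rw [sub_mul, one_mul, sub_eq_zero] at this
    exact this.symm
  · have h1 : cj (-q) a * (1 - (a * x + x * a)) = 0 := by
      have hxe : x * (1 - (a * x + x * a)) = 0 := by
        rw [mul_sub, mul_one, mul_add, ← mul_assoc, ← mul_assoc, F.xax, F.right.sq]; simp
      have : (a * (1 + q)) * (1 - (a * x + x * a)) = 0 := by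
        rw [mul_add a, mul_one, haq, add_mul, add_mul, mul_assoc (a * q * a), hxe, mul_zero, add_zero,
          mul_sub, mul_one, hae, sub_self, add_zero]
      simp only [cj, sub_neg_eq_add, mul_assoc] at this ⊢
      rw [this, mul_zero]
    have := mul_zero_left hk h1
    rw [mul_sub, mul_one, sub_eq_zero] at this
    exact this.symm

/-- (L3) -/
theorem qaq_tame (hd : Deg G d) (ha : Root G d a) (hq : Tame G q) (h : a * q * a * q * a ≠ 0) :
    Tame G (q * a * q) := by
  obtain ⟨x, F, hqa, haq, hxr, hxk⟩ := frame_cj hd ha hq h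
  obtain ⟨x', F', hqa', haq', hxr', hxk'⟩ := frame_cj hd ha hq.neg (by simpa using h)
  obtain ⟨p1, p2⟩ := proj_cj F hqa haq hxr' hxk'
  have hqn : cj q a = cj (- -q) a := by rw [neg_neg]
  obtain ⟨q1, q2⟩ := proj_cj F' hqa' haq' (hqn ▸ hxr) (hqn ▸ hxk)
  set e := a * x + x * a with he
  set e' := a * x' + x' * a with he'
  have hae : a * e = a := by rw [he, mul_add, ← mul_assoc, ← mul_assoc, F.axa, F.left.sq]; simp
  have hae' : a * e' = a := by rw [he', mul_add, ← mul_assoc, ← mul_assoc, F'.axa, F'.left.sq]; simp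
  have hea' : e' * a = a := by rw [he', add_mul, F'.axa, mul_assoc x', F'.left.sq]; simp
  have ee : e' = e := by
    have l : e' * e = e := by rw [he, mul_add, ← mul_assoc, ← mul_assoc, hea', q1]
    have r : e' * e = e' := by
      rw [he', add_mul, mul_assoc, p2, mul_assoc, hae]
    rw [← r, l]
  set Y := a * x' - a * x with hY
  have hx'x : a * x' * x * a = Y := by
    have t : x * a = e' - a * x := by rw [ee, he]; abel
    calc a * x' * x * a = a * x' * (e' - a * x) := by rw [← t]; simp only [mul_assoc]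
      _ = (a * x' * a) * x' + a * (x' * x') * a - (a * x' * a) * x := by
        rw [he']; simp only [mul_add, mul_sub, mul_assoc]
      _ = Y := by rw [F'.axa, F'.right.sq, hY]; simp
  have hYY : Y * Y = 0 := by
    rw [hY]
    simp only [mul_sub, sub_mul, ← mul_assoc, F.axa, F'.axa]
    abel
  -- the line of `Y`
  have hmem : ∀ c : k, c ≠ 0 → InG G (1 + (c * c - 1) • Y) := by
    intro c hc
    obtain ⟨v1, -⟩ := F'.exists_torus_scalar hc
    obtain ⟨-, v2⟩ := F.exists_torus_scalar hc
    have hm : ∀ {y : End'} (F : Frame G d a y), (F.scale hc).swapper * F.swapper⁻¹ ∈ G := fun F =>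
      mul_mem ((F.scale hc).swapper_mem_closed (uu_mem (F.scale hc).left.tame) (uu_mem (F.scale hc).right.tame))
        (inv_mem (F.swapper_mem_closed (uu_mem F.left.tame) (uu_mem F.right.tame)))
    have hf : e0 a x' = e0 a x := by
      simp only [e0, sub_sub]; rw [← he', ee, he]
    refine ⟨_, mul_mem (hm F') (inv_mem (hm F)), ?_⟩
    rw [Units.val_mul, v1, v2, hf]
    have h0 : e0 a x * a = 0 := F.e0_mul (InL.refl F.left.tame)
    have h4 : e0 a x * x = 0 := by rw [← Frame.e0_swap]; exact F.symm.e0_mul (InL.refl F.right.tame)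
    have h1 : a * e0 a x = 0 := F.mul_e0 (InL.refl F.left.tame)
    have h5 : x' * e0 a x = 0 := by rw [← hf, ← Frame.e0_swap]; exact F'.symm.mul_e0 (InL.refl F'.right.tame)
    have m1 : a * x' * (a * x) = a * x := by rw [← mul_assoc, F'.axa]
    have m2 : a * x' * (x * a) = Y := by rw [← mul_assoc, hx'x]
    have m3 : x' * a * (a * x) = 0 := by rw [mul_assoc, ← mul_assoc a, F.left.sq]; simp
    have m4 : x' * a * (x * a) = x' * a := by rw [mul_assoc, ← mul_assoc a, F.axa]
    have m5 : a * x' * e0 a x = 0 := by rw [mul_assoc, h5, mul_zero]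
    have m6 : x' * a * e0 a x = 0 := by rw [mul_assoc, h1, mul_zero]
    have m7 : e0 a x * (a * x) = 0 := by rw [← mul_assoc, h0, zero_mul]
    have m8 : e0 a x * (x * a) = 0 := by rw [← mul_assoc, h4, zero_mul]
    simp only [add_mul, mul_add, smul_mul_assoc, mul_smul_comm, m1, m2, m3, m4, m5, m6, m7, m8, F.e0_sq,
      smul_zero, add_zero, zero_add, smul_smul, mul_inv_cancel₀ hc, inv_mul_cancel₀ hc, one_smul]
    have : e0 a x = 1 - e' := by rw [ee, he, e0, sub_sub]
    rw [this, he', hY]
    match_scalars <;> field_simp <;> ring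
  have hadd : ∀ s t : k, InG G (1 + s • Y) → InG G (1 + t • Y) → InG G (1 + (s + t) • Y) := fun s t hs ht => by
    have := hs.mul ht
    have e' : (1 + s • Y) * (1 + t • Y) = 1 + (s + t) • Y := by
      simp only [add_mul, mul_add, mul_one, one_mul, smul_mul_smul_comm, hYY, smul_zero, add_zero, add_smul]
      abel
    rwa [e'] at this
  have hneg : ∀ s : k, InG G (1 + s • Y) → InG G (1 + (-s) • Y) := fun s hs => by
    obtain ⟨g, hg, hge⟩ := hs
    refine ⟨g⁻¹, inv_mem hg, Units.inv_eq_of_mul_eq_one_right ?_⟩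
    rw [hge, neg_smul, ← sub_eq_add_neg]
    exact one_add_mul_one_sub (by rw [smul_mul_smul_comm, hYY, smul_zero])
  have hgood : ∀ s : k, s ^ 2 ≠ 1 → InG G (1 + s • Y) := by
    intro s hs
    have n1 : (s + 1) / 2 ≠ 0 := div_ne_zero (fun e => hs (by linear_combination (s - 1) * e)) hd.two
    have n2 : (s - 1) / 2 ≠ 0 := div_ne_zero (fun e => hs (by linear_combination (s + 1) * e)) hd.two
    convert hadd _ _ (hmem _ n1) (hneg _ (hmem _ n2)) using 3
    have := hd.two
    field_simp
    ring
  obtain ⟨t, ht1, ht2⟩ := exists_shift hd.two hd.three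
  have hYt : Tame G Y := by
    refine ⟨hYY, fun s => ?_⟩
    by_cases hs : s ^ 2 = 1
    · have h1 : InG G (1 + (1 : k) • Y) := by simpa using hadd _ _ (hgood t ht1) (hgood _ ht2)
      rcases sq_eq_one_iff.1 hs with e | e
      · rw [e]; exact h1
      · rw [e]; exact hneg 1 h1
    · exact hgood s hs
  set v := x * a * q * a * x with hv
  have hav : a * x * v = 0 := by
    calc a * x * v = a * (x * x) * (a * q * a * x) := by simp only [hv, mul_assoc]
      _ = 0 := by rw [F.right.sq]; simp
  have hxqa : x' * (q * a) = x' * a := by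
    have : q * a = x' * a * q * a + a := by
      have := hqa'
      simp only [neg_mul, mul_neg] at this
      linear_combination (norm := abel) -this
    calc x' * (q * a) = x' * (x' * a * q * a + a) := by rw [← this]
      _ = (x' * x') * (a * q * a) + x' * a := by simp only [mul_add, mul_assoc]
      _ = x' * a := by rw [F'.right.sq]; simp
  have hYv : Y * v = (2 : k) • (a * x) := by
    have h1 : x' * x * a * q * a = (2 : k) • (x' * a) := by
      have : x * a * q * a = q * a + a := by rw [hqa]; abel
      rw [mul_assoc x', mul_assoc x', mul_assoc x', this, mul_add, hxqa, two_smul]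
    calc Y * v = a * x' * v - a * x * v := by rw [hY, sub_mul]
      _ = a * (x' * x * a * q * a) * x := by rw [hav, sub_zero]; simp only [hv, mul_assoc]
      _ = (2 : k) • (a * x) := by
        rw [h1, mul_smul_comm, smul_mul_assoc, ← mul_assoc, F'.axa]
  have hYL : InL G a Y := by
    refine ⟨hYt, ?_, ?_⟩
    · rw [hY, ← mul_sub]; exact LinearMap.range_comp_le_range _ _
    · rw [← hx'x]; exact LinearMap.ker_le_ker_comp _ _
  have hY0 : Y ≠ 0 := fun e0' => by
    rw [e0', zero_mul] at hYv
    have := (smul_eq_zero.1 hYv.symm).resolve_left hd.two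
    have h1 := F.axa
    rw [this, zero_mul] at h1
    exact root_ne_zero hd ha h1.symm
  obtain ⟨η, hη, -, -, -, hηY⟩ := F.exists_inv hd hYL hY0
  have hve : v = (2 : k) • η := by
    calc v = x * a * v := by simp only [hv, ← mul_assoc, F.xax]
      _ = η * (Y * v) := by rw [← hηY, mul_assoc]
      _ = (2 : k) • η := by rw [hYv, mul_smul_comm, ← mul_assoc, F.symm.rmul hη]
  have hvt : Tame G (-v) := by rw [hve]; exact (hη.tame.smul 2).neg
  have hu : q * a * q = -((1 + -v) * a * (1 - -v)) := by
    have e1 : q * a * q = q * a * x * (a * q) := by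
      calc q * a * q = q * (a * x * a) * q := by rw [F.axa]
        _ = q * a * x * (a * q) := by simp only [mul_assoc]
    have z1 : ∀ t, x * (x * t) = 0 := fun t => by rw [← mul_assoc, F.right.sq, zero_mul]
    have z2 : ∀ t, a * (x * (a * t)) = a * t := fun t => by rw [← mul_assoc x, ← mul_assoc, ← mul_assoc a, F.axa]
    have z3 : ∀ t, x * (a * (x * t)) = x * t := fun t => by rw [← mul_assoc a, ← mul_assoc, ← mul_assoc x, F.xax]
    have z4 : a * (x * a) = a := by rw [← mul_assoc, F.axa]
    rw [e1, hqa, haq, hv]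
    simp only [mul_add, add_mul, mul_sub, sub_mul, mul_one, one_mul, neg_mul, mul_neg, mul_assoc, z1, z2, z3, z4]
    abel
  rw [hu]
  have := (ha.tame.conjUnit (uu_mem hvt)).neg
  rwa [uu_inv_val, uu_val] at this

/-- `qaq` is tame of rank at most `d` -/
theorem qaq_spec (hd : Deg G d) (ha : Root G d a) (hq : Tame G q) :
    Tame G (q * a * q) ∧ rk (q * a * q) ≤ d := by
  refine ⟨?_, (rk_mul_le_left _ _).trans ((rk_mul_le_right _ _).trans ha.rank.le)⟩
  by_cases h : a * q * a * q * a = 0
  · exact (zz_qaq hd ha hq (aqa_zero hd ha hq h)).2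
  · exact qaq_tame hd ha hq h

/-- when `qaq = 0` the commutator is small -/
theorem zz_spec (hd : Deg G d) (ha : Root G d a) (hq : Tame G q) (h0 : q * a * q = 0) :
    Tame G (zz q a) ∧ rk (q * a) + rk (a * q) ≤ d := by
  have h : a * q * a = 0 := aqa_zero hd ha hq (by
    rw [show a * q * a * q * a = a * (q * a * q) * a by simp only [mul_assoc], h0]; simp)
  refine ⟨(zz_qaq hd ha hq h).1, ?_⟩
  have h1 : LinearMap.range (a * q) ≤ LinearMap.range a ⊓ LinearMap.ker q :=
    le_inf (LinearMap.range_comp_le_range q a) (mul_eq_zero_iff.1 (by rw [← mul_assoc]; exact h0))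
  have h2 := Submodule.finrank_mono h1
  have h3 := rk_mul_add q a
  have hr := ha.rank
  simp only [rk] at h3 hr h2 ⊢
  omega

end Cfsg.Agent.QPair
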