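import Cfsg.Agent.QPair.Basic
import Mathlib.Algebra.Polynomial.AlgebraMap

/-! Words in two root groups acting on a root: the two coordinate polynomials. -/

set_option autoImplicit false

namespace Cfsg.Agent.QPair

open Polynomial

variable {k : Type*} [Field k] {M : Type*} [AddCommGroup M] [Module k M]

local notation "GL'" => LinearMap.GeneralLinearGroup k M
local notation "End'" => Module.End k M

variable {G : Subgroup (LinearMap.GeneralLinearGroup k M)} {a b : Module.End k M}

/-- the polynomial in `a b` -/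
noncomputable abbrev pT (a b : End') (P : k[X]) : End' := aeval (a * b) P

theorem pT_comm (P Q : k[X]) : pT a b P * pT a b Q = pT a b Q * pT a b P := by
  rw [← map_mul, ← map_mul, mul_comm]

theorem pT_T (P : k[X]) : pT a b P * (a * b) = a * b * pT a b P := by
  simpa [pT] using pT_comm (a := a) (b := b) P X

theorem pT_mul (P Q : k[X]) : pT a b (P * Q) = pT a b P * pT a b Q := map_mul (aeval (a * b)) P Q

theorem pT_add (P Q : k[X]) : pT a b (P + Q) = pT a b P + pT a b Q := map_add (aeval (a * b)) P Q

theorem T_mul_pT (P : k[X]) : a * b * pT a b P = pT a b (X * P) := by simp [pT]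

theorem a_pT_a (ha : a * a = 0) (P : k[X]) : a * (pT a b P * a) = 0 := by
  induction P using Polynomial.induction_on' with
  | add p q hp hq => rw [pT_add, add_mul, mul_add, hp, hq, add_zero]
  | monomial n c =>
    rw [pT, aeval_monomial]
    rcases n with _ | n
    · simp [Algebra.algebraMap_eq_smul_one, ha]
    · rw [pow_succ', Algebra.algebraMap_eq_smul_one, smul_mul_assoc, one_mul, smul_mul_assoc,
        mul_smul_comm, mul_assoc (a * b), mul_assoc a b, ← mul_assoc a a, ha, zero_mul, smul_zero]

theorem pT_mul_a_mul_b (P : k[X]) : pT a b P * a * b = pT a b P * (a * b) := mul_assoc _ _ _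

/-- reachable coordinates -/
inductive Reach : k[X] → k[X] → Prop
  | base : Reach 1 0
  | stepB {A E : k[X]} (c : k) : Reach A E → Reach A (E + C c * A)
  | stepA {A E : k[X]} (x : k) : Reach A E → Reach (A + C x * (X * E)) E

theorem pT_C_mul (c : k) (P : k[X]) : pT a b (C c * P) = c • pT a b P := by
  simp [pT, Algebra.algebraMap_eq_smul_one]

theorem Reach.element (ha : Tame G a) (hb : Tame G b) {A E : k[X]} (h : Reach A E) :
    ∃ g g' : End', InG G g ∧ InG G g' ∧ g * g' = 1 ∧ g' * g = 1 ∧
      g * a = pT a b A * a + b * (pT a b E * a) ∧ a * g' = pT a b A * a - pT a b E * (a * b) := by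
  induction h with
  | base => exact ⟨1, 1, InG.one, InG.one, one_mul 1, one_mul 1, by simp [pT], by simp [pT]⟩
  | stepB c _ ih =>
    rename_i A E _
    obtain ⟨g, g', h1, h2, h3, h4, e1, e2⟩ := ih
    have hc := hb.smul c
    refine ⟨(1 + c • b) * g, g' * (1 - c • b), (hb.2 c).mul h1, h2.mul ?_, ?_, ?_, ?_, ?_⟩
    · simpa [sub_eq_add_neg, ← neg_smul] using hb.2 (-c)
    · rw [mul_assoc, ← mul_assoc g, h3, one_mul, one_add_mul_one_sub hc.1]
    · rw [mul_assoc, ← mul_assoc (1 - c • b), one_sub_mul_one_add hc.1, one_mul, h4]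
    · rw [mul_assoc, e1, pT_add, pT_C_mul, add_mul, one_mul, mul_add (c • b), add_mul (pT a b E),
        mul_add b, smul_mul_assoc c b (b * _), ← mul_assoc b b, hb.1, zero_mul, smul_zero,
        smul_mul_assoc, smul_mul_assoc, mul_smul_comm]
      abel
    · rw [← mul_assoc, e2, pT_add, pT_C_mul, mul_sub, mul_one, sub_mul, add_mul,
        mul_smul_comm, mul_smul_comm, pT_mul_a_mul_b, mul_assoc (pT a b E) (a * b) b, mul_assoc a b b, hb.1,
        mul_zero, mul_zero, smul_zero, smul_mul_assoc]
      abel
  | stepA x _ ih =>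
    rename_i A E _
    obtain ⟨g, g', h1, h2, h3, h4, e1, e2⟩ := ih
    have hx := ha.smul x
    refine ⟨(1 + x • a) * g, g' * (1 - x • a), (ha.2 x).mul h1, h2.mul ?_, ?_, ?_, ?_, ?_⟩
    · simpa [sub_eq_add_neg, ← neg_smul] using ha.2 (-x)
    · rw [mul_assoc, ← mul_assoc g, h3, one_mul, one_add_mul_one_sub hx.1]
    · rw [mul_assoc, ← mul_assoc (1 - x • a), one_sub_mul_one_add hx.1, one_mul, h4]
    · rw [mul_assoc, e1, pT_add, pT_C_mul, add_mul, one_mul, mul_add (x • a), smul_mul_assoc x a,
        a_pT_a ha.1, smul_zero, zero_add, smul_mul_assoc x a, ← mul_assoc a b, ← T_mul_pT, add_mul,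
        smul_mul_assoc, mul_assoc (a * b)]
      abel
    · rw [← mul_assoc, e2, pT_add, pT_C_mul, ← T_mul_pT, mul_sub, mul_one, sub_mul, add_mul,
        mul_smul_comm, mul_smul_comm, mul_assoc (pT a b A) a a, ha.1, mul_zero, smul_zero, smul_mul_assoc,
        ← pT_T]
      abel

theorem range_pT (P : k[X]) : LinearMap.range (pT a b P * a) ≤ LinearMap.range a := by
  induction P using Polynomial.induction_on' with
  | add p q hp hq =>
    rintro _ ⟨m, rfl⟩
    rw [pT_add, add_mul, LinearMap.add_apply]
    exact add_mem (hp (LinearMap.mem_range_self _ m)) (hq (LinearMap.mem_range_self _ m))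
  | monomial n c =>
    rintro _ ⟨m, rfl⟩
    rw [pT, aeval_monomial, Algebra.algebraMap_eq_smul_one, smul_mul_assoc, one_mul, smul_mul_assoc,
      LinearMap.smul_apply]
    refine Submodule.smul_mem _ c ?_
    rcases n with _ | n
    · simp
    · rw [pow_succ', mul_assoc a b, mul_assoc a]
      exact LinearMap.mem_range_self a _

/-- When the second coordinate vanishes the conjugate of `a` is `A² a`. -/
theorem Reach.tame (ha : Tame G a) (hb : Tame G b) {A E : k[X]} (h : Reach A E)
    (hE : pT a b E * a = 0) : InL G a (pT a b (A ^ 2) * a) := by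
  obtain ⟨g, g', ⟨u, hu, hue⟩, -, h3, -, e1, e2⟩ := h.element ha hb
  have hET : pT a b E * (a * b) = 0 := by rw [← mul_assoc, hE, zero_mul]
  rw [hE, mul_zero, add_zero] at e1
  rw [hET, sub_zero] at e2
  have hg' : ((u⁻¹ : GL') : End') = g' := Units.inv_eq_of_mul_eq_one_right (by rw [hue, h3])
  have ht := ha.conjUnit hu
  rw [hue, hg', e1, mul_assoc, e2, ← mul_assoc, ← map_mul, ← pow_two] at ht
  exact ⟨ht, range_pT _, fun m hm => by simp [LinearMap.mem_ker, LinearMap.mem_ker.1 hm]⟩

end Cfsg.Agent.QPair
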