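import Cfsg.Agent.QPair.Product
import Cfsg.Agent.QPair.Model

/-! The dichotomy over finite fields. -/

set_option autoImplicit false
set_option linter.style.haveILetI false

namespace Cfsg.Agent.QPair.SL2Ring

open Polynomial
open scoped commutatorElement

variable {k : Type*} [Field k]

/-- `k[X]/(f)` -/
abbrev Qf (f : k[X]) := AdjoinRoot f

/-- reduction -/
noncomputable def pr {f g : k[X]} (h : g ∣ f) : Qf f →ₐ[k] Qf g := AdjoinRoot.algHomOfDvd k f g h

theorem pr_root {f g : k[X]} (h : g ∣ f) : pr h (AdjoinRoot.root f) = AdjoinRoot.root g := by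
  simp [pr, AdjoinRoot.algHomOfDvd]

theorem pr_mk {f g : k[X]} (h : g ∣ f) (P : k[X]) : pr h (AdjoinRoot.mk f P) = AdjoinRoot.mk g P := by
  rw [← AdjoinRoot.aeval_eq, ← Polynomial.aeval_algHom_apply, pr_root, AdjoinRoot.aeval_eq]

/-- reduction of matrices -/
noncomputable def gpr {f g : k[X]} (h : g ∣ f) : S2 (Qf f) →* S2 (Qf g) :=
  Matrix.SpecialLinearGroup.map (pr h).toRingHom

@[simp] theorem gpr_apply {f g : k[X]} (h : g ∣ f) (m : S2 (Qf f)) (i j : Fin 2) :
    gpr h m i j = pr h (m i j) := rfl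

theorem gpr_gpr {f g l : k[X]} (h1 : g ∣ f) (h2 : l ∣ g) (h3 : l ∣ f) (m : S2 (Qf f)) :
    gpr h2 (gpr h1 m) = gpr h3 m := by
  apply ext2 <;> simp only [gpr_apply] <;>
    (obtain ⟨P, hP⟩ := AdjoinRoot.mk_surjective (g := f) (m _ _); rw [← hP, pr_mk, pr_mk, pr_mk])

/-- the generated group -/
noncomputable def Hf (f : k[X]) : Subgroup (S2 (Qf f)) := gen k (AdjoinRoot.root f)

theorem map_Hf {f g : k[X]} (h : g ∣ f) : (Hf f).map (gpr h) = Hf g := by
  rw [Hf, Hf, gpr, map_gen, pr_root]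

theorem lift_Hf {f g : k[X]} (h : g ∣ f) {y : S2 (Qf g)} (hy : y ∈ Hf g) : ∃ m ∈ Hf f, gpr h m = y := by
  rw [← map_Hf h] at hy
  obtain ⟨m, hm, e⟩ := hy
  exact ⟨m, hm, e⟩

theorem mk_ext {f g1 g2 : k[X]} (hf : f = g1 * g2) (hc : IsCoprime g1 g2) {z w : Qf f}
    (e1 : pr (hf ▸ dvd_mul_right g1 g2) z = pr (hf ▸ dvd_mul_right g1 g2) w)
    (e2 : pr (hf ▸ dvd_mul_left g2 g1) z = pr (hf ▸ dvd_mul_left g2 g1) w) : z = w := by
  obtain ⟨P, rfl⟩ := AdjoinRoot.mk_surjective z
  obtain ⟨Q, rfl⟩ := AdjoinRoot.mk_surjective w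
  rw [pr_mk, pr_mk, AdjoinRoot.mk_eq_mk] at e1 e2
  rw [AdjoinRoot.mk_eq_mk, hf]
  exact hc.mul_dvd e1 e2

theorem gpr_ext {f g1 g2 : k[X]} (hf : f = g1 * g2) (hc : IsCoprime g1 g2) {m n : S2 (Qf f)}
    (e1 : gpr (hf ▸ dvd_mul_right g1 g2) m = gpr (hf ▸ dvd_mul_right g1 g2) n)
    (e2 : gpr (hf ▸ dvd_mul_left g2 g1) m = gpr (hf ▸ dvd_mul_left g2 g1) n) : m = n := by
  have key : ∀ i j, m i j = n i j := fun i j =>
    mk_ext hf hc (by simpa using congrArg (fun a : S2 _ => a i j) e1)
      (by simpa using congrArg (fun a : S2 _ => a i j) e2)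
  exact ext2 (key 0 0) (key 0 1) (key 1 0) (key 1 1)

theorem crt_exists {f g1 g2 : k[X]} (hf : f = g1 * g2) (hc : IsCoprime g1 g2) (y1 : S2 (Qf g1)) (y2 : S2 (Qf g2)) :
    ∃ y : S2 (Qf f), gpr (hf ▸ dvd_mul_right g1 g2) y = y1 ∧ gpr (hf ▸ dvd_mul_left g2 g1) y = y2 := by
  have h1 : ∀ (z1 : Qf g1) (z2 : Qf g2), ∃ z : Qf f, pr (hf ▸ dvd_mul_right g1 g2) z = z1 ∧
      pr (hf ▸ dvd_mul_left g2 g1) z = z2 := by
    intro z1 z2
    obtain ⟨P, rfl⟩ := AdjoinRoot.mk_surjective z1
    obtain ⟨Q, rfl⟩ := AdjoinRoot.mk_surjective z2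
    obtain ⟨u, v, huv⟩ := hc
    refine ⟨AdjoinRoot.mk f (P * (v * g2) + Q * (u * g1)), ?_, ?_⟩ <;> rw [pr_mk, AdjoinRoot.mk_eq_mk]
    · exact ⟨u * (Q - P), by linear_combination P * huv⟩
    · exact ⟨v * (P - Q), by linear_combination Q * huv⟩
  choose c hc1 hc2 using h1
  let m : Matrix (Fin 2) (Fin 2) (Qf f) := fun i j => c (y1 i j) (y2 i j)
  have hdet : m.det = 1 := by
    refine mk_ext hf hc ?_ ?_
    · rw [Matrix.det_fin_two, map_sub, map_mul, map_mul, map_one]
      simp only [m, hc1]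
      exact det_eq y1
    · rw [Matrix.det_fin_two, map_sub, map_mul, map_mul, map_one]
      simp only [m, hc2]
      exact det_eq y2
  refine ⟨⟨m, hdet⟩, ?_, ?_⟩
  · apply ext2 <;> exact hc1 _ _
  · apply ext2 <;> exact hc2 _ _

theorem coprime_of_squarefree {π g : k[X]} (hπ : Irreducible π) (hs : Squarefree (π * g)) : IsCoprime π g :=
  (hπ.coprime_iff_not_dvd).2 fun ⟨c, hc⟩ => hπ.not_isUnit (hs π ⟨c, by rw [hc]; ring⟩)

theorem finite_Qf [Finite k] {f : k[X]} (hf : f.Monic) : Finite (Qf f) := by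
  haveI : Module.Finite k (Qf f) := (AdjoinRoot.powerBasis' hf).finite
  exact Module.finite_of_finite k

/-- generation for squarefree moduli -/
theorem top_squarefree [Fintype k] (h2 : (2 : k) ≠ 0) (hq : 5 ≤ Fintype.card k) :
    ∀ (n : ℕ) (f : k[X]), f.natDegree ≤ n → f.Monic → Squarefree f → IsCoprime f X → Hf f = ⊤ := by
  intro n
  induction n with
  | zero =>
    intro f hn hf _ _
    obtain rfl : f = 1 := eq_one_of_monic_natDegree_zero hf (by omega)
    rw [eq_top_iff]
    intro g _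
    haveI : Subsingleton (Qf (1 : k[X])) := ⟨fun a b => by
      obtain ⟨P, rfl⟩ := AdjoinRoot.mk_surjective a
      obtain ⟨Q, rfl⟩ := AdjoinRoot.mk_surjective b
      rw [AdjoinRoot.mk_eq_mk]; exact one_dvd _⟩
    rw [show g = 1 from ext2 (Subsingleton.elim _ _) (Subsingleton.elim _ _) (Subsingleton.elim _ _)
      (Subsingleton.elim _ _)]
    exact one_mem _
  | succ n ih =>
    intro f hn hf hsq hX
    by_cases hf1 : f.natDegree ≤ n
    · exact ih f hf1 hf hsq hX
    obtain ⟨π, hπm, hπ, g, rfl⟩ : ∃ π : k[X], π.Monic ∧ Irreducible π ∧ π ∣ f := by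
      have : ¬ IsUnit f := fun hu => by
        have := natDegree_eq_zero_of_isUnit hu
        omega
      obtain ⟨π, h1, h2', h3⟩ := exists_monic_irreducible_factor f this
      exact ⟨π, h1, h2', h3⟩
    have hgm : g.Monic := hπm.of_mul_monic_left hf
    have hπd : 0 < π.natDegree := hπ.natDegree_pos
    have hdeg : (π * g).natDegree = π.natDegree + g.natDegree := hπm.natDegree_mul hgm
    have hπX : IsCoprime π X := hX.of_mul_left_left
    haveI := Fact.mk hπ
    haveI := finite_Qf hπm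
    letI : Fintype (Qf π) := Fintype.ofFinite _
    have hroot : AdjoinRoot.root π ≠ 0 := fun e => by
      rw [← AdjoinRoot.mk_X, AdjoinRoot.mk_eq_zero] at e
      exact hπ.not_isUnit (hπX.isUnit_of_dvd' dvd_rfl e)
    have htopπ : Hf π = ⊤ := field_top h2 hq hroot fun L hc hα => by
      rw [eq_top_iff]
      intro z hz
      clear hz
      obtain ⟨P, rfl⟩ := AdjoinRoot.mk_surjective z
      induction P using Polynomial.induction_on' with
      | add p q hp hq => rw [map_add]; exact L.add_mem hp hq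
      | monomial i c =>
        rw [← C_mul_X_pow_eq_monomial, map_mul, map_pow, AdjoinRoot.mk_X, AdjoinRoot.mk_C]
        exact L.mul_mem (hc c) (L.pow_mem hα i)
    by_cases hg1 : g = 1
    · subst hg1; rw [mul_one]; exact htopπ
    have hgd : ¬ IsUnit g := fun hu => hg1 (hgm.eq_one_of_isUnit hu)
    obtain ⟨π2, hπ2m, hπ2, g', rfl⟩ : ∃ π2 : k[X], π2.Monic ∧ Irreducible π2 ∧ π2 ∣ g := by
      obtain ⟨π2, h1, h2', h3⟩ := exists_monic_irreducible_factor g hgd
      exact ⟨π2, h1, h2', h3⟩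
    have hg'm : g'.Monic := hπ2m.of_mul_monic_left hgm
    have hπ2d : 0 < π2.natDegree := hπ2.natDegree_pos
    have hdeg2 : (π2 * g').natDegree = π2.natDegree + g'.natDegree := hπ2m.natDegree_mul hg'm
    have hc1 : IsCoprime π (π2 * g') := coprime_of_squarefree hπ hsq
    have hsqg : Squarefree (π2 * g') := hsq.squarefree_of_dvd (dvd_mul_left _ _)
    have hc2 : IsCoprime π2 g' := coprime_of_squarefree hπ2 hsqg
    have hd12 : π * π2 ∣ π * (π2 * g') := mul_dvd_mul_left π (dvd_mul_right π2 g')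
    have hd13 : π * g' ∣ π * (π2 * g') := mul_dvd_mul_left π (dvd_mul_left g' π2)
    have hc12 : IsCoprime π π2 := hc1.of_mul_right_left
    have hc13 : IsCoprime π g' := hc1.of_mul_right_right
    have htop2 : Hf (π2 * g') = ⊤ := ih _ (by omega) hgm hsqg hX.of_mul_left_right
    have htop13 : Hf (π * g') = ⊤ := ih _ (by rw [hπm.natDegree_mul hg'm]; omega) (hπm.mul hg'm)
      (hsq.squarefree_of_dvd hd13) (hπX.mul_left hX.of_mul_left_right.of_mul_left_right)
    have hpair : Hf (π * π2) = ⊤ := by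
      by_cases hlt : (π * π2).natDegree ≤ n
      · exact ih _ hlt (hπm.mul hπ2m) (hsq.squarefree_of_dvd hd12)
          (hπX.mul_left hX.of_mul_left_right.of_mul_left_left)
      haveI := Fact.mk hπ2
      haveI := finite_Qf hπ2m
      letI : Fintype (Qf π2) := Fintype.ofFinite _
      have hd1 : π ∣ π * π2 := dvd_mul_right _ _
      have hd2 : π2 ∣ π * π2 := dvd_mul_left _ _
      have htopπ2 : Hf π2 = ⊤ :=
        ih _ (by omega) hπ2m hπ2.squarefree hX.of_mul_left_right.of_mul_left_left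
      have hroot2 : AdjoinRoot.root π2 ≠ 0 := fun e => by
        rw [← AdjoinRoot.mk_X, AdjoinRoot.mk_eq_zero] at e
        exact hπ2.not_isUnit (hX.of_mul_left_right.of_mul_left_left.isUnit_of_dvd' dvd_rfl e)
      rcases pair_or_link h2 hq (pr hd1) (pr hd2) (AdjoinRoot.root (π * π2))
        (by rw [pr_root]; exact hroot2) (by rw [pr_root]; exact htopπ) (by rw [pr_root]; exact htopπ2) with h | ⟨σ, hσ⟩
      · rw [eq_top_iff]
        intro y _
        obtain ⟨m, hm, e1, e2⟩ := h (gpr hd1 y) (gpr hd2 y)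
        have : m = y := gpr_ext rfl hc12 e1 e2
        exact this ▸ hm
      · exfalso
        rw [pr_root, pr_root] at hσ
        have h0 : Polynomial.aeval (σ (AdjoinRoot.root π2)) π2 = 0 := by
          rw [Polynomial.aeval_algHom_apply, AdjoinRoot.aeval_eq, AdjoinRoot.mk_self, map_zero]
        rw [hσ, AdjoinRoot.aeval_eq, AdjoinRoot.mk_eq_zero] at h0
        exact hπ.not_isUnit (hc12.isUnit_of_dvd' dvd_rfl h0)
    -- the kernel on the other factors
    have hdπ : π ∣ π * (π2 * g') := dvd_mul_right _ _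
    have hdg : π2 * g' ∣ π * (π2 * g') := dvd_mul_left _ _
    set N1 : Subgroup (S2 (Qf π)) := ((Hf (π * (π2 * g'))) ⊓ (gpr hdg).ker).map (gpr hdπ) with hN1
    have hN : N1 = ⊤ := by
      rw [eq_top_iff, ← perfect_of_top hq htopπ, commutator_def, Subgroup.commutator_le]
      intro y _ z _
      obtain ⟨Y, hY1, hY2⟩ := crt_exists rfl hc13 y (1 : S2 (Qf g'))
      obtain ⟨Z, hZ1, hZ2⟩ := crt_exists rfl hc12 z (1 : S2 (Qf π2))
      obtain ⟨h, hh, he⟩ := lift_Hf hd13 (htop13 ▸ Subgroup.mem_top Y)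
      obtain ⟨h', hh', he'⟩ := lift_Hf hd12 (hpair ▸ Subgroup.mem_top Z)
      refine ⟨⁅h, h'⁆, Subgroup.mem_inf.2 ⟨?_, ?_⟩, ?_⟩
      · rw [commutatorElement_def]; exact mul_mem (mul_mem (mul_mem hh hh') (inv_mem hh)) (inv_mem hh')
      · rw [MonoidHom.mem_ker, map_commutatorElement]
        refine gpr_ext rfl hc2 ?_ ?_
        · rw [map_commutatorElement, map_one, gpr_gpr hdg (dvd_mul_right π2 g') ((dvd_mul_left π2 π).trans hd12) h',
            ← gpr_gpr hd12 (dvd_mul_left π2 π) _ h', he', hZ2, commutatorElement_one_right]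
        · rw [map_commutatorElement, map_one, gpr_gpr hdg (dvd_mul_left g' π2) ((dvd_mul_left g' π).trans hd13) h,
            ← gpr_gpr hd13 (dvd_mul_left g' π) _ h, he, hY2, commutatorElement_one_left]
      · rw [map_commutatorElement, ← gpr_gpr hd13 (dvd_mul_right π g') hdπ h,
          ← gpr_gpr hd12 (dvd_mul_right π π2) hdπ h', he, he', hY1, hZ1]
    rw [eq_top_iff]
    intro y _
    obtain ⟨h, hh, he⟩ := lift_Hf hdg (htop2 ▸ Subgroup.mem_top (gpr hdg y))
    obtain ⟨m, hm, hme⟩ : gpr hdπ (y * h⁻¹) ∈ N1 := hN ▸ Subgroup.mem_top _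
    obtain ⟨hm1, hm2⟩ := Subgroup.mem_inf.1 hm
    have : y * h⁻¹ = m := gpr_ext rfl hc1 hme.symm (by
      rw [show gpr hdg m = 1 from hm2, map_mul, map_inv, he, mul_inv_cancel])
    have := mul_mem (this ▸ hm1 : y * h⁻¹ ∈ _) hh
    rwa [inv_mul_cancel_right] at this

theorem exists_radical : ∀ (n : ℕ) (f : k[X]), f.natDegree ≤ n → f.Monic →
    ∃ r : k[X], r.Monic ∧ Squarefree r ∧ r ∣ f ∧ ∃ N, f ∣ r ^ N := by
  intro n
  induction n with
  | zero =>
    intro f hn hf
    obtain rfl : f = 1 := eq_one_of_monic_natDegree_zero hf (by omega)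
    exact ⟨1, monic_one, squarefree_one, dvd_rfl, 1, by simp⟩
  | succ n ih =>
    intro f hn hf
    by_cases hu : IsUnit f
    · obtain rfl := hf.eq_one_of_isUnit hu
      exact ⟨1, monic_one, squarefree_one, dvd_rfl, 1, by simp⟩
    obtain ⟨π, hπm, hπ, g, rfl⟩ := exists_monic_irreducible_factor f hu
    have hgm : g.Monic := hπm.of_mul_monic_left hf
    have := hπ.natDegree_pos
    obtain ⟨r, hr, hrs, hrd, N, hN⟩ := ih g (by have := hπm.natDegree_mul hgm; omega) hgm
    by_cases hd : π ∣ r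
    · exact ⟨r, hr, hrs, hrd.trans (dvd_mul_left g π), N + 1, by
        rw [pow_succ']; exact mul_dvd_mul hd hN⟩
    · refine ⟨π * r, hπm.mul hr, squarefree_mul_iff.2
        ⟨((hπ.coprime_iff_not_dvd).2 hd).isRelPrime, hπ.squarefree, hrs⟩, mul_dvd_mul_left π hrd, N + 1, ?_⟩
      rw [mul_pow, pow_succ', pow_succ' r N]
      exact mul_dvd_mul (dvd_mul_right π _) (hN.trans (dvd_mul_left _ r))

theorem nilpotent_of_pr {f r : k[X]} {N : ℕ} (hrd : r ∣ f) (hN : f ∣ r ^ N) {z : Qf f} (hz : pr hrd z = 0) :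
    IsNilpotent z := by
  obtain ⟨P, rfl⟩ := AdjoinRoot.mk_surjective z
  rw [pr_mk, AdjoinRoot.mk_eq_zero] at hz
  exact ⟨N, by rw [← map_pow, AdjoinRoot.mk_eq_zero]; exact hN.trans (pow_dvd_pow_of_dvd hz N)⟩

/-- an element near the Borel subgroup inside a big normal subgroup -/
theorem kernel_elem [Fintype k] (h2 : (2 : k) ≠ 0) (hq : 5 ≤ Fintype.card k) {p : ℕ} [hp : Fact p.Prime] {f : k[X]}
    (hf : f.Monic) (hd : 0 < f.natDegree) (hX : IsCoprime f X) (K : Subgroup (S2 (Qf f))) (hKH : K ≤ Hf f)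
    (hnorm : ∀ h ∈ Hf f, ∀ g ∈ K, h * g * h⁻¹ ∈ K) (hpq : ∀ h ∈ Hf f, ∃ m : ℕ, h ^ p ^ m ∈ K) :
    ∃ g ∈ K, g 1 0 = 0 ∧ g 0 0 ^ 2 ≠ 1 ∧ (¬ Irreducible f → ¬ IsUnit (g 0 0 ^ 2 - 1)) := by
  classical
  haveI := finite_Qf hf
  haveI : Nontrivial (Qf f) := AdjoinRoot.nontrivial f (by
    rw [degree_eq_natDegree hf.ne_zero]; exact_mod_cast hd.ne')
  -- images of `K` in squarefree quotients
  have himg : ∀ r : k[X], r.Monic → Squarefree r → (hrd : r ∣ f) → K.map (gpr hrd) = ⊤ := by
    intro r hr hrs hrd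
    haveI := finite_Qf hr
    have htop : Hf r = ⊤ := top_squarefree h2 hq _ r le_rfl hr hrs (IsCoprime.of_isCoprime_of_dvd_left hX hrd)
    haveI : (K.map (gpr hrd)).Normal := ⟨by
      rintro _ ⟨n, hn, rfl⟩ y
      obtain ⟨h, hh, rfl⟩ := lift_Hf hrd (htop ▸ Subgroup.mem_top y)
      exact ⟨h * n * h⁻¹, hnorm h hh n hn, by simp⟩⟩
    refine eq_top_of_pQuot p (perfect_of_top hq htop) _ fun y => ?_
    obtain ⟨h, hh, rfl⟩ := lift_Hf hrd (htop ▸ Subgroup.mem_top y)
    obtain ⟨m, hm⟩ := hpq h hh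
    exact ⟨m, ⟨_, hm, map_pow _ _ _⟩⟩
  have hunit2 : IsUnit (2 : Qf f) := by
    rw [← map_ofNat (algebraMap k (Qf f)) 2]
    exact (h2.isUnit).map _
  obtain ⟨c, hc0, hc1⟩ := exists_scalar k hq
  by_cases hsq : Squarefree f
  · have hK : K = ⊤ := by
      have := himg f hf hsq dvd_rfl
      have hid : ∀ m : S2 (Qf f), gpr (dvd_refl f) m = m := fun m => by
        apply ext2 <;> simp only [gpr_apply] <;>
          (obtain ⟨P, hP⟩ := AdjoinRoot.mk_surjective (g := f) (m _ _); rw [← hP, pr_mk])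
      rwa [show gpr (dvd_refl f) = MonoidHom.id _ from MonoidHom.ext hid, Subgroup.map_id] at this
    by_cases hirr : Irreducible f
    · refine ⟨dR (Units.map (algebraMap k (Qf f)).toMonoidHom (Units.mk0 c hc0)), hK ▸ Subgroup.mem_top _, rfl, ?_,
        fun h => absurd hirr h⟩
      intro e
      apply hc1
      apply (algebraMap k (Qf f)).injective
      simpa using e
    · obtain ⟨π, hπm, hπ, g, rfl⟩ := exists_monic_irreducible_factor f (fun hu => by
        have := natDegree_eq_zero_of_isUnit hu; omega)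
      have hgm : g.Monic := hπm.of_mul_monic_left hf
      have hg1 : g ≠ 1 := fun e => hirr (by rw [e, mul_one]; exact hπ)
      haveI := Fact.mk hπ
      have hcop := coprime_of_squarefree hπ hsq
      obtain ⟨y, hy1, hy2⟩ := crt_exists rfl hcop
        (dR (Units.map (algebraMap k (Qf π)).toMonoidHom (Units.mk0 c hc0))) (1 : S2 (Qf g))
      refine ⟨y, hK ▸ Subgroup.mem_top _, ?_, ?_, fun _ hu => ?_⟩
      · refine mk_ext rfl hcop ?_ ?_
        · simpa using congrArg (fun a : S2 _ => a 1 0) hy1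
        · simpa using congrArg (fun a : S2 _ => a 1 0) hy2
      · intro e
        apply hc1
        apply (algebraMap k (Qf π)).injective
        have h1 := congrArg (fun a : S2 _ => a 0 0) hy1
        simp only [gpr_apply, dR00] at h1
        rw [map_pow, map_one, show algebraMap k (Qf π) c = _ from h1.symm, ← map_pow, e, map_one]
      · have hgnu : ¬ IsUnit g := fun hu' => hg1 (hgm.eq_one_of_isUnit hu')
        haveI : Nontrivial (Qf g) := AdjoinRoot.nontrivial g (fun h0 => hgnu (isUnit_iff_degree_eq_zero.2 h0))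
        have := hu.map (pr (dvd_mul_left g π))
        have h1 := congrArg (fun a : S2 _ => a 0 0) hy2
        simp only [gpr_apply] at h1
        rw [map_sub, map_pow, h1, map_one] at this
        simp at this
  · obtain ⟨r, hr, hrs, hrd, N, hN⟩ := exists_radical _ f le_rfl hf
    have hnil : ∀ m : S2 (Qf f), gpr hrd m = 1 →
        IsNilpotent (m 0 0 - 1) ∧ IsNilpotent (m 0 1) ∧ IsNilpotent (m 1 0) := fun m hm =>
      ⟨nilpotent_of_pr hrd hN (by
          rw [map_sub, map_one, show pr hrd (m 0 0) = gpr hrd m 0 0 from rfl, hm]; simp),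
        nilpotent_of_pr hrd hN (by rw [show pr hrd (m 0 1) = gpr hrd m 0 1 from rfl, hm]; simp),
        nilpotent_of_pr hrd hN (by rw [show pr hrd (m 1 0) = gpr hrd m 1 0 from rfl, hm]; simp)⟩
    have htop : Hf r = ⊤ := top_squarefree h2 hq _ r le_rfl hr hrs (IsCoprime.of_isCoprime_of_dvd_left hX hrd)
    obtain ⟨n0, hn0, hn0r, hn01⟩ : ∃ n ∈ Hf f, gpr hrd n = 1 ∧ n ≠ 1 := by
      by_contra hno
      push_neg at hno
      obtain ⟨π, hπm, hπ, hπ2⟩ : ∃ π : k[X], π.Monic ∧ Irreducible π ∧ π * π ∣ f := by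
        simp only [Squarefree, not_forall] at hsq
        obtain ⟨x, hxf, hxu⟩ := hsq
        obtain ⟨π, h1, h2', h3⟩ := exists_monic_irreducible_factor x hxu
        exact ⟨π, h1, h2', (mul_dvd_mul h3 h3).trans hxf⟩
      obtain ⟨g, rfl⟩ : π ∣ r := hπ.prime.dvd_of_dvd_pow (((dvd_mul_right π π).trans hπ2).trans hN)
      have hcop := coprime_of_squarefree hπ hrs
      haveI := Fact.mk hπ
      haveI := finite_Qf hπm
      letI : Fintype (Qf π) := Fintype.ofFinite _
      obtain ⟨Y1, hY1, hY1'⟩ := crt_exists rfl hcop (uR (1 : Qf π)) (1 : S2 (Qf g))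
      obtain ⟨Y2, hY2, hY2'⟩ := crt_exists rfl hcop (lR (1 : Qf π)) (1 : S2 (Qf g))
      obtain ⟨M1, hM1, hM1e⟩ := lift_Hf hrd (htop ▸ Subgroup.mem_top Y1)
      obtain ⟨M2, hM2, hM2e⟩ := lift_Hf hrd (htop ▸ Subgroup.mem_top Y2)
      have hπf : π ∣ f := (dvd_mul_right π g).trans hrd
      have hπππ : π ∣ π * π := dvd_mul_right π π
      have hnil2 : ∀ z : Qf (π * π), pr hπππ z = 0 → IsNilpotent z := fun z hz =>
        nilpotent_of_pr hπππ (N := 2) (by rw [pow_two]) hz
      have hinj : ∀ m ∈ Hf f, gpr hπf m = 1 → gpr hπ2 m = 1 := by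
        intro m hm hm1
        have hcomm : ∀ {M Y}, M ∈ Hf f → gpr hrd M = Y → gpr (dvd_mul_left g π) Y = 1 → m * M = M * m := by
          intro M Y hM hMe hY
          rw [← commutatorElement_eq_one_iff_mul_comm]
          refine hno _ (by rw [commutatorElement_def]; exact mul_mem (mul_mem (mul_mem hm hM) (inv_mem hm)) (inv_mem hM))
            (gpr_ext rfl hcop ?_ ?_)
          · rw [map_commutatorElement, map_commutatorElement, gpr_gpr hrd (dvd_mul_right π g) hπf m, hm1,
              commutatorElement_one_left, map_one]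
          · rw [map_commutatorElement, map_commutatorElement, hMe, hY, commutatorElement_one_right, map_one]
        set m' := gpr hπ2 m
        have hred : ∀ M : S2 (Qf f), ∀ i j, pr hπππ (gpr hπ2 M i j) = gpr (dvd_mul_right π g) (gpr hrd M) i j :=
          fun M i j => by
            show gpr hπππ (gpr hπ2 M) i j = _
            rw [gpr_gpr hπ2 hπππ hπf, gpr_gpr hrd (dvd_mul_right π g) hπf]
        have hsc := scalar_of_commute (n := m') (M1 := gpr hπ2 M1) (M2 := gpr hπ2 M2)
          (by rw [← map_mul, hcomm hM1 hM1e hY1', map_mul]) (by rw [← map_mul, hcomm hM2 hM2e hY2', map_mul])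
          (by
            have hn : IsNilpotent (gpr hπ2 M1 0 1 - 1) := hnil2 _ (by
              rw [map_sub, map_one, hred, hM1e, hY1, uR01, sub_self])
            have := hn.isUnit_add_left_of_commute isUnit_one (Commute.all _ _)
            simpa using this)
          (by
            have hn : IsNilpotent (gpr hπ2 M2 1 0 - 1) := hnil2 _ (by
              rw [map_sub, map_one, hred, hM2e, hY2, lR10, sub_self])
            have := hn.isUnit_add_left_of_commute isUnit_one (Commute.all _ _)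
            simpa using this)
          (hnil2 _ (by rw [hred, hM1e, hY1, uR10]))
        refine eq_one_of_scalar (by have := hunit2.map (pr hπ2); rwa [map_ofNat] at this) hsc (hnil2 _ ?_)
        rw [map_sub, map_one, show pr hπππ (m' 0 0) = gpr hπππ (gpr hπ2 m) 0 0 from rfl, gpr_gpr hπ2 hπππ hπf,
          hm1]
        simp
      -- a semisimple element
      have hα : AdjoinRoot.root π ≠ 0 := fun e => by
        rw [← AdjoinRoot.mk_X, AdjoinRoot.mk_eq_zero] at e
        exact hπ.not_isUnit ((IsCoprime.of_isCoprime_of_dvd_left hX hπf).isUnit_of_dvd' dvd_rfl e)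
      have h2π : (2 : Qf π) ≠ 0 := two_ne_zero_map h2
      obtain ⟨d, hd0, hd4⟩ : ∃ d : k, d ≠ 0 ∧ d • AdjoinRoot.root π + 4 ≠ 0 := by
        by_cases h1 : (1 : k) • AdjoinRoot.root π + 4 = 0
        · refine ⟨2, h2, fun h2' => ?_⟩
          rw [Algebra.smul_def, map_ofNat] at h2'
          rw [one_smul] at h1
          apply pow_ne_zero 2 h2π
          linear_combination 2 * h1 - h2'
        · exact ⟨1, one_ne_zero, h1⟩
      set h := uR (algebraMap k (Qf f) 1) * lR (d • AdjoinRoot.root f) with hh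
      have hhH : h ∈ Hf f := mul_mem (uR_mem_gen _) (lR_mem_gen _)
      set Q := (Fintype.card (Qf π)) ^ 2 with hQ
      have himgh : ∀ {g' : k[X]} (hg' : g' ∣ f),
          gpr hg' h = uR 1 * lR (d • AdjoinRoot.root g') := fun hg' => by
        rw [hh, map_mul, map_one, gpr, map_uR, map_lR, map_one]
        rw [show (pr hg').toRingHom (d • AdjoinRoot.root f) = pr hg' (d • AdjoinRoot.root f) from rfl, map_smul, pr_root]
      have hpow : gpr hπf h ^ Q = gpr hπf h := by
        rw [himgh]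
        refine pow_card_sq h2π _ ?_
        simp
        intro e
        have : d • AdjoinRoot.root π * (d • AdjoinRoot.root π + 4) = 0 := by linear_combination e
        rcases mul_eq_zero.1 this with r' | r'
        · exact hα ((smul_eq_zero.1 r').resolve_left hd0)
        · exact hd4 r'
      have hpow2 : gpr hπ2 h ^ Q = gpr hπ2 h := by
        have := hinj (h ^ Q * h⁻¹) (mul_mem (pow_mem hhH Q) (inv_mem hhH)) (by
          rw [map_mul, map_pow, map_inv, hpow, mul_inv_cancel])
        rwa [map_mul, map_pow, map_inv, mul_inv_eq_one] at this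
      haveI : Nontrivial (Qf (π * π)) := AdjoinRoot.nontrivial _ (by
        rw [degree_eq_natDegree (hπm.mul hπm).ne_zero, hπm.natDegree_mul hπm]
        have := hπ.natDegree_pos
        exact_mod_cast (by omega : π.natDegree + π.natDegree ≠ 0))
      obtain ⟨p', hchar⟩ := CharP.exists k
      obtain ⟨n, hpp, hcard⟩ := FiniteField.card k p'
      haveI := Fact.mk hpp
      haveI : CharP (Qf (π * π)) p' := charP_of_injective_algebraMap (algebraMap k (Qf (π * π))).injective p'
      have hKc : Fintype.card (Qf π) = Fintype.card k ^ Module.finrank k (Qf π) := by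
        haveI : Module.Finite k (Qf π) := (AdjoinRoot.powerBasis' hπm).finite
        exact Module.card_eq_pow_finrank
      obtain ⟨e, he⟩ : ∃ e, Q = Fintype.card k ^ e :=
        ⟨2 * Module.finrank k (Qf π), by rw [hQ, hKc, ← pow_mul, mul_comm]⟩
      have hQp : Q = p' ^ ((n : ℕ) * e) := by rw [he, hcard, ← pow_mul]
      have hconst : ∀ z : k, (algebraMap k (Qf (π * π)) z) ^ Q = algebraMap k (Qf (π * π)) z := fun z => by
        rw [← map_pow, he, FiniteField.pow_card_pow]
      have htr := tr_pow (p := p') (gpr hπ2 h) ((n : ℕ) * e) (by rw [← hQp]; exact hpow2)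
      rw [← hQp, himgh] at htr
      simp at htr
      have hx : AdjoinRoot.root (π * π) ^ Q = AdjoinRoot.root (π * π) := by
        have hh2 : (1 : Qf (π * π)) + d • AdjoinRoot.root (π * π) + 1 =
            algebraMap k (Qf (π * π)) 2 + algebraMap k (Qf (π * π)) d * AdjoinRoot.root (π * π) := by
          rw [Algebra.smul_def, map_ofNat]; ring
        rw [hh2, hQp, add_pow_char_pow, ← hQp, mul_pow, hconst, hconst] at htr
        have hu : IsUnit (algebraMap k (Qf (π * π)) d) := hd0.isUnit.map _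
        exact hu.mul_left_cancel (add_left_cancel htr)
      have hdiv : π * π ∣ X ^ Q - X := by
        rw [← AdjoinRoot.mk_eq_zero, map_sub, map_pow, AdjoinRoot.mk_X, hx, sub_self]
      have hsep : (X ^ Q - X : k[X]).Separable :=
        galois_poly_separable p' Q (hQp ▸ dvd_pow_self p' (by
          have := hπ.natDegree_pos
          intro e0
          rcases Nat.mul_eq_zero.1 e0 with r' | r'
          · exact n.pos.ne' r'
          · have : 1 < Q := by rw [hQ]; exact Nat.one_lt_pow two_ne_zero Fintype.one_lt_card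
            rw [he, r', pow_zero] at this
            omega))
      exact hπ.not_isUnit (hsep.squarefree π hdiv)
    obtain ⟨n, hn, hnr, hn1⟩ : ∃ n ∈ K, gpr hrd n = 1 ∧ n ≠ 1 := by
      by_contra hno
      push_neg at hno
      apply hn01
      obtain ⟨M1, hM1, hM1e⟩ : uR 1 ∈ K.map (gpr hrd) := (himg r hr hrs hrd) ▸ Subgroup.mem_top _
      obtain ⟨M2, hM2, hM2e⟩ : lR 1 ∈ K.map (gpr hrd) := (himg r hr hrs hrd) ▸ Subgroup.mem_top _
      have hcomm : ∀ {M}, M ∈ K → n0 * M = M * n0 := fun {M} hM => by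
        rw [← commutatorElement_eq_one_iff_mul_comm]
        refine hno _ (by rw [commutatorElement_def]; exact mul_mem (hnorm _ hn0 M hM) (inv_mem hM)) ?_
        rw [map_commutatorElement, hn0r, commutatorElement_one_left]
      have hsub : ∀ z : Qf f, pr hrd z = 1 → IsUnit z := fun z hz => by
        have hn : IsNilpotent (z - 1) := nilpotent_of_pr hrd hN (by rw [map_sub, hz, map_one, sub_self])
        have := hn.isUnit_add_left_of_commute isUnit_one (Commute.all _ _)
        simpa using this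
      exact eq_one_of_scalar hunit2 (scalar_of_commute (hcomm hM1) (hcomm hM2)
        (hsub _ (by rw [show pr hrd (M1 0 1) = gpr hrd M1 0 1 from rfl, hM1e, uR01]))
        (hsub _ (by rw [show pr hrd (M2 1 0) = gpr hrd M2 1 0 from rfl, hM2e, lR10]))
        (nilpotent_of_pr hrd hN (by rw [show pr hrd (M1 1 0) = gpr hrd M1 1 0 from rfl, hM1e, uR10])))
        (hnil n0 hn0r).1
    obtain ⟨hA, hB, hC⟩ := hnil n hnr
    have hxu : IsUnit (AdjoinRoot.root f) := by
      obtain ⟨u, v, huv⟩ := hX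
      refine IsUnit.of_mul_eq_one (AdjoinRoot.mk f v) ?_
      have := congrArg (AdjoinRoot.mk f) huv
      rw [map_add, map_mul, map_mul, AdjoinRoot.mk_self, mul_zero, zero_add, AdjoinRoot.mk_X, map_one] at this
      rw [mul_comm]; exact this
    obtain ⟨g, hg, h10, hnilp, hne⟩ := triangular_of_kernel hunit2 hnorm (y := AdjoinRoot.root f) hxu uR_one_mem
      (by simpa [Hf] using lR_mem_gen (x := AdjoinRoot.root f) (1 : k)) hn hn1 hA hB hC
    refine ⟨g, hg, h10, hne, fun _ hu => ?_⟩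
    exact hnilp.not_isUnit hu

end Cfsg.Agent.QPair.SL2Ring
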