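import Cfsg.Agent.QPair.Model
import Mathlib.RingTheory.Polynomial.Basic
import Mathlib.LinearAlgebra.Eigenspace.Minpoly

/-! Over an infinite field the polynomial multiples of a root are roots. -/

set_option autoImplicit false

namespace Cfsg.Agent.QPair.Infinite

open Polynomial

variable {k : Type*} [Field k]

/-- the functional -/
noncomputable def cN (F v : k[X]) : k[X] →ₗ[k] k :=
  (lcoeff k (F.natDegree - 1)).comp ((modByMonicHom F).comp (LinearMap.mulRight k v))

theorem cN_apply (F v R : k[X]) : cN F v R = ((R * v) %ₘ F).coeff (F.natDegree - 1) := rfl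

theorem mem_lt {n : ℕ} {P : k[X]} (hn : P.natDegree < n) : P ∈ degreeLT k n := by
  rw [mem_degreeLT]
  exact lt_of_le_of_lt degree_le_natDegree (by exact_mod_cast hn)

theorem zero_or_lt {n : ℕ} {P : k[X]} (h : P ∈ degreeLT k n) : P = 0 ∨ P.natDegree < n := by
  by_cases h0 : P = 0
  · exact Or.inl h0
  · exact Or.inr ((natDegree_lt_iff_degree_lt h0).2 (mem_degreeLT.1 h))

theorem X_pow_mem {i n : ℕ} (h : i < n) : (X ^ i : k[X]) ∈ degreeLT k n := by
  rw [mem_degreeLT, degree_X_pow]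
  exact_mod_cast h

theorem coeff_ge {n i : ℕ} {P : k[X]} (h : P ∈ degreeLT k n) (hi : n ≤ i) : P.coeff i = 0 := by
  rw [mem_degreeLT, degree_lt_iff_coeff_zero] at h
  exact h i hi

theorem mem_of_coeff {n : ℕ} {P : k[X]} (h : ∀ i, n ≤ i → P.coeff i = 0) : P ∈ degreeLT k n := by
  rw [mem_degreeLT, degree_lt_iff_coeff_zero]
  exact h

theorem X_mul_mem {n : ℕ} {P : k[X]} (h : P ∈ degreeLT k n) : X * P ∈ degreeLT k (n + 1) := by
  refine mem_of_coeff fun i hi => ?_
  obtain ⟨i, rfl⟩ : ∃ l, i = l + 1 := ⟨i - 1, by omega⟩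
  rw [coeff_X_mul]
  exact coeff_ge h (by omega)

theorem mod_congr {F R S : k[X]} (hF : F.Monic) (h : F ∣ R - S) : R %ₘ F = S %ₘ F := by
  have := (modByMonic_eq_zero_iff_dvd hF).2 h
  rwa [sub_modByMonic, sub_eq_zero] at this

theorem gram {F v w : k[X]} (hF : F.Monic) (hv : F ∣ w * v - 1) {j : ℕ} (hj : j ≤ F.natDegree)
    (hC : ∀ P ∈ degreeLT k j, ∀ U ∈ degreeLT k (F.natDegree - j), F ∣ P - w * U → P = 0)
    {P : k[X]} (hP : P ∈ degreeLT k j) (h : ∀ Q ∈ degreeLT k j, cN F v (P * Q) = 0) : P = 0 := by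
  set U := (P * v) %ₘ F with hU
  have hdvd : F ∣ P * v - U := ⟨(P * v) /ₘ F, by
    rw [hU, sub_eq_iff_eq_add', modByMonic_add_div]⟩
  have hPU : F ∣ P - w * U := by
    have : P - w * U = w * (P * v - U) - P * (w * v - 1) := by ring
    rw [this]
    exact dvd_sub (dvd_mul_of_dvd_right hdvd w) (dvd_mul_of_dvd_right hv P)
  refine hC P hP U ?_ hPU
  by_contra hU'
  have hU0 : U ≠ 0 := fun e => hU' (e ▸ zero_mem _)
  have he : F.natDegree - j ≤ U.natDegree := by
    by_contra hlt; exact hU' (mem_lt (not_le.1 hlt))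
  have hF1 : F ≠ 1 := fun e => hU0 (by rw [hU, e, modByMonic_one])
  have helt : U.natDegree < F.natDegree := natDegree_modByMonic_lt _ hF hF1
  set i := F.natDegree - 1 - U.natDegree with hi
  have := h (X ^ i) (X_pow_mem (by omega))
  rw [cN_apply, mod_congr hF (S := U * X ^ i) (by
      rw [show P * X ^ i * v - U * X ^ i = (P * v - U) * X ^ i by ring]
      exact dvd_mul_of_dvd_left hdvd _),
    (modByMonic_eq_self_iff hF).2 (by
      rw [degree_mul, degree_X_pow, degree_eq_natDegree hU0, degree_eq_natDegree hF.ne_zero]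
      exact_mod_cast (by omega : U.natDegree + i < F.natDegree)),
    show F.natDegree - 1 = U.natDegree + i by omega, coeff_mul_X_pow] at this
  exact hU0 (leadingCoeff_eq_zero.1 this)

theorem cN_shift {f v R : k[X]} (hf : f.Monic) (hm : 1 ≤ f.natDegree) :
    cN (X * f) v (X * R) = cN f v R := by
  have hF : (X * f : k[X]).Monic := monic_X.mul hf
  have hdeg : (X * f : k[X]).natDegree = f.natDegree + 1 := natDegree_X_mul hf.ne_zero
  have e : (X * R * v) %ₘ (X * f) = X * ((R * v) %ₘ f) := by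
    refine (div_modByMonic_unique ((R * v) /ₘ f) _ hF ⟨?_, ?_⟩).2
    · rw [mul_assoc X f, ← mul_add, modByMonic_add_div, mul_assoc]
    · rw [degree_mul, degree_mul, degree_X]
      exact WithBot.add_lt_add_left (by simp) (degree_modByMonic_lt _ hf)
  rw [cN_apply, cN_apply, e, hdeg, Nat.add_sub_cancel]
  conv_lhs => rw [show f.natDegree = f.natDegree - 1 + 1 by omega, coeff_X_mul]

theorem exists_orth {N : k[X] →ₗ[k] k} {j : ℕ}
    (hg : ∀ P ∈ degreeLT k j, (∀ Q ∈ degreeLT k j, N (P * Q) = 0) → P = 0) :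
    ∃ p ∈ degreeLT k j, ∀ Q ∈ degreeLT k j, N ((X ^ j - p) * Q) = 0 := by
  haveI : FiniteDimensional k ↥(degreeLT k j) := (degreeLTEquiv k j).symm.finiteDimensional
  let B : ↥(degreeLT k j) →ₗ[k] Module.Dual k ↥(degreeLT k j) :=
    LinearMap.mk₂ k (fun P Q => N ((P : k[X]) * (Q : k[X])))
      (fun P P' Q => by simp [add_mul]) (fun c P Q => by simp)
      (fun P Q Q' => by simp [mul_add]) (fun c P Q => by simp)
  have hinj : Function.Injective B := by
    refine (injective_iff_map_eq_zero B).2 fun P hP => Subtype.ext (hg P P.2 fun Q hQ => ?_)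
    exact LinearMap.congr_fun hP ⟨Q, hQ⟩
  have hsurj : Function.Surjective B :=
    (LinearMap.injective_iff_surjective_of_finrank_eq_finrank Subspace.dual_finrank_eq.symm).1 hinj
  let φ : Module.Dual k ↥(degreeLT k j) :=
    N.comp ((LinearMap.mulLeft k (X ^ j : k[X])).comp (degreeLT k j).subtype)
  obtain ⟨p, hp⟩ := hsurj φ
  refine ⟨p, p.2, fun Q hQ => ?_⟩
  rw [sub_mul, map_sub, sub_eq_zero]
  exact (LinearMap.congr_fun hp ⟨Q, hQ⟩).symm

/-- the genericity condition -/
def Inj (F w : k[X]) (j : ℕ) : Prop :=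
  ∀ P ∈ degreeLT k j, ∀ U ∈ degreeLT k (F.natDegree - j), F ∣ P - w * U → P = 0 ∧ U = 0

/-- the genericity conditions -/
def Good (f w : k[X]) : Prop :=
  w.coeff 0 ≠ 0 ∧ w.coeff f.natDegree ≠ 0 ∧
    (∀ j ≤ f.natDegree, Inj (X * f) w j) ∧ ∀ j ≤ f.natDegree, Inj f w j

theorem exists_inverse {F w : k[X]} (hF : F.Monic) (hF1 : F ≠ 1) (h : Inj F w 0) :
    ∃ v, F ∣ w * v - 1 := by
  set n := F.natDegree
  haveI : FiniteDimensional k ↥(degreeLT k n) := (degreeLTEquiv k n).symm.finiteDimensional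
  have hmem : ∀ R : k[X], R %ₘ F ∈ degreeLT k n := fun R => mem_lt (natDegree_modByMonic_lt _ hF hF1)
  let L : ↥(degreeLT k n) →ₗ[k] ↥(degreeLT k n) :=
    LinearMap.codRestrict (degreeLT k n)
      ((modByMonicHom F).comp ((LinearMap.mulLeft k w).comp (degreeLT k n).subtype)) fun U => hmem _
  have hinj : Function.Injective L := by
    refine (injective_iff_map_eq_zero L).2 fun U hU => Subtype.ext ?_
    have e : (w * (U : k[X])) %ₘ F = 0 := congrArg Subtype.val hU
    rw [modByMonic_eq_zero_iff_dvd hF] at e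
    exact (h 0 (zero_mem _) U (by simpa using U.2) (by simpa using e)).2
  obtain ⟨v, hv⟩ := LinearMap.injective_iff_surjective.1 hinj ⟨_, hmem 1⟩
  refine ⟨v, ?_⟩
  rw [← modByMonic_eq_zero_iff_dvd hF, sub_modByMonic, sub_eq_zero]
  exact congrArg Subtype.val hv

theorem chain {f v w : k[X]} (hf : f.Monic) (hm : 1 ≤ f.natDegree) (hv : X * f ∣ w * v - 1)
    (hg : Good f w) : ∀ j, j ≤ f.natDegree → ∃ A K : k[X],
      A ∈ degreeLT k (j + 1) ∧ A.coeff 0 = 1 ∧ (∀ Q ∈ degreeLT k j, cN (X * f) v (A * Q) = 0) ∧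
      K ∈ degreeLT k (j + 1) ∧ K.coeff j ≠ 0 ∧
      (∀ P ∈ degreeLT k (j + 1), cN (X * f) v (K * P) = P.coeff 0) ∧ Reach A K := by
  have hF : (X * f : k[X]).Monic := monic_X.mul hf
  have hdeg : (X * f : k[X]).natDegree = f.natDegree + 1 := natDegree_X_mul hf.ne_zero
  set N := cN (X * f) v with hN
  obtain ⟨-, -, hC1, hC2⟩ := hg
  have gN : ∀ j, j ≤ f.natDegree + 1 → ∀ P ∈ degreeLT k j,
      (∀ Q ∈ degreeLT k j, N (P * Q) = 0) → P = 0 := by
    intro j hj P hP h
    refine gram hF hv (by omega) (fun P' hP' U hU hd => ?_) hP h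
    rcases eq_or_lt_of_le hj with e | e
    · have hU0 : U = 0 := by
        rcases zero_or_lt hU with r | r
        · exact r
        · omega
      rw [hU0, mul_zero, sub_zero] at hd
      refine eq_zero_of_dvd_of_degree_lt hd ?_
      rw [degree_eq_natDegree hF.ne_zero, hdeg, ← e]
      exact mem_degreeLT.1 hP'
    · exact (hC1 j (by omega) P' hP' U hU hd).1
  have gS : ∀ j, j ≤ f.natDegree → ∀ P ∈ degreeLT k j,
      (∀ Q ∈ degreeLT k j, N (X * P * Q) = 0) → P = 0 := by
    intro j hj P hP h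
    refine gram hf (dvd_trans (dvd_mul_left f X) hv) hj (fun P' hP' U hU hd => (hC2 j hj P' hP' U hU hd).1)
      hP fun Q hQ => ?_
    rw [← cN_shift hf hm, ← mul_assoc]
    exact h Q hQ
  intro j
  induction j with
  | zero =>
    intro _
    have h1 : N 1 ≠ 0 := fun e => one_ne_zero (gN 1 (by omega) 1 (mem_lt (by simp)) fun Q hQ => by
      obtain ⟨c, rfl⟩ : ∃ c, Q = C c := ⟨Q.coeff 0, eq_C_of_degree_le_zero (by
        rw [degree_le_iff_coeff_zero]; intro i hi
        exact coeff_ge hQ (by exact_mod_cast hi))⟩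
      rw [one_mul, ← mul_one (C c), ← smul_eq_C_mul, map_smul, e, smul_zero])
    refine ⟨1, C (N 1)⁻¹, mem_lt (by simp), by simp, fun Q hQ => ?_, mem_lt (by simp), ?_, fun P hP => ?_, ?_⟩
    · rcases zero_or_lt hQ with r | r
      · simp [r]
      · omega
    · simpa using h1
    · obtain ⟨c, rfl⟩ : ∃ c, P = C c := ⟨P.coeff 0, eq_C_of_degree_le_zero (by
        rw [degree_le_iff_coeff_zero]; intro i hi
        exact coeff_ge hP (by exact_mod_cast hi))⟩
      rw [← C_mul, ← mul_one (C _), ← smul_eq_C_mul, map_smul, coeff_C_zero, smul_eq_mul]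
      field_simp
    · simpa using Reach.base.stepB (N 1)⁻¹
  | succ j ih =>
    intro hj
    obtain ⟨A, K, hA, hA0, hAo, hK, hKc, hKr, hR⟩ := ih (by omega)
    obtain ⟨p, hp, hpo⟩ := exists_orth (N := N) (gN (j + 1) (by omega))
    set a := X ^ (j + 1) - p with ha
    have haj : a.coeff (j + 1) = 1 := by rw [ha, coeff_sub, coeff_X_pow_self, coeff_ge hp le_rfl, sub_zero]
    have hamem : a ∈ degreeLT k (j + 2) :=
      sub_mem (X_pow_mem (by omega)) (degreeLT_mono (by omega) hp)
    have ha0 : a.coeff 0 ≠ 0 := by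
      intro e
      obtain ⟨q, hq⟩ : X ∣ a := X_dvd_iff.2 e
      have hqm : q ∈ degreeLT k (j + 1) := mem_of_coeff fun i hi => by
        have := coeff_ge hamem (i := i + 1) (by omega)
        rwa [hq, coeff_X_mul] at this
      have : q = 0 := gS (j + 1) hj q hqm fun Q hQ => by rw [← hq]; exact hpo Q hQ
      rw [hq, this, mul_zero, coeff_zero] at haj
      exact zero_ne_one haj
    set A' := C (a.coeff 0)⁻¹ * a with hA'
    have hA'mem : A' ∈ degreeLT k (j + 2) := by rw [hA', ← smul_eq_C_mul]; exact Submodule.smul_mem _ _ hamem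
    have hA'0 : A'.coeff 0 = 1 := by rw [hA', coeff_C_mul, inv_mul_cancel₀ ha0]
    have hA'j : A'.coeff (j + 1) ≠ 0 := by rw [hA', coeff_C_mul, haj, mul_one]; exact inv_ne_zero ha0
    have hA'o : ∀ Q ∈ degreeLT k (j + 1), N (A' * Q) = 0 := fun Q hQ => by
      rw [hA', mul_assoc, ← smul_eq_C_mul, map_smul, hpo Q hQ, smul_zero]
    obtain ⟨e, he⟩ : X ∣ A' - A := X_dvd_iff.2 (by rw [coeff_sub, hA'0, hA0, sub_self])
    have hem : e ∈ degreeLT k (j + 1) := mem_of_coeff fun i hi => by
      have h1 := coeff_ge hA'mem (i := i + 1) (by omega)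
      have h2 := coeff_ge hA (i := i + 1) (by omega)
      have := congrArg (fun P : k[X] => P.coeff (i + 1)) he
      simp only [coeff_sub, coeff_X_mul, h1, h2, sub_zero] at this
      exact this.symm
    set lam := e.coeff j / K.coeff j
    have hrest : e - C lam * K ∈ degreeLT k j := mem_of_coeff fun i hi => by
      rcases eq_or_lt_of_le hi with r | r
      · rw [← r, coeff_sub, coeff_C_mul, div_mul_cancel₀ _ hKc, sub_self]
      · rw [coeff_sub, coeff_C_mul, coeff_ge hem r, coeff_ge hK r, mul_zero, sub_zero]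
    have he0 : e = C lam * K := by
      refine sub_eq_zero.1 (gS j (by omega) _ hrest fun Q hQ => ?_)
      have hQ' : Q ∈ degreeLT k (j + 1) := degreeLT_mono (by omega) hQ
      rw [mul_sub X e, ← he, sub_mul, map_sub, sub_mul, map_sub, hA'o Q hQ', hAo Q hQ,
        show X * (C lam * K) * Q = C lam * (K * (X * Q)) by ring, ← smul_eq_C_mul, map_smul,
        hKr _ (X_mul_mem hQ)]
      simp [mul_coeff_zero]
    have hR' : Reach A' K := by
      have := hR.stepA lam
      rwa [show A + C lam * (X * K) = A' by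
        rw [show C lam * (X * K) = X * (C lam * K) by ring, ← he0, ← he]; ring] at this
    have hdecomp : ∀ P ∈ degreeLT k (j + 2), ∃ t : k, P - C t * A' ∈ degreeLT k (j + 1) := fun P hP =>
      ⟨P.coeff (j + 1) / A'.coeff (j + 1), mem_of_coeff fun i hi => by
        rcases eq_or_lt_of_le hi with r | r
        · rw [← r, coeff_sub, coeff_C_mul, div_mul_cancel₀ _ hA'j, sub_self]
        · rw [coeff_sub, coeff_C_mul, coeff_ge hP r, coeff_ge hA'mem r, mul_zero, sub_zero]⟩
    have hn' : N (A' * A') ≠ 0 := by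
      intro e0
      have : A' = 0 := gN (j + 2) (by omega) A' hA'mem fun Q hQ => by
        obtain ⟨t, ht⟩ := hdecomp Q hQ
        rw [show A' * Q = A' * (Q - C t * A') + C t * (A' * A') by ring, map_add, hA'o _ ht,
          ← smul_eq_C_mul, map_smul, e0, smul_zero, add_zero]
      exact hA'j (by rw [this, coeff_zero])
    refine ⟨A', K + C (N (A' * A'))⁻¹ * A', hA'mem, hA'0, hA'o,
      add_mem (degreeLT_mono (by omega) hK) (by rw [← smul_eq_C_mul]; exact Submodule.smul_mem _ _ hA'mem),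
      ?_, fun P hP => ?_, hR'.stepB _⟩
    · rw [coeff_add, coeff_C_mul, coeff_ge hK le_rfl, zero_add]
      exact mul_ne_zero (inv_ne_zero hn') hA'j
    · obtain ⟨t, ht⟩ := hdecomp P hP
      have h1 : N (K * A') = 0 := by rw [mul_comm]; exact hA'o K hK
      rw [show (K + C (N (A' * A'))⁻¹ * A') * P = K * (P - C t * A') + C t * (K * A') +
          (C (N (A' * A'))⁻¹ * (A' * (P - C t * A')) + C (N (A' * A'))⁻¹ * (C t * (A' * A'))) by ring]
      simp only [map_add, ← smul_eq_C_mul, map_smul]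
      simp only [smul_eq_C_mul]
      rw [hKr _ ht, h1, hA'o _ ht]
      simp only [coeff_sub, coeff_C_mul, hA'0, smul_eq_mul]
      field_simp
      ring

theorem reach_of_good {f w : k[X]} (hf : f.Monic) (hm : 1 ≤ f.natDegree)
    (hw : w ∈ degreeLT k (f.natDegree + 1)) (hg : Good f w) :
    ∃ A E : k[X], Reach A E ∧ f ∣ E ∧ A = C (w.coeff 0)⁻¹ * w := by
  have hF : (X * f : k[X]).Monic := monic_X.mul hf
  have hdeg : (X * f : k[X]).natDegree = f.natDegree + 1 := natDegree_X_mul hf.ne_zero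
  have hF1 : (X * f : k[X]) ≠ 1 := fun e => by rw [e, natDegree_one] at hdeg; omega
  obtain ⟨v, hv⟩ := exists_inverse hF hF1 (hg.2.2.1 0 (Nat.zero_le _))
  obtain ⟨A, K, hA, hA0, hAo, hK, hKc, hKr, hR⟩ := chain hf hm hv hg f.natDegree le_rfl
  have gS : ∀ P ∈ degreeLT k f.natDegree,
      (∀ Q ∈ degreeLT k f.natDegree, cN (X * f) v (X * P * Q) = 0) → P = 0 := by
    intro P hP h
    refine gram hf (dvd_trans (dvd_mul_left f X) hv) le_rfl
      (fun P' hP' U hU hd => (hg.2.2.2 _ le_rfl P' hP' U hU hd).1) hP fun Q hQ => ?_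
    rw [← cN_shift hf hm, ← mul_assoc]
    exact h Q hQ
  refine ⟨A, K, hR, ?_, ?_⟩
  · set lam := K.coeff f.natDegree
    have hrest : K - C lam * f ∈ degreeLT k f.natDegree := mem_of_coeff fun i hi => by
      rcases eq_or_lt_of_le hi with r | r
      · rw [← r, coeff_sub, coeff_C_mul, hf.coeff_natDegree, mul_one, sub_self]
      · rw [coeff_sub, coeff_C_mul, coeff_ge hK r, coeff_eq_zero_of_natDegree_lt r, mul_zero, sub_zero]
    have : K - C lam * f = 0 := gS _ hrest fun Q hQ => by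
      rw [mul_sub, sub_mul, map_sub, show X * K * Q = K * (X * Q) by ring, hKr _ (X_mul_mem hQ)]
      have h0 : cN (X * f) v (X * (C lam * f) * Q) = 0 := by
        rw [cN_apply, (modByMonic_eq_zero_iff_dvd hF).2 ⟨C lam * Q * v, by ring⟩, coeff_zero]
      rw [h0]; simp [mul_coeff_zero]
    rw [sub_eq_zero.1 this]
    exact dvd_mul_left f _
  · obtain ⟨e, he⟩ : X ∣ A - C (w.coeff 0)⁻¹ * w := X_dvd_iff.2 (by
      rw [coeff_sub, coeff_C_mul, inv_mul_cancel₀ hg.1, hA0, sub_self])
    have hem : e ∈ degreeLT k f.natDegree := mem_of_coeff fun i hi => by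
      have h1 := coeff_ge hA (i := i + 1) (by omega)
      have h2 := coeff_ge hw (i := i + 1) (by omega)
      have := congrArg (fun P : k[X] => P.coeff (i + 1)) he
      simp only [coeff_sub, coeff_C_mul, coeff_X_mul, h1, h2, mul_zero, sub_zero] at this
      exact this.symm
    have : e = 0 := gS e hem fun Q hQ => by
      rw [← he, sub_mul, map_sub, hAo Q hQ, mul_assoc, ← smul_eq_C_mul, map_smul, cN_apply,
        mod_congr hF (S := Q) (by
          rw [show w * Q * v - Q = Q * (w * v - 1) by ring]; exact dvd_mul_of_dvd_right hv Q),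
        (modByMonic_eq_self_iff hF).2 (by
          rw [degree_eq_natDegree hF.ne_zero, hdeg]
          exact lt_of_lt_of_le (mem_degreeLT.1 hQ) (by exact_mod_cast Nat.le_succ _)),
        hdeg, Nat.add_sub_cancel, coeff_ge hQ le_rfl]
      simp
    rw [this, mul_zero, sub_eq_zero] at he
    exact he

/-! ### Genericity -/

/-- a property of polynomials of degree `≤ m` open along lines -/
def LineOpen (m : ℕ) (p : k[X] → Prop) : Prop :=
  ∀ w ∈ degreeLT k (m + 1), ∀ δ ∈ degreeLT k (m + 1), p w → {t : k | ¬ p (w + C t * δ)}.Finite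

/-- open and satisfiable -/
def Gen (m : ℕ) (p : k[X] → Prop) : Prop := LineOpen m p ∧ ∃ w ∈ degreeLT k (m + 1), p w

theorem Gen.and [Infinite k] {m : ℕ} {p q : k[X] → Prop} (hp : Gen m p) (hq : Gen m q) :
    Gen m (fun w => p w ∧ q w) := by
  refine ⟨fun w hw δ hδ h => ((hp.1 w hw δ hδ h.1).union (hq.1 w hw δ hδ h.2)).subset fun t ht => ?_, ?_⟩
  · by_cases h' : p (w + C t * δ)
    · exact Or.inr fun hq' => ht ⟨h', hq'⟩
    · exact Or.inl h'
  · obtain ⟨w, hw, hpw⟩ := hp.2
    obtain ⟨w', hw', hqw⟩ := hq.2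
    have h1 := hp.1 w hw (w' - w) (sub_mem hw' hw) hpw
    have h2 := (hq.1 w' hw' (w - w') (sub_mem hw hw') hqw).image (fun t => 1 - t)
    obtain ⟨t, ht⟩ := (h1.union h2).exists_notMem
    simp only [Set.mem_union, Set.mem_setOf_eq, Set.mem_image, not_or, not_not, not_exists, not_and] at ht
    refine ⟨w + C t * (w' - w), add_mem hw (by rw [← smul_eq_C_mul]; exact Submodule.smul_mem _ _ (sub_mem hw' hw)),
      ht.1, ?_⟩
    have := ht.2 (1 - t)
    by_contra hne
    refine this (fun hq' => hne ?_) (by ring)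
    convert hq' using 1
    simp [mul_sub]; ring

theorem Gen.forall_le [Infinite k] {m : ℕ} {p : ℕ → k[X] → Prop} :
    ∀ {n : ℕ}, (∀ j ≤ n, Gen m (p j)) → Gen m (fun w => ∀ j ≤ n, p j w) := by
  intro n
  induction n with
  | zero =>
    intro h
    have : (fun w => ∀ j ≤ 0, p j w) = p 0 := funext fun w => propext
      ⟨fun h => h 0 le_rfl, fun h j hj => by obtain rfl : j = 0 := by omega
                                             exact h⟩
    rw [this]; exact h 0 le_rfl
  | succ n ih =>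
    intro h
    have : (fun w => ∀ j ≤ n + 1, p j w) = fun w => (∀ j ≤ n, p j w) ∧ p (n + 1) w :=
      funext fun w => propext ⟨fun h => ⟨fun j hj => h j (by omega), h _ le_rfl⟩, fun h j hj => by
        rcases eq_or_lt_of_le hj with r | r
        · exact r ▸ h.2
        · exact h.1 j (by omega)⟩
    rw [this]
    exact (ih fun j hj => h j (by omega)).and (h _ le_rfl)

theorem gen_coeff (m i : ℕ) (hi : i ≤ m) : Gen m (fun w : k[X] => w.coeff i ≠ 0) := by
  refine ⟨fun w _ δ _ h => ?_, X ^ i, X_pow_mem (by omega), by simp⟩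
  by_cases hδ : δ.coeff i = 0
  · exact Set.Finite.subset Set.finite_empty fun t ht => by simp [hδ] at ht; exact h ht
  · refine (Set.finite_singleton (-(w.coeff i) / δ.coeff i)).subset fun t ht => ?_
    simp only [Set.mem_setOf_eq, not_not, coeff_add, coeff_C_mul] at ht
    rw [Set.mem_singleton_iff, eq_div_iff hδ]
    linear_combination ht

theorem finite_not_injective {V W : Type*} [AddCommGroup V] [Module k V] [AddCommGroup W] [Module k W]
    [FiniteDimensional k V] (L0 L1 : V →ₗ[k] W) (h : Function.Injective L0) :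
    {t : k | ¬ Function.Injective (L0 + t • L1)}.Finite := by
  obtain ⟨g, hg⟩ := L0.exists_leftInverse_of_injective (LinearMap.ker_eq_bot.2 h)
  have hfin : {μ : k | Module.End.HasEigenvalue (g.comp L1 : Module.End k V) μ}.Finite :=
    Module.End.finite_hasEigenvalue _
  refine (hfin.image fun μ => -μ⁻¹).subset fun t ht => ?_
  simp only [Set.mem_setOf_eq, injective_iff_map_eq_zero, not_forall] at ht
  obtain ⟨x, hx, hx0⟩ := ht
  have h1 : x + t • g (L1 x) = 0 := by
    have h2 := congrArg g hx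
    simp only [LinearMap.add_apply, LinearMap.smul_apply, map_add, map_smul, map_zero] at h2
    rwa [show g (L0 x) = x from LinearMap.congr_fun hg x] at h2
  have ht0 : t ≠ 0 := fun e => hx0 (by simpa [e] using h1)
  refine ⟨-t⁻¹, ?_, by simp⟩
  refine Module.End.hasEigenvalue_of_hasEigenvector (x := x) ⟨?_, hx0⟩
  rw [Module.End.mem_eigenspace_iff, LinearMap.comp_apply]
  have : t • g (L1 x) = -x := eq_neg_of_add_eq_zero_right h1
  rw [neg_smul, ← smul_neg, ← this, smul_smul, inv_mul_cancel₀ ht0, one_smul]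

theorem gen_inj {F : k[X]} (hF : F.Monic) {m j : ℕ} (hjF : j ≤ F.natDegree) (hj : j ≤ m) :
    Gen m (fun w : k[X] => Inj F w j) := by
  set r := F.natDegree - j with hr
  haveI : FiniteDimensional k ↥(degreeLT k j) := (degreeLTEquiv k j).symm.finiteDimensional
  haveI : FiniteDimensional k ↥(degreeLT k r) := (degreeLTEquiv k r).symm.finiteDimensional
  let Φ : k[X] → (↥(degreeLT k j) × ↥(degreeLT k r) →ₗ[k] k[X]) := fun w => (modByMonicHom F).comp
    (((degreeLT k j).subtype.comp (LinearMap.fst k _ _)) -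
      ((LinearMap.mulLeft k w).comp ((degreeLT k r).subtype.comp (LinearMap.snd k _ _))))
  have hΦ : ∀ w x, Φ w x = ((x.1 : k[X]) - w * (x.2 : k[X])) %ₘ F := fun w x => rfl
  have hiff : ∀ w, Inj F w j ↔ Function.Injective (Φ w) := by
    intro w
    rw [injective_iff_map_eq_zero]
    constructor
    · intro h x hx
      rw [hΦ, modByMonic_eq_zero_iff_dvd hF] at hx
      obtain ⟨h1, h2⟩ := h x.1 x.1.2 x.2 x.2.2 hx
      exact Prod.ext (Subtype.ext h1) (Subtype.ext h2)
    · intro h P hP U hU hd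
      have := h (⟨P, hP⟩, ⟨U, hU⟩) (by rw [hΦ, modByMonic_eq_zero_iff_dvd hF]; exact hd)
      exact ⟨congrArg (fun x => (x.1 : k[X])) this, congrArg (fun x => (x.2 : k[X])) this⟩
  refine ⟨fun w _ δ _ h => ?_, X ^ j, X_pow_mem (by omega), ?_⟩
  · refine (finite_not_injective (Φ w) (-((modByMonicHom F).comp
      ((LinearMap.mulLeft k δ).comp ((degreeLT k r).subtype.comp (LinearMap.snd k _ _))))) ((hiff w).1 h)).subset
      fun t ht => ?_
    simp only [Set.mem_setOf_eq, hiff] at ht ⊢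
    convert ht using 3
    refine LinearMap.ext fun x => ?_
    show ((x.1 : k[X]) - w * (x.2 : k[X])) %ₘ F + t • -((δ * (x.2 : k[X])) %ₘ F) =
      ((x.1 : k[X]) - (w + C t * δ) * (x.2 : k[X])) %ₘ F
    rw [smul_neg, ← smul_modByMonic, ← sub_eq_add_neg, ← sub_modByMonic, smul_eq_C_mul]
    ring_nf
  · intro P hP U hU hd
    have hsub : P - X ^ j * U ∈ degreeLT k F.natDegree := mem_of_coeff fun i hi => by
      rw [coeff_sub, coeff_ge hP (by omega), mul_comm]
      obtain ⟨l, rfl⟩ : ∃ l, i = l + j := ⟨i - j, by omega⟩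
      rw [coeff_mul_X_pow, coeff_ge hU (by omega), sub_zero]
    have h0 : P - X ^ j * U = 0 := eq_zero_of_dvd_of_degree_lt hd (by
      rw [degree_eq_natDegree hF.ne_zero]; exact mem_degreeLT.1 hsub)
    have hU0 : U = 0 := Polynomial.ext fun l => by
      have := congrArg (fun R : k[X] => R.coeff (l + j)) h0
      simp only [coeff_sub, coeff_ge hP (by omega : j ≤ l + j), mul_comm (X ^ j), coeff_mul_X_pow, coeff_zero,
        zero_sub, neg_eq_zero] at this
      rw [this, coeff_zero]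
    exact ⟨by rw [hU0, mul_zero, sub_zero] at h0; exact h0, hU0⟩

theorem gen_good [Infinite k] {f : k[X]} (hf : f.Monic) : Gen f.natDegree (Good f) := by
  have h1 : (X * f : k[X]).natDegree = f.natDegree + 1 := natDegree_X_mul hf.ne_zero
  exact (gen_coeff _ 0 (Nat.zero_le _)).and ((gen_coeff _ _ le_rfl).and
    ((Gen.forall_le fun j hj => gen_inj (monic_X.mul hf) (by omega) hj).and
      (Gen.forall_le fun j hj => gen_inj hf hj hj)))

end Cfsg.Agent.QPair.Infinite

namespace Cfsg.Agent.QPair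

open Polynomial

variable {k : Type*} [Field k] {M : Type*} [AddCommGroup M] [Module k M]
  {G : Subgroup (LinearMap.GeneralLinearGroup k M)} {a b : Module.End k M}

/-- A subspace of polynomials containing the squares of the reachable coordinates is everything. -/
theorem all_of_squares [Infinite k] (h2 : (2 : k) ≠ 0) {f : k[X]} (hf : f.Monic) (hm : 1 ≤ f.natDegree)
    (S : k[X] → Prop) (hadd : ∀ {P Q}, S P → S Q → S (P + Q)) (hsmul : ∀ {P} (c : k), S P → S (C c * P))
    (hmod : ∀ {P Q}, f ∣ P - Q → S Q → S P) (hgood : ∀ {A E}, Reach A E → f ∣ E → S (A ^ 2)) (P : k[X]) :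
    S P := by
  obtain ⟨hopen, w, hw, hgw⟩ := Infinite.gen_good hf
  have hsq : ∀ v ∈ degreeLT k (f.natDegree + 1), Infinite.Good f v → S (v ^ 2) := by
    intro v hv hgv
    obtain ⟨A, E, hR, hdvd, hA⟩ := Infinite.reach_of_good hf hm hv hgv
    have := hsmul ((v.coeff 0) ^ 2) (hgood hR hdvd)
    rwa [hA, mul_pow, ← mul_assoc, ← C_pow, ← C_mul, ← mul_pow, mul_inv_cancel₀ hgv.1, one_pow, C_1,
      one_mul] at this
  -- squares of all small polynomials
  have hall : ∀ δ ∈ degreeLT k (f.natDegree + 1), S (δ ^ 2) := by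
    intro δ hδ
    have hfin := hopen w hw δ hδ hgw
    obtain ⟨t₁, h1⟩ := (hfin.union (Set.finite_singleton (0 : k))).exists_notMem
    obtain ⟨t₂, h2'⟩ := (hfin.union ((Set.finite_singleton (0 : k)).insert t₁)).exists_notMem
    simp only [Set.mem_union, Set.mem_setOf_eq, not_or, not_not, Set.mem_singleton_iff, Set.mem_insert_iff] at h1 h2'
    have s0 := hsq w hw hgw
    have hmem : ∀ t : k, w + C t * δ ∈ degreeLT k (f.natDegree + 1) := fun t =>
      add_mem hw (by rw [← smul_eq_C_mul]; exact Submodule.smul_mem _ _ hδ)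
    have s1 := hsq _ (hmem t₁) h1.1
    have s2 := hsq _ (hmem t₂) h2'.1
    have hne : t₁ * t₂ * (t₁ - t₂) ≠ 0 :=
      mul_ne_zero (mul_ne_zero h1.2 h2'.2.2) (sub_ne_zero.2 (Ne.symm h2'.2.1))
    have := hsmul (t₁ * t₂ * (t₁ - t₂))⁻¹ (hadd (hsmul t₂ s1) (hadd (hsmul (-t₁) s2) (hsmul (t₁ - t₂) s0)))
    convert this using 1
    have : C t₂ * (w + C t₁ * δ) ^ 2 + (C (-t₁) * (w + C t₂ * δ) ^ 2 + C (t₁ - t₂) * w ^ 2) =
        C (t₁ * t₂ * (t₁ - t₂)) * δ ^ 2 := by
      simp only [map_mul, map_sub, map_neg]; ring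
    rw [this, ← mul_assoc, ← C_mul, inv_mul_cancel₀ hne, C_1, one_mul]
  have hlow : ∀ δ ∈ degreeLT k (f.natDegree + 1), S δ := by
    intro δ hδ
    have h1 : (1 : k[X]) ∈ degreeLT k (f.natDegree + 1) := Infinite.mem_lt (by simp)
    have := hsmul (2 : k)⁻¹ (hadd (hall _ (add_mem hδ h1)) (hadd (hsmul (-1) (hall δ hδ)) (hsmul (-1) (hall 1 h1))))
    convert this using 1
    have : (δ + 1) ^ 2 + (C (-1) * δ ^ 2 + C (-1) * 1 ^ 2) = C 2 * δ := by
      simp only [map_neg, map_one, map_ofNat]; ring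
    rw [this, ← mul_assoc, ← C_mul, inv_mul_cancel₀ h2, C_1, one_mul]
  refine hmod (Q := P %ₘ f) ⟨P /ₘ f, by rw [sub_eq_iff_eq_add', modByMonic_add_div]⟩ (hlow _ (Infinite.mem_lt ?_))
  have := natDegree_modByMonic_lt P hf (fun e => by rw [e, natDegree_one] at hm; omega)
  omega

/-- All polynomial multiples of a root are roots (infinite fields). -/
theorem poly_mem_infinite [Infinite k] (h2 : (2 : k) ≠ 0) (ha : Tame G a) (hb : Tame G b) {f : k[X]}
    (hf : f.Monic) (hm : 1 ≤ f.natDegree) (hfa : pT a b f * a = 0) (P : k[X]) :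
    InL G a (pT a b P * a) := by
  have h0 : ∀ R : k[X], f ∣ R → pT a b R * a = 0 := by
    rintro _ ⟨c, rfl⟩
    rw [mul_comm, pT_mul, mul_assoc, hfa, mul_zero]
  refine all_of_squares h2 hf hm (fun P => InL G a (pT a b P * a)) (fun hP hQ => ?_) (fun c hP => ?_)
    (fun {P Q} h hQ => ?_) (fun hR hE => hR.tame ha hb (h0 _ hE)) P
  · rw [pT_add, add_mul]; exact hP.add ha.1 hQ
  · rw [pT_C_mul, smul_mul_assoc]; exact hP.smul c
  · rw [show P = Q + (P - Q) by ring, pT_add, add_mul, h0 _ h, add_zero]; exact hQ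

end Cfsg.Agent.QPair
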