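import Cfsg.Agent.QPair.Nil
import Cfsg.Agent.QPair.Infinite
import Cfsg.Agent.QPair.Finite

/-! A pair of roots is either nilpotent of length three or carries a field. -/

set_option autoImplicit false
set_option linter.style.haveILetI false

namespace Cfsg.Agent.QPair

open Polynomial SL2Ring

section field

variable {k : Type*} [Field k]

theorem five_le [Fintype k] (h2 : (2 : k) ≠ 0) (h3 : Nat.card k ≠ 3) : 5 ≤ Fintype.card k := by
  obtain ⟨p, hp⟩ := CharP.exists k
  obtain ⟨n, hpp, hc⟩ := FiniteField.card k p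
  have h2' : p ≠ 2 := by rintro rfl; exact h2 (CharP.cast_eq_zero k 2)
  have hp3 : 3 ≤ p := by have := hpp.two_le; omega
  rw [Nat.card_eq_fintype_card, hc] at h3
  rw [hc]
  by_cases hn : (n : ℕ) = 1
  · rw [hn, pow_one] at h3 ⊢
    by_contra h
    interval_cases p
    · exact h3 rfl
    · exact absurd hpp (by decide)
  · have : 2 ≤ (n : ℕ) := by have := n.pos; omega
    calc 5 ≤ p ^ 2 := by nlinarith
      _ ≤ p ^ (n : ℕ) := Nat.pow_le_pow_right (by omega) this

/-- The first column of a generated matrix is reachable. -/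
theorem reach_of_mem (F : k[X]) {h : S2 (Qf F)} (hh : h ∈ Hf F) :
    ∃ A E : k[X], Reach A E ∧ h 0 0 = AdjoinRoot.mk F A ∧ h 1 0 = AdjoinRoot.mk F (X * E) := by
  have hl : ∀ (c : k) {g : S2 (Qf F)}, (∃ A E : k[X], Reach A E ∧ g 0 0 = AdjoinRoot.mk F A ∧
      g 1 0 = AdjoinRoot.mk F (X * E)) → ∃ A E : k[X], Reach A E ∧ (lR (c • AdjoinRoot.root F) * g) 0 0 =
        AdjoinRoot.mk F A ∧ (lR (c • AdjoinRoot.root F) * g) 1 0 = AdjoinRoot.mk F (X * E) := by
    rintro c g ⟨A, E, hR, e1, e2⟩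
    refine ⟨A, E + C c * A, hR.stepB c, by simp [e1], ?_⟩
    rw [mul_apply2, lR10, lR11, one_mul, e1, e2, Algebra.smul_def, ← AdjoinRoot.mk_X,
      AdjoinRoot.algebraMap_eq, ← AdjoinRoot.mk_C, ← map_mul, ← map_mul, ← map_add]
    congr 1; ring
  have hu : ∀ (c : k) {g : S2 (Qf F)}, (∃ A E : k[X], Reach A E ∧ g 0 0 = AdjoinRoot.mk F A ∧
      g 1 0 = AdjoinRoot.mk F (X * E)) → ∃ A E : k[X], Reach A E ∧ (uR (algebraMap k (Qf F) c) * g) 0 0 =
        AdjoinRoot.mk F A ∧ (uR (algebraMap k (Qf F) c) * g) 1 0 = AdjoinRoot.mk F (X * E) := by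
    rintro c g ⟨A, E, hR, e1, e2⟩
    refine ⟨A + C c * (X * E), E, hR.stepA c, ?_, by simp [e2]⟩
    rw [mul_apply2, uR00, uR01, one_mul, e1, e2, AdjoinRoot.algebraMap_eq, ← AdjoinRoot.mk_C, ← map_mul,
      ← map_add]
  induction hh using Subgroup.closure_induction_left with
  | one => exact ⟨1, 0, Reach.base, by simp, by simp⟩
  | mul_left x hx y _ ih =>
    rcases hx with ⟨c, rfl⟩ | ⟨c, rfl⟩
    · exact hu c ih
    · exact hl c ih
  | inv_mul_cancel x hx y _ ih =>
    rcases hx with ⟨c, rfl⟩ | ⟨c, rfl⟩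
    · rw [uR_inv, ← map_neg]; exact hu (-c) ih
    · rw [lR_inv, ← neg_smul]; exact hl (-c) ih

theorem dvd_of_triangular {F : k[X]} (hF : F ≠ 0) {h : S2 (Qf (X * F))} (hh : h ∈ Hf (X * F))
    (h10 : h 1 0 = 0) : ∃ A E : k[X], Reach A E ∧ F ∣ E ∧ h 0 0 = AdjoinRoot.mk (X * F) A := by
  obtain ⟨A, E, hR, e1, e2⟩ := reach_of_mem _ hh
  rw [h10, eq_comm, AdjoinRoot.mk_eq_zero] at e2
  exact ⟨A, E, hR, (mul_dvd_mul_iff_left X_ne_zero).1 e2, e1⟩

theorem gpr_X_triangular {F : k[X]} (hX : X ∣ F) {h : S2 (Qf F)} (hh : h ∈ Hf F) :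
    pr hX (h 1 0) = 0 := by
  obtain ⟨A, E, -, -, e2⟩ := reach_of_mem _ hh
  rw [e2, pr_mk, AdjoinRoot.mk_eq_zero]
  exact dvd_mul_right X E

theorem Hf_top_irreducible [Fintype k] (h2 : (2 : k) ≠ 0) (h3 : Nat.card k ≠ 3) {f : k[X]} (hf : f.Monic)
    (hi : Irreducible f) (hX : IsCoprime f X) : Hf f = ⊤ :=
  top_squarefree h2 (five_le h2 h3) _ f le_rfl hf hi.squarefree hX

/-- In a finite field of scalars the squares of all residues are reached. -/
theorem reach_finite [Fintype k] (h2 : (2 : k) ≠ 0) (h3 : Nat.card k ≠ 3) {f : k[X]} (hf : f.Monic)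
    (hi : Irreducible f) (hX : IsCoprime f X) {P : k[X]} (hP : ¬ f ∣ P) :
    ∃ A E : k[X], Reach A E ∧ f ∣ E ∧ f ∣ A - P := by
  haveI := Fact.mk hi
  have hu : IsUnit (AdjoinRoot.mk f P) := by
    rw [isUnit_iff_ne_zero, Ne, AdjoinRoot.mk_eq_zero]; exact hP
  obtain ⟨h, hh, he⟩ := lift_Hf (dvd_mul_left f X)
    (show dR hu.unit ∈ Hf f by rw [Hf_top_irreducible h2 h3 hf hi hX]; exact Subgroup.mem_top _)
  have h10 : h 1 0 = 0 := by
    refine mk_ext rfl hX.symm ?_ ?_
    · rw [map_zero]; exact gpr_X_triangular _ hh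
    · rw [map_zero]
      have := congrArg (fun g : S2 _ => g 1 0) he
      simpa using this
  obtain ⟨A, E, hR, hE, hA⟩ := dvd_of_triangular hf.ne_zero hh h10
  refine ⟨A, E, hR, hE, ?_⟩
  have := congrArg (fun g : S2 _ => g 0 0) he
  simp only [gpr_apply, hA, pr_mk] at this
  rw [← AdjoinRoot.mk_eq_mk]
  exact this.trans (by simp)

/-- The subgroup is everything modulo an irreducible polynomial. -/
theorem Hf_top (h2 : (2 : k) ≠ 0) (h3 : Nat.card k ≠ 3) {f : k[X]} (hf : f.Monic) (hi : Irreducible f)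
    (hX : IsCoprime f X) : Hf f = ⊤ := by
  rcases finite_or_infinite k with hk | hk
  · letI : Fintype k := Fintype.ofFinite k
    exact Hf_top_irreducible h2 h3 hf hi hX
  haveI := Fact.mk hi
  set r := AdjoinRoot.root f with hr
  have hr0 : r ≠ 0 := fun e => by
    rw [hr, ← AdjoinRoot.mk_X, AdjoinRoot.mk_eq_zero] at e
    exact hi.not_isUnit (hX.isUnit_of_dvd' dvd_rfl e)
  let S : k[X] → Prop := fun P => ∀ c : k, uR (c • AdjoinRoot.mk f P) ∈ Hf f
  have hS : ∀ P, S P := by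
    refine all_of_squares h2 hf hi.natDegree_pos S (fun hP hQ c => ?_) (fun c hP d => ?_)
      (fun {P Q} h hQ => ?_) (fun {A E} hR hE c => ?_)
    · rw [map_add, smul_add, uR_add]; exact mul_mem (hP c) (hQ c)
    · rw [← smul_eq_C_mul, ← AdjoinRoot.smul_mk, smul_smul]; exact hP _
    · have e : AdjoinRoot.mk f P = AdjoinRoot.mk f Q := AdjoinRoot.mk_eq_mk.2 h
      intro c; rw [e]; exact hQ c
    · have hg : ∀ {A E : k[X]}, Reach A E → ∃ g ∈ Hf f, g 0 0 = AdjoinRoot.mk f A ∧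
          g 1 0 = AdjoinRoot.mk f (X * E) := by
        intro A E hR
        induction hR with
        | base => exact ⟨1, one_mem _, by simp, by simp⟩
        | @stepB A E c _ ih =>
          obtain ⟨g, hg, e1, e2⟩ := ih
          refine ⟨lR (c • r) * g, mul_mem (lR_mem_gen c) hg, by simp [e1], ?_⟩
          rw [mul_apply2, lR10, lR11, one_mul, e1, e2, Algebra.smul_def, hr, ← AdjoinRoot.mk_X,
            AdjoinRoot.algebraMap_eq, ← AdjoinRoot.mk_C, ← map_mul, ← map_mul, ← map_add]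
          congr 1; ring
        | @stepA A E c _ ih =>
          obtain ⟨g, hg, e1, e2⟩ := ih
          refine ⟨uR (algebraMap k (Qf f) c) * g, mul_mem (uR_mem_gen c) hg, ?_, by simp [e2]⟩
          rw [mul_apply2, uR00, uR01, one_mul, e1, e2, AdjoinRoot.algebraMap_eq, ← AdjoinRoot.mk_C,
            ← map_mul, ← map_add]
      obtain ⟨g, hgm, e1, e2⟩ := hg hR
      have e10 : g 1 0 = 0 := by rw [e2, AdjoinRoot.mk_eq_zero]; exact dvd_mul_of_dvd_right hE X
      have := mul_mem (mul_mem hgm (uR_mem_gen (x := r) c)) (inv_mem hgm)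
      convert this using 1
      have hd := det_eq g
      rw [e10, mul_zero, sub_zero] at hd
      apply ext2 <;> simp [e10, map_pow, ← e1, Algebra.smul_def] <;>
        first
          | linear_combination -hd
          | linear_combination hd
          | ring
  have hu : ∀ x, uR x ∈ Hf f := fun x => by
    obtain ⟨P, rfl⟩ := AdjoinRoot.mk_surjective x
    simpa using hS P 1
  refine top_of_elementary hu fun x => ?_
  have hl : lR r ∈ Hf f := by simpa [Hf] using lR_mem_gen (x := r) (1 : k)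
  set n := uR (-r⁻¹) * lR r * uR (-r⁻¹) with hn
  have hnm : n ∈ Hf f := mul_mem (mul_mem (hu _) hl) (hu _)
  have e : lR x = n * uR (-(x / r ^ 2)) * n⁻¹ := by
    apply ext2 <;> simp [hn] <;> field_simp <;> ring
  rw [e]
  exact mul_mem (mul_mem hnm (hu _)) (inv_mem hnm)

end field

section pgroup

variable {k : Type*} [Field k]

theorem pPower_kernel {p : ℕ} [hp : Fact p.Prime] [CharP k p] {N : ℕ} {F : k[X]} (hd : (X ^ N : k[X]) ∣ F)
    (hN : 0 < N) {h : S2 (Qf F)} (hh : h ∈ Hf F) : ∃ m : ℕ, gpr hd (h ^ p ^ m) = 1 := by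
  set g := gpr hd h with hg
  set x := AdjoinRoot.root (X ^ N : k[X]) with hx
  haveI : Nontrivial (Qf (X ^ N : k[X])) := AdjoinRoot.nontrivial _ (by
    rw [degree_X_pow]; exact_mod_cast hN.ne')
  haveI : CharP (Qf (X ^ N : k[X])) p :=
    charP_of_injective_algebraMap (algebraMap k (Qf (X ^ N : k[X]))).injective p
  haveI : CharP (Matrix (Fin 2) (Fin 2) (Qf (X ^ N : k[X]))) p := inferInstance
  have hxN : x ^ N = 0 := by rw [hx, ← AdjoinRoot.mk_X, ← map_pow, AdjoinRoot.mk_self]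
  have hgm : g ∈ Hf (X ^ N) := by rw [← map_Hf hd]; exact ⟨h, hh, rfl⟩
  -- lower left and diagonal minus one are divisible by the root
  have key : ∀ y ∈ Hf (X ^ N : k[X]), x ∣ y 1 0 ∧ x ∣ y 0 0 - 1 ∧ x ∣ y 1 1 - 1 := by
    intro y hy
    induction hy using Subgroup.closure_induction with
    | mem z hz => rcases hz with ⟨c, rfl⟩ | ⟨c, rfl⟩ <;> simp [Algebra.smul_def, hx]
    | one => simp
    | mul u v _ _ iu iv =>
      obtain ⟨u1, u2, u3⟩ := iu
      obtain ⟨v1, v2, v3⟩ := iv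
      simp only [mul_apply2]
      refine ⟨dvd_add (dvd_mul_of_dvd_left u1 _) (dvd_mul_of_dvd_right v1 _), ?_, ?_⟩
      · rw [show u 0 0 * v 0 0 + u 0 1 * v 1 0 - 1 = (u 0 0 - 1) * v 0 0 + (v 0 0 - 1) + u 0 1 * v 1 0 by ring]
        exact dvd_add (dvd_add (dvd_mul_of_dvd_left u2 _) v2) (dvd_mul_of_dvd_right v1 _)
      · rw [show u 1 0 * v 0 1 + u 1 1 * v 1 1 - 1 = u 1 0 * v 0 1 + (u 1 1 - 1) * v 1 1 + (v 1 1 - 1) by ring]
        exact dvd_add (dvd_add (dvd_mul_of_dvd_left u1 _) (dvd_mul_of_dvd_left u3 _)) v3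
    | inv u _ iu =>
      obtain ⟨u1, u2, u3⟩ := iu
      simp only [inv10, inv00, inv11, dvd_neg]
      exact ⟨u1, u3, u2⟩
  obtain ⟨⟨γ, hγ⟩, ⟨α, hα⟩, ⟨δ, hδ⟩⟩ := key g hgm
  set D : Matrix (Fin 2) (Fin 2) (Qf (X ^ N : k[X])) := (g : Matrix (Fin 2) (Fin 2) _) - 1 with hD
  obtain ⟨Y, hY⟩ : ∃ Y, D * D = x • Y :=
    ⟨!![x * α * α + g 0 1 * γ, α * g 0 1 + g 0 1 * δ; x * γ * α + x * δ * γ, γ * g 0 1 + x * δ * δ], by
      ext i j
      fin_cases i <;> fin_cases j <;>
        simp [hD, Matrix.mul_apply, Fin.sum_univ_two, hγ, hα, hδ] <;> ring⟩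
  have hD2 : D ^ (2 * N) = 0 := by rw [pow_mul, pow_two, hY, _root_.smul_pow, hxN, zero_smul]
  obtain ⟨m, hm⟩ : ∃ m, 2 * N ≤ p ^ m := ⟨2 * N, (Nat.lt_pow_self hp.out.one_lt).le⟩
  refine ⟨m, ?_⟩
  have h0 : D ^ p ^ m = 0 := pow_eq_zero_of_le hm hD2
  rw [hD, sub_pow_char_pow_of_commute _ _ (Commute.one_right _), one_pow, sub_eq_zero,
    ← Matrix.SpecialLinearGroup.coe_pow] at h0
  rw [map_pow, ← hg]
  exact Subtype.ext (h0.trans (Matrix.SpecialLinearGroup.coe_one).symm)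

end pgroup

variable {k : Type*} [Field k] {M : Type*} [AddCommGroup M] [Module k M] [FiniteDimensional k M]
  {G : Subgroup (LinearMap.GeneralLinearGroup k M)} {a b : Module.End k M} {d : ℕ}

theorem exists_ann (hne : a ≠ 0) :
    ∃ f : k[X], f.Monic ∧ 1 ≤ f.natDegree ∧ ∀ P, pT a b P * a = 0 ↔ f ∣ P := by
  classical
  have hex : ∃ n, ∃ f : k[X], f.Monic ∧ f.natDegree = n ∧ pT a b f * a = 0 :=
    ⟨_, minpoly k (a * b), minpoly.monic (Algebra.IsIntegral.isIntegral _), rfl, by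
      rw [pT, minpoly.aeval, zero_mul]⟩
  obtain ⟨f, hf, hn, h0⟩ := Nat.find_spec hex
  have hdeg : 1 ≤ f.natDegree := by
    rcases Nat.eq_zero_or_pos f.natDegree with e | e
    · rw [eq_one_of_monic_natDegree_zero hf e, pT, map_one, one_mul] at h0
      exact absurd h0 hne
    · exact e
  have hmul : ∀ R, f ∣ R → pT a b R * a = 0 := by
    rintro _ ⟨c, rfl⟩
    rw [mul_comm, pT_mul, mul_assoc, h0, mul_zero]
  refine ⟨f, hf, hdeg, fun P => ⟨fun hP => ?_, hmul P⟩⟩
  rw [← modByMonic_eq_zero_iff_dvd hf]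
  by_contra hR
  have hR0 : pT a b (P %ₘ f) * a = 0 := by
    rw [modByMonic_eq_sub_mul_div P f, pT, map_sub, sub_mul, ← pT, hP, ← pT, hmul _ (dvd_mul_right _ _),
      sub_zero]
  have hlt : (P %ₘ f).natDegree < f.natDegree :=
    natDegree_modByMonic_lt P hf (fun e => by rw [e, natDegree_one] at hdeg; omega)
  refine Nat.find_min hex (m := (P %ₘ f * C (P %ₘ f).leadingCoeff⁻¹).natDegree) ?_
    ⟨_, monic_mul_leadingCoeff_inv hR, rfl, ?_⟩
  · rw [natDegree_mul_leadingCoeff_inv _ hR]; omega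
  · rw [mul_comm, pT_C_mul, smul_mul_assoc, hR0, smul_zero]

theorem rank_lemma (hd : Deg G d) (ha : Root G d a) {f : k[X]}
    (hann : ∀ P, pT a b P * a = 0 ↔ f ∣ P) (hf : f ≠ 0) {P : k[X]} (hP : InL G a (pT a b P * a)) :
    f ∣ P ∨ IsCoprime P f := by
  by_cases h0 : pT a b P * a = 0
  · exact Or.inl ((hann P).1 h0)
  refine Or.inr ?_
  have hr : (LinearMap.range a).map (pT a b P) = LinearMap.range a := by
    exact (LinearMap.range_comp a (pT a b P)).symm.trans (hP.range_eq hd ha h0)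
  refine isCoprime_of_dvd _ _ (fun h => hf h.2) fun g hgu _ hgP hgf => hgu ?_
  obtain ⟨h, rfl⟩ := hgf
  obtain ⟨q, rfl⟩ := hgP
  by_contra hne
  have hh : pT a b h * a ≠ 0 := fun e => hne (by
    obtain ⟨c, hc⟩ := (hann h).1 e
    have : h * (g * c - 1) = 0 := by linear_combination -hc
    rcases mul_eq_zero.1 this with r | r
    · exact absurd (by rw [r, mul_zero]) hf
    · exact IsUnit.of_mul_eq_one c (sub_eq_zero.1 r))
  have hz : pT a b (g * q) * (pT a b h * a) = 0 := by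
    rw [← mul_assoc, ← pT_mul, hann]
    exact ⟨q, by ring⟩
  apply hh
  ext m
  have hm : (pT a b h * a) m ∈ LinearMap.range a := range_pT h (LinearMap.mem_range_self _ m)
  set F := (pT a b (g * q)).restrict (p := LinearMap.range a) (q := LinearMap.range a)
    (fun v hv => hr.le (Submodule.mem_map_of_mem hv)) with hF
  have hsurj : Function.Surjective F := fun v => by
    obtain ⟨w, hw, e⟩ := hr.ge v.2
    exact ⟨⟨w, hw⟩, Subtype.ext e⟩
  have hinj := LinearMap.injective_iff_surjective.2 hsurj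
  have : F ⟨_, hm⟩ = F 0 := Subtype.ext (by
    simp only [map_zero, ZeroMemClass.coe_zero]
    exact LinearMap.congr_fun hz m)
  exact congrArg Subtype.val (hinj this)

/-- The dichotomy. -/
theorem dich (hd : Deg G d) (ha : Root G d a) (hb : Root G d b) :
    a * b * a = 0 ∨ (∀ P, InL G a (pT a b P * a)) ∧
      ∃ f : k[X], f.Monic ∧ Irreducible f ∧ IsCoprime f X ∧ ∀ P, pT a b P * a = 0 ↔ f ∣ P := by
  by_cases hA : a * b * a = 0
  · exact Or.inl hA
  refine Or.inr ?_
  have hane : a ≠ 0 := fun e => hA (by simp [e])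
  have hnn : ¬ IsNilpotent (a * b) := fun h => hA (nil_pair hd ha hb h).1
  obtain ⟨f, hf, hdeg, hann⟩ := exists_ann (b := b) hane
  have hfu : ¬ IsUnit f := fun h => by have := natDegree_eq_zero_of_isUnit h; omega
  have hadd : ∀ {P Q : k[X]}, InL G a (pT a b P * a) → InL G a (pT a b Q * a) →
      InL G a (pT a b (P + Q) * a) := fun hP hQ => by rw [pT_add, add_mul]; exact hP.add ha.sq hQ
  have hsmul : ∀ {P : k[X]} (c : k), InL G a (pT a b P * a) → InL G a (pT a b (C c * P) * a) := fun c hP => by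
    rw [pT_C_mul, smul_mul_assoc]; exact hP.smul c
  have hcop_of : Irreducible f → IsCoprime f X := fun hi => (hi.coprime_iff_not_dvd).2 fun hd' => by
    refine hnn ⟨2, ?_⟩
    have h0 := (hann X).2 hd'
    rw [pT, aeval_X] at h0
    rw [pow_two, ← mul_assoc, h0, zero_mul]
  rcases finite_or_infinite k with hk | hk
  · letI : Fintype k := Fintype.ofFinite k
    obtain ⟨p, hchar⟩ := CharP.exists k
    obtain ⟨nn, hpp, -⟩ := FiniteField.card k p
    haveI := Fact.mk hpp
    have hq := five_le hd.two hd.three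
    obtain ⟨f1, hf1eq, hf1X⟩ := exists_eq_pow_rootMultiplicity_mul_and_not_dvd f hf.ne_zero 0
    rw [map_zero, sub_zero] at hf1eq hf1X
    set e := f.rootMultiplicity 0
    have hf1m : f1.Monic := (monic_X_pow e).of_mul_monic_left (hf1eq ▸ hf)
    have hf1d : 0 < f1.natDegree := by
      by_contra hle
      rw [eq_one_of_monic_natDegree_zero hf1m (by omega), mul_one] at hf1eq
      refine hnn ⟨e + 1, ?_⟩
      have h0 := (hann f).2 dvd_rfl
      rw [hf1eq, pT, map_pow, aeval_X] at h0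
      rw [pow_succ, ← mul_assoc, h0, zero_mul]
    have hX1 : IsCoprime f1 X := ((irreducible_X).coprime_iff_not_dvd.2 hf1X).symm
    have hXe : IsCoprime (X ^ (e + 1) : k[X]) f1 := hX1.symm.pow_left
    set F := X * f with hF
    have hFeq : F = X ^ (e + 1) * f1 := by rw [hF, hf1eq, pow_succ']; ring
    have hd1 : (X ^ (e + 1) : k[X]) ∣ F := hFeq ▸ dvd_mul_right _ _
    have hd2 : f1 ∣ F := hFeq ▸ dvd_mul_left _ _
    set K := (Hf F ⊓ (gpr hd1).ker).map (gpr hd2) with hK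
    have hKH : K ≤ Hf f1 := by rw [hK, ← map_Hf hd2]; exact Subgroup.map_mono inf_le_left
    obtain ⟨g, hg, hg10, hg00, hgirr⟩ := kernel_elem hd.two hq (p := p) hf1m hf1d hX1 K hKH
      (by
        intro y hy z hz
        obtain ⟨z0, hz0, rfl⟩ := hz
        obtain ⟨y0, hy0, rfl⟩ := lift_Hf hd2 hy
        obtain ⟨hz1, hz2⟩ := Subgroup.mem_inf.1 hz0
        refine ⟨y0 * z0 * y0⁻¹, Subgroup.mem_inf.2 ⟨mul_mem (mul_mem hy0 hz1) (inv_mem hy0), ?_⟩, by simp⟩
        rw [MonoidHom.mem_ker] at hz2 ⊢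
        simp [hz2])
      (by
        intro y hy
        obtain ⟨y0, hy0, rfl⟩ := lift_Hf hd2 hy
        obtain ⟨m, hm⟩ := pPower_kernel (p := p) hd1 (Nat.succ_pos e) hy0
        exact ⟨m, _, Subgroup.mem_inf.2 ⟨pow_mem hy0 _, hm⟩, map_pow _ _ _⟩)
    obtain ⟨g0, hg0', rfl⟩ := hg
    obtain ⟨hg0, hg0k⟩ := Subgroup.mem_inf.1 hg0'
    rw [gpr_apply] at hg10 hg00 hgirr
    have h10 : g0 1 0 = 0 := by
      refine mk_ext hFeq hXe ?_ ?_
      · have := congrArg (fun y : S2 _ => y 1 0) hg0k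
        simpa using this
      · rw [map_zero]; exact hg10
    obtain ⟨A, E, hR, hE, hA0⟩ := dvd_of_triangular hf.ne_zero hg0 h10
    rw [hA0, pr_mk] at hg00 hgirr
    have hP1 : (X ^ (e + 1) : k[X]) ∣ A ^ 2 - 1 := by
      have := congrArg (fun y : S2 _ => y 0 0) hg0k
      simp only [gpr_apply, hA0, pr_mk, Matrix.SpecialLinearGroup.coe_one, Matrix.one_apply_eq] at this
      erw [pr_mk, ← map_one (AdjoinRoot.mk (X ^ (e + 1) : k[X])), AdjoinRoot.mk_eq_mk] at this
      rw [show A ^ 2 - 1 = (A - 1) * (A + 1) by ring]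
      exact dvd_mul_of_dvd_left this _
    have hLP : InL G a (pT a b (A ^ 2 - 1) * a) := by
      rw [pT, map_sub, map_one, sub_mul, one_mul]
      exact (hR.tame ha.tame hb.tame ((hann E).2 hE)).sub ha.sq (InL.refl ha.tame)
    rcases rank_lemma hd ha hann hf.ne_zero hLP with h | h
    · refine absurd ?_ hg00
      rw [← map_pow, ← map_one (AdjoinRoot.mk f1), AdjoinRoot.mk_eq_mk]
      exact (dvd_mul_left f1 (X ^ e)).trans (hf1eq ▸ h)
    have he0 : e = 0 := by
      by_contra he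
      have : IsUnit (X : k[X]) := h.isUnit_of_dvd' ((dvd_pow_self X (Nat.succ_ne_zero e)).trans hP1)
        (hf1eq ▸ dvd_mul_of_dvd_left (dvd_pow_self X he) f1)
      exact not_isUnit_X this
    rw [he0, pow_zero, one_mul] at hf1eq
    subst hf1eq
    have hi : Irreducible f := by
      by_contra hni
      refine hgirr hni ?_
      rw [← map_pow, ← map_one (AdjoinRoot.mk f), ← map_sub]
      obtain ⟨u, v, huv⟩ := h
      refine IsUnit.of_mul_eq_one (AdjoinRoot.mk f u) ?_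
      have := congrArg (AdjoinRoot.mk f) huv
      rw [map_add, map_mul, map_mul, AdjoinRoot.mk_self, mul_zero, add_zero, map_one] at this
      rw [mul_comm]; exact this
    refine ⟨?_, f, hf, hi, hcop_of hi, hann⟩
    have hsq : ∀ P, InL G a (pT a b (P ^ 2) * a) := by
      intro P
      by_cases hP : f ∣ P
      · rw [(hann _).2 (dvd_pow hP two_ne_zero)]; exact InL.zero
      obtain ⟨A', E', hR', hE', hA'⟩ := reach_finite hd.two hd.three hf hi (hcop_of hi) hP
      have h0 : pT a b (A' ^ 2 - P ^ 2) * a = 0 := (hann _).2 (hA'.trans ⟨A' + P, by ring⟩)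
      rw [pT, map_sub, sub_mul, sub_eq_zero] at h0
      rw [pT, ← h0]
      exact hR'.tame ha.tame hb.tame ((hann _).2 hE')
    intro P
    have := hsmul (2 : k)⁻¹ (hadd (hsq (P + 1)) (hadd (hsmul (-1) (hsq P)) (hsmul (-1) (hsq 1))))
    convert this using 3
    have : (P + 1) ^ 2 + (C (-1) * P ^ 2 + C (-1) * 1 ^ 2) = C 2 * P := by
      simp only [map_neg, map_one, map_ofNat]; ring
    rw [this, ← mul_assoc, ← C_mul, inv_mul_cancel₀ hd.two, C_1, one_mul]
  · have hall : ∀ P, InL G a (pT a b P * a) :=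
      poly_mem_infinite hd.two ha.tame hb.tame hf hdeg ((hann f).2 dvd_rfl)
    have hi : Irreducible f := by
      refine ⟨hfu, fun u v huv => ?_⟩
      rcases rank_lemma hd ha hann hf.ne_zero (hall u) with h | h
      · right
        obtain ⟨c, hc⟩ := h
        have : f * (c * v - 1) = 0 := by rw [huv] at hc ⊢; linear_combination -v * hc
        exact IsUnit.of_mul_eq_one c (by rw [mul_comm]; exact sub_eq_zero.1 ((mul_eq_zero.1 this).resolve_left hf.ne_zero))
      · exact Or.inl (h.isUnit_of_dvd' dvd_rfl (huv ▸ dvd_mul_right u v))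
    exact ⟨hall, f, hf, hi, hcop_of hi, hann⟩

end Cfsg.Agent.QPair
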