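import Cfsg.Agent.QPair.SL2Ring
import Cfsg.Agent.Linear.SL2TwoGen
import Cfsg.Agent.Linear.SLNormal

/-! Generation of `SL₂` over finite extension fields and over products of two of them. -/

set_option autoImplicit false

namespace Cfsg.Agent.QPair.SL2Ring

open Matrix
open scoped commutatorElement

section diag

variable {R : Type*} [CommRing R]

/-- diagonal element -/
def dR (t : Rˣ) : S2 R := ⟨!![(t : R), 0; 0, ((t⁻¹ : Rˣ) : R)], by simp [Matrix.det_fin_two]⟩

@[simp] theorem dR00 (t : Rˣ) : dR t 0 0 = t := rfl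
@[simp] theorem dR01 (t : Rˣ) : dR t 0 1 = 0 := rfl
@[simp] theorem dR10 (t : Rˣ) : dR t 1 0 = 0 := rfl
@[simp] theorem dR11 (t : Rˣ) : dR t 1 1 = ((t⁻¹ : Rˣ) : R) := rfl

theorem dR_conj (t : Rˣ) (x : R) : dR t * uR x * (dR t)⁻¹ = uR ((t : R) ^ 2 * x) := by
  apply ext2 <;> simp
  ring

theorem dR_conj' (t : Rˣ) (x : R) : (dR t)⁻¹ * lR x * dR t = lR ((t : R) ^ 2 * x) := by
  apply ext2 <;> simp
  ring

end diag

theorem top_of_elementary {K : Type*} [Field K] {H : Subgroup (S2 K)} (hu : ∀ x, uR x ∈ H)
    (hl : ∀ x, lR x ∈ H) : H = ⊤ := by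
  rw [eq_top_iff]
  intro g _
  have key : ∀ g : S2 K, g 1 0 ≠ 0 → g ∈ H := by
    intro g hc
    have : g = uR ((g 0 0 - 1) / g 1 0) * lR (g 1 0) * uR ((g 1 1 - 1) / g 1 0) := by
      have hd := det_eq g
      apply ext2 <;> simp <;> field_simp <;> first | ring1 | linear_combination hd | linear_combination -hd
    rw [this]
    exact mul_mem (mul_mem (hu _) (hl _)) (hu _)
  by_cases hc : g 1 0 = 0
  · have h00 : g 0 0 ≠ 0 := fun e => by
      have := det_eq g
      rw [hc, e] at this
      simp at this
    have := mul_mem (inv_mem (hl 1)) (key (lR 1 * g) (by simpa [hc] using h00))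
    simpa using this
  · exact key g hc

variable {K : Type*} [Field K] {k : Type*} [Field k] [Algebra k K]

/-- `diag(s,1) g diag(s,1)⁻¹` -/
def dcf (s : K) (hs : s ≠ 0) (g : S2 K) : S2 K :=
  ⟨!![g 0 0, s * g 0 1; g 1 0 / s, g 1 1], by
    have := det_eq g
    rw [Matrix.det_fin_two]
    simp
    field_simp
    linear_combination this⟩

@[simp] theorem dcf00 (s : K) (hs : s ≠ 0) (g : S2 K) : dcf s hs g 0 0 = g 0 0 := rfl
@[simp] theorem dcf01 (s : K) (hs : s ≠ 0) (g : S2 K) : dcf s hs g 0 1 = s * g 0 1 := rfl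
@[simp] theorem dcf10 (s : K) (hs : s ≠ 0) (g : S2 K) : dcf s hs g 1 0 = g 1 0 / s := rfl
@[simp] theorem dcf11 (s : K) (hs : s ≠ 0) (g : S2 K) : dcf s hs g 1 1 = g 1 1 := rfl

/-- conjugation by `diag(s,1)` -/
def dconj (s : K) (hs : s ≠ 0) : S2 K →* S2 K where
  toFun := dcf s hs
  map_one' := by apply ext2 <;> simp
  map_mul' g h := by apply ext2 <;> simp <;> field_simp

theorem dconj_uR (s : K) (hs : s ≠ 0) (b : K) : dconj s hs (uR b) = uR (s * b) := by
  show dcf s hs (uR b) = _
  apply ext2 <;> simp

theorem dconj_lR (s : K) (hs : s ≠ 0) (b : K) : dconj s hs (lR b) = lR (b / s) := by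
  show dcf s hs (lR b) = _
  apply ext2 <;> simp

theorem dconj_injective (s : K) (hs : s ≠ 0) : Function.Injective (dconj s hs) := by
  intro g h e
  change dcf s hs g = dcf s hs h at e
  have h00 := congrArg (fun g : S2 K => g 0 0) e
  have h01 := congrArg (fun g : S2 K => g 0 1) e
  have h10 := congrArg (fun g : S2 K => g 1 0) e
  have h11 := congrArg (fun g : S2 K => g 1 1) e
  simp only [dcf00, dcf01, dcf10, dcf11] at h00 h01 h10 h11
  exact ext2 h00 (mul_left_cancel₀ hs h01) ((div_left_inj' hs).1 h10) h11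

theorem two_ne_zero_map (h2 : (2 : k) ≠ 0) : (2 : K) ≠ 0 := by
  rw [← map_ofNat (algebraMap k K) 2]
  exact (map_ne_zero _).2 h2

/-- Dickson's generation theorem over a finite extension field. -/
theorem field_top [Fintype K] [Fintype k] (h2 : (2 : k) ≠ 0) (hq : 5 ≤ Fintype.card k) {α : K} (hα : α ≠ 0)
    (hgen : ∀ L : Subfield K, (∀ c, algebraMap k K c ∈ L) → α ∈ L → L = ⊤) : gen k α = ⊤ := by
  classical
  set H := (gen k α).map (dconj α hα) with hH
  suffices hT : H = ⊤ by
    apply Subgroup.map_injective (dconj_injective α hα)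
    rw [← hH, hT, eq_comm, ← MonoidHom.range_eq_map, MonoidHom.range_eq_top]
    exact Finite.surjective_of_injective (dconj_injective α hα)
  have hu : ∀ c : k, uR (algebraMap k K c * α) ∈ H := fun c =>
    ⟨_, uR_mem_gen c, by rw [dconj_uR, mul_comm]⟩
  have hl1 : lR (1 : K) ∈ H :=
    ⟨_, lR_mem_gen (1 : k), by rw [dconj_lR, one_smul, div_self hα]⟩
  let S : AddSubgroup K :=
    { carrier := {x | uR x ∈ H}
      zero_mem' := by show uR (0 : K) ∈ H; rw [uR_zero]; exact one_mem H
      add_mem' := fun {a b} ha hb => by show uR (a + b) ∈ H; rw [uR_add]; exact mul_mem ha hb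
      neg_mem' := fun {a} ha => by show uR (-a) ∈ H; rw [← uR_inv]; exact inv_mem ha }
  let T : Subring K :=
    { carrier := {t | ∀ x ∈ S, t * x ∈ S}
      zero_mem' := fun x _ => by rw [zero_mul]; exact S.zero_mem
      one_mem' := fun x hx => by rwa [one_mul]
      add_mem' := fun {a b} ha hb x hx => by rw [add_mul]; exact S.add_mem (ha x hx) (hb x hx)
      neg_mem' := fun {a} ha x hx => by rw [neg_mul]; exact S.neg_mem (ha x hx)
      mul_mem' := fun {a b} ha hb x hx => by rw [mul_assoc]; exact ha _ (hb x hx) }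
  set good : k → Prop := fun μ => μ ≠ 0 ∧ (algebraMap k K μ * α) ^ 2 ≠ -1
  have h2K : (2 : K) ≠ 0 := two_ne_zero_map h2
  have hgood : ∀ μ, good μ → algebraMap k K μ * α ∈ T ∧ (algebraMap k K μ * α)⁻¹ ∈ T ∧
      ∀ y, lR y ∈ H ↔ uR (-y) ∈ H := by
    intro μ hμ
    set lam := algebraMap k K μ * α with hlamdef
    have hlam0 : lam ≠ 0 := mul_ne_zero ((map_ne_zero _).2 hμ.1) hα
    set F := Subfield.closure ({lam} : Set K) with hF
    letI : Fintype F := Fintype.ofFinite _
    set l0 : F := ⟨lam, Subfield.subset_closure rfl⟩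
    have hl0 : l0 ≠ 0 := fun e => hlam0 (congrArg Subtype.val e)
    have hcl : Subfield.closure ({l0} : Set F) = ⊤ := by
      rw [eq_top_iff]
      rintro ⟨y, hy⟩ -
      have : Subfield.closure ({lam} : Set K) ≤ (Subfield.closure ({l0} : Set F)).map F.subtype := by
        rw [Subfield.closure_le]
        rintro _ rfl
        exact ⟨l0, Subfield.subset_closure rfl, rfl⟩
      obtain ⟨y', hy', e⟩ := this hy
      have : y' = ⟨y, hy⟩ := Subtype.ext e
      exact this ▸ hy'
    have htop : Cfsg.Agent.Linear.SL2TwoGen.gen l0 = ⊤ := by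
      rcases Cfsg.Agent.Linear.SL2TwoGen.main (F := F)
        (fun e => h2K (by have := congrArg F.subtype e; rwa [map_ofNat, map_zero] at this)) hl0 hcl with e | ⟨-, e, -⟩
      · exact e
      · exact absurd (by simpa using congrArg Subtype.val e) hμ.2
    have hall : ∀ g : S2 F, Matrix.SpecialLinearGroup.map F.subtype g ∈ H := by
      intro g
      have hle : Cfsg.Agent.Linear.SL2TwoGen.gen l0 ≤ H.comap (Matrix.SpecialLinearGroup.map F.subtype) := by
        rw [Cfsg.Agent.Linear.SL2TwoGen.gen, Subgroup.closure_le]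
        intro x hx
        rcases hx with e | e
        · rw [e, SetLike.mem_coe, Subgroup.mem_comap]
          show Matrix.SpecialLinearGroup.map F.subtype (lR (1 : F)) ∈ H
          rw [map_lR, map_one]; exact hl1
        · rw [Set.mem_singleton_iff.1 e, SetLike.mem_coe, Subgroup.mem_comap]
          show Matrix.SpecialLinearGroup.map F.subtype (uR l0) ∈ H
          rw [map_uR]; exact hu μ
      exact hle (htop ▸ Subgroup.mem_top g)
    have hsq : ∀ t : F, t ≠ 0 → ((t : K) ^ 2) ∈ T := by
      intro t ht x hx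
      show uR _ ∈ H
      have hd := hall (dR (Units.mk0 t ht))
      have e : Matrix.SpecialLinearGroup.map F.subtype (dR (Units.mk0 t ht)) =
          dR (Units.mk0 (t : K) (fun e => ht (Subtype.ext e))) := by
        apply ext2 <;> simp
      rw [e] at hd
      have := mul_mem (mul_mem hd hx) (inv_mem hd)
      rwa [dR_conj] at this
    have hmem : ∀ t : F, (t : K) ∈ T := by
      intro t
      have h2t : ∀ t : F, ((t : K) ^ 2) ∈ T := fun t => by
        by_cases ht : t = 0
        · rw [ht]; simp
        · exact hsq t ht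
      have h3 : (2 : K) * t ∈ T := by
        have := T.sub_mem (T.sub_mem (h2t (t + 1)) (h2t t)) T.one_mem
        push_cast at this
        rwa [show ((t : K) + 1) ^ 2 - (t : K) ^ 2 - 1 = 2 * t by ring] at this
      obtain ⟨u, hu'⟩ : ∃ u : F, (2 : K) * u = 1 :=
        ⟨⟨2⁻¹, F.inv_mem (by rw [← one_add_one_eq_two]; exact F.add_mem F.one_mem F.one_mem)⟩, mul_inv_cancel₀ h2K⟩
      intro x hx
      have h4 : (2 : K) * u * (u : K) ∈ T → True := fun _ => trivial
      have h5 : (u : K) ∈ T := by
        have := T.mul_mem (show ((2 : K) * ((u ^ 2 : F) : K)) ∈ T by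
          rw [two_mul]; exact T.add_mem (by simpa using h2t u) (by simpa using h2t u)) T.one_mem
        push_cast at this
        rwa [mul_one, pow_two, ← mul_assoc, hu', one_mul] at this
      have := T.mul_mem h5 h3
      rw [← mul_assoc, mul_comm (u : K) 2, hu', one_mul] at this
      exact this x hx
    refine ⟨hmem l0, by simpa using hmem l0⁻¹, fun y => ?_⟩
    have hw := hall (uR 1 * lR (-1) * uR 1)
    rw [map_mul, map_mul, map_uR, map_lR, map_neg, map_one] at hw
    have e : uR (1 : K) * lR (-1) * uR 1 * uR (-y) * (uR 1 * lR (-1) * uR 1)⁻¹ = lR y := by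
      apply ext2 <;> simp
    constructor
    · intro hy
      have := mul_mem (mul_mem (inv_mem hw) (e.symm ▸ hy : _ ∈ H)) hw
      simpa [mul_assoc] using this
    · intro hy; rw [← e]; exact mul_mem (mul_mem hw hy) (inv_mem hw)
  -- many good scalars
  set s : Finset k := Finset.univ.filter good with hs
  have hcard : Fintype.card k ≤ s.card + 3 := by
    have hbad : ((Finset.univ.filter fun μ : k => ¬ good μ)).card ≤ 3 := by
      have hsub : (Finset.univ.filter fun μ : k => ¬ good μ) ⊆
          insert (0 : k) (Finset.univ.filter fun μ : k => (algebraMap k K μ * α) ^ 2 = -1) := fun μ hμ => by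
        simp only [Finset.mem_filter, Finset.mem_univ, true_and, good, not_and, not_not] at hμ
        by_cases h0 : μ = 0
        · exact Finset.mem_insert.2 (Or.inl h0)
        · exact Finset.mem_insert_of_mem (by simpa using hμ h0)
      refine (Finset.card_le_card hsub).trans ((Finset.card_insert_le _ _).trans (Nat.succ_le_succ ?_))
      by_contra hc
      rw [not_le, Finset.two_lt_card] at hc
      obtain ⟨x, hx, y, hy, z, hz, hxy, hxz, hyz⟩ := hc
      simp only [Finset.mem_filter, Finset.mem_univ, true_and] at hx hy hz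
      have key : ∀ u v : k, (algebraMap k K u * α) ^ 2 = -1 → (algebraMap k K v * α) ^ 2 = -1 → u ≠ v →
          u = -v := fun u v hu hv huv => by
        have h1 : algebraMap k K ((u - v) * (u + v)) * α ^ 2 = 0 := by
          push_cast [map_mul, map_sub, map_add]; linear_combination hu - hv
        have h3 : (u - v) * (u + v) = 0 :=
          (map_eq_zero (algebraMap k K)).1 ((mul_eq_zero.1 h1).resolve_right (pow_ne_zero 2 hα))
        exact eq_neg_of_add_eq_zero_left ((mul_eq_zero.1 h3).resolve_left (sub_ne_zero.2 huv))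
      exact hyz (neg_injective ((key x y hx hy hxy).symm.trans (key x z hx hz hxz)))
    have : s.card + (Finset.univ.filter fun μ : k => ¬ good μ).card = Fintype.card k := by
      rw [hs, ← Finset.card_univ]; convert Finset.card_filter_add_card_filter_not (s := (Finset.univ : Finset k)) good
    omega
  obtain ⟨μ0, hμ0⟩ : s.Nonempty := Finset.card_pos.1 (by omega)
  simp only [hs, Finset.mem_filter, Finset.mem_univ, true_and] at hμ0
  let W : AddSubgroup k := T.toAddSubgroup.comap (algebraMap k K).toAddMonoidHom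
  have hW : W = ⊤ := by
    have h1 : ∀ μ, good μ → μ / μ0 ∈ W := fun μ hμ => by
      show algebraMap k K (μ / μ0) ∈ T
      have := T.mul_mem (hgood μ hμ).1 (hgood μ0 hμ0).2.1
      rwa [map_div₀, ← mul_div_mul_right _ _ hα, div_eq_mul_inv]
    have hsub : insert (0 : k) (s.image (fun μ => μ / μ0)) ⊆ Finset.univ.filter (fun c => c ∈ W) := by
      intro c hc
      simp only [Finset.mem_insert, Finset.mem_image, hs, Finset.mem_filter, Finset.mem_univ, true_and] at hc ⊢
      rcases hc with rfl | ⟨μ, hμ, rfl⟩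
      · exact W.zero_mem
      · exact h1 μ hμ
    have h3 := Finset.card_le_card hsub
    rw [Finset.card_insert_of_notMem, Finset.card_image_of_injective] at h3
    · have hWc : (Finset.univ.filter (fun c => c ∈ W)).card = Nat.card W := by
        rw [Nat.card_eq_fintype_card, Fintype.card_subtype]
      have hdvd := W.card_addSubgroup_dvd_card
      apply AddSubgroup.eq_top_of_card_eq
      rw [Nat.card_eq_fintype_card (α := k)] at hdvd ⊢
      obtain ⟨i, hi⟩ := hdvd
      rcases Nat.lt_or_ge i 2 with h | h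
      · interval_cases i
        · omega
        · omega
      · exfalso
        have : Nat.card W * 2 ≤ Fintype.card k := hi ▸ Nat.mul_le_mul_left _ h
        have hodd : Fintype.card k % 2 = 1 := by
          refine Nat.two_dvd_ne_zero.1 fun hd => h2 ?_
          obtain ⟨p, hp⟩ := CharP.exists k
          obtain ⟨n, hpp, hq'⟩ := FiniteField.card k p
          have : p = 2 := ((Nat.prime_dvd_prime_iff_eq Nat.prime_two hpp).1 (Nat.prime_two.dvd_of_dvd_pow (hq' ▸ hd))).symm
          subst this
          exact CharP.cast_eq_zero k 2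
        rcases Nat.lt_or_ge i 3 with h' | h'
        · obtain rfl : i = 2 := by omega
          omega
        · have : Nat.card W * 3 ≤ Fintype.card k := hi ▸ Nat.mul_le_mul_left _ h'
          omega
    · intro x y hxy
      simpa [div_left_inj' hμ0.1] using hxy
    · simp only [Finset.mem_image, hs, Finset.mem_filter, Finset.mem_univ, true_and, not_exists, not_and]
      exact fun μ hμ e => hμ.1 ((div_eq_zero_iff.1 e).resolve_right hμ0.1)
  have hk : ∀ c : k, algebraMap k K c ∈ T := fun c => (hW ▸ AddSubgroup.mem_top c : c ∈ W)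
  have hαT : α ∈ T := by
    have := T.mul_mem (hk μ0⁻¹) (hgood μ0 hμ0).1
    rwa [← mul_assoc, ← map_mul, inv_mul_cancel₀ hμ0.1, map_one, one_mul] at this
  have hinv : ∀ x ∈ T, x⁻¹ ∈ T := fun x hx => by
    by_cases h0 : x = 0
    · simp [h0, T.zero_mem]
    · have h1 : x * x ^ (Fintype.card K - 2) = 1 := by
        rw [← pow_succ', show Fintype.card K - 2 + 1 = Fintype.card K - 1 by
          have := Fintype.one_lt_card (α := K); omega]
        exact FiniteField.pow_card_sub_one_eq_one x h0
      rw [inv_eq_of_mul_eq_one_right h1]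
      exact T.pow_mem hx _
  let L : Subfield K := { T with inv_mem' := hinv }
  have hL : L = ⊤ := hgen L hk hαT
  have hαS : uR α ∈ H := by simpa using hu 1
  have hallu : ∀ x : K, uR x ∈ H := fun x => by
    have := (show x / α ∈ T from (hL ▸ Subfield.mem_top _ : x / α ∈ L)) α hαS
    rwa [div_mul_cancel₀ _ hα] at this
  exact top_of_elementary hallu fun x => ((hgood μ0 hμ0).2.2 x).2 (hallu _)

theorem exists_scalar (k : Type*) [Field k] [Fintype k] (hq : 5 ≤ Fintype.card k) :
    ∃ t : k, t ≠ 0 ∧ t ^ 2 ≠ 1 := by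
  classical
  by_contra h
  push_neg at h
  have hsub : (Finset.univ : Finset k) ⊆ {0, 1, -1} := fun a _ => by
    rcases eq_or_ne a 0 with ha | ha
    · simp [ha]
    · rcases sq_eq_one_iff.1 (h a ha) with h1 | h1 <;> simp [h1]
  have := (Finset.card_le_card hsub).trans Finset.card_le_three
  rw [Finset.card_univ] at this
  omega

/-- perfectness -/
theorem perfect_of_top {R : Type*} [CommRing R] [Algebra k R] [Fintype k] (hq : 5 ≤ Fintype.card k) {x : R}
    (h : gen k x = ⊤) : commutator (S2 R) = ⊤ := by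
  obtain ⟨t, ht, ht1⟩ := exists_scalar k hq
  have hne : t ^ 2 - 1 ≠ 0 := sub_ne_zero.2 ht1
  set d : S2 R := dR (Units.map (algebraMap k R).toMonoidHom (Units.mk0 t ht))
  have hd00 : ((Units.map (algebraMap k R).toMonoidHom (Units.mk0 t ht) : Rˣ) : R) = algebraMap k R t := rfl
  rw [eq_top_iff, ← h, gen, Subgroup.closure_le]
  rintro _ (⟨c, rfl⟩ | ⟨c, rfl⟩)
  · have e : ⁅d, uR (algebraMap k R (c / (t ^ 2 - 1)))⁆ = uR (algebraMap k R c) := by
      rw [commutatorElement_def, dR_conj, uR_inv, ← uR_add, hd00, ← map_pow, ← map_mul, ← map_neg, ← map_add]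
      congr 2; field_simp; ring
    show uR (algebraMap k R c) ∈ commutator _
    rw [← e]; exact Subgroup.commutator_mem_commutator (Subgroup.mem_top _) (Subgroup.mem_top _)
  · have e : ⁅d⁻¹, lR ((c / (t ^ 2 - 1)) • x)⁆ = lR (c • x) := by
      rw [commutatorElement_def, inv_inv, dR_conj', lR_inv, ← lR_add, hd00, ← map_pow, ← Algebra.smul_def, smul_smul,
        ← sub_eq_add_neg, ← sub_smul]
      congr 2; field_simp
    show lR (c • x) ∈ commutator _
    rw [← e]; exact Subgroup.commutator_mem_commutator (Subgroup.mem_top _) (Subgroup.mem_top _)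

/-- a normal subgroup of prime-power exponent quotient in a perfect group -/
theorem eq_top_of_pQuot {G : Type*} [Group G] [Finite G] (p : ℕ) [Fact p.Prime] (hG : commutator G = ⊤)
    (N : Subgroup G) [N.Normal] (h : ∀ g : G, ∃ m : ℕ, g ^ p ^ m ∈ N) : N = ⊤ := by
  have hp : IsPGroup p (G ⧸ N) := fun x => by
    induction x using QuotientGroup.induction_on with
    | H g =>
      obtain ⟨m, hm⟩ := h g
      exact ⟨m, by rw [← QuotientGroup.mk_pow, QuotientGroup.eq_one_iff]; exact hm⟩
  haveI := hp.isNilpotent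
  haveI : Group.IsSolvable (G ⧸ N) := IsNilpotent.to_isSolvable
  by_contra hN
  haveI : Nontrivial (G ⧸ N) := QuotientGroup.nontrivial_iff.2 hN
  refine (Group.IsSolvable.commutator_lt_top_of_nontrivial (G := G ⧸ N)).ne ?_
  have := congrArg (Subgroup.map (QuotientGroup.mk' N)) hG
  rw [commutator_def, Subgroup.map_commutator, Subgroup.map_top_of_surjective _ (QuotientGroup.mk'_surjective N),
    ← commutator_def] at this
  exact this

end Cfsg.Agent.QPair.SL2Ring
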