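import Cfsg.Agent.QPair.Pair

/-! A pair of opposite roots and the copy of `SL₂` it carries. -/

set_option autoImplicit false
set_option linter.style.haveILetI false

namespace Cfsg.Agent.QPair

open Polynomial SL2Ring

variable {k : Type*} [Field k] {M : Type*} [AddCommGroup M] [Module k M]

local notation "GL'" => LinearMap.GeneralLinearGroup k M
local notation "End'" => Module.End k M

variable {G : Subgroup (LinearMap.GeneralLinearGroup k M)} {a b x y x' : Module.End k M} {d : ℕ}

/-- `a` and `x` are inverse roots -/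
structure Frame (G : Subgroup GL') (d : ℕ) (a x : End') : Prop where
  left : Root G d a
  right : Root G d x
  axa : a * x * a = a
  xax : x * a * x = x

/-- the trivial summand -/
def e0 (a x : End') : End' := 1 - a * x - x * a

namespace Frame

theorem symm (F : Frame G d a x) : Frame G d x a := ⟨F.right, F.left, F.xax, F.axa⟩

theorem e0_swap : e0 x a = e0 a x := by rw [e0, e0]; abel

variable (F : Frame G d a x)
include F

theorem lmul (hy : InL G a y) : a * x * y = y := by
  ext m
  obtain ⟨u, hu⟩ := hy.im (LinearMap.mem_range_self y m)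
  show (a * x) (y m) = y m
  rw [← hu]
  exact LinearMap.congr_fun F.axa u

theorem rmul (hy : InL G a y) : y * x * a = y := by
  ext m
  have h1 : m - (x * a) m ∈ LinearMap.ker a := by
    rw [LinearMap.mem_ker, map_sub, ← Module.End.mul_apply, ← mul_assoc, F.axa, sub_self]
  have := hy.ker h1
  rw [LinearMap.mem_ker, map_sub, sub_eq_zero] at this
  exact this.symm

theorem a_mul (hy : InL G a y) : a * y = 0 := (InL.refl F.left.tame).mul_zero F.left.sq hy
theorem mul_a (hy : InL G a y) : y * a = 0 := hy.mul_zero F.left.sq (InL.refl F.left.tame)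

theorem mul_e0 (hy : InL G a y) : y * e0 a x = 0 := by
  rw [e0, mul_sub, mul_sub, mul_one, ← mul_assoc, F.mul_a hy, zero_mul, ← mul_assoc, F.rmul hy, sub_zero,
    sub_self]

theorem e0_mul (hy : InL G a y) : e0 a x * y = 0 := by
  rw [e0, sub_mul, sub_mul, one_mul, F.lmul hy, mul_assoc x, F.a_mul hy, mul_zero, sub_self, sub_zero]

theorem e0_sq : e0 a x * e0 a x = e0 a x := by
  conv_lhs => arg 2; rw [e0]
  rw [mul_sub, mul_sub, mul_one, ← mul_assoc, ← mul_assoc, F.e0_mul (InL.refl F.left.tame), zero_mul,
    ← e0_swap, F.symm.e0_mul (InL.refl F.right.tame), zero_mul, sub_zero, sub_zero]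

theorem change (hy : InL G a y) (hx : InL G x x') (h0 : y ≠ 0) (hd : Deg G d)
    [FiniteDimensional k M] : Frame G d y x' → y * x' = a * x ∧ x' * y = x * a := by
  intro F'
  have h1 := F'.rmul (hy.symm hd F.left h0)
  have h2 := F'.lmul (hy.symm hd F.left h0)
  have r1 : x' * a * x = x' := F.symm.rmul hx
  have r2 : x * a * x' = x' := F.symm.lmul hx
  constructor
  · calc y * x' = y * (x' * a * x) := by rw [r1]
      _ = (y * x' * a) * x := by simp only [mul_assoc]
      _ = a * x := by rw [h2]
  · calc x' * y = x * a * x' * y := by rw [r2]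
      _ = x * (a * x' * y) := by simp only [mul_assoc]
      _ = x * a := by rw [h1]

end Frame

variable [FiniteDimensional k M]

omit [FiniteDimensional k M] in
theorem pT_swap (P : k[X]) : b * pT a b P = pT b a P * b := by
  induction P using Polynomial.induction_on' with
  | add p q hp hq => rw [pT_add, pT_add, mul_add, add_mul, hp, hq]
  | monomial n c =>
    rw [pT, pT, aeval_monomial, aeval_monomial, Algebra.algebraMap_eq_smul_one, smul_mul_assoc, one_mul,
      smul_mul_assoc, one_mul, mul_smul_comm, smul_mul_assoc]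
    congr 1
    induction n with
    | zero => simp
    | succ n ih => rw [pow_succ, ← mul_assoc, ih, pow_succ]; simp only [mul_assoc]

/-- A non-nilpotent pair determines a frame. -/
theorem exists_frame (hd : Deg G d) (ha : Root G d a) (hb : Root G d b) (h : a * b * a ≠ 0) :
    ∃ x, InL G b x ∧ x ≠ 0 ∧ Frame G d a x := by
  obtain ⟨-, f, hf, hi, hX, hann⟩ := (dich hd ha hb).resolve_left h
  have h' : b * a * b ≠ 0 := fun e => h (bab_of_aba hd hb ha e)
  obtain ⟨hallb, -⟩ := (dich hd hb ha).resolve_left h'
  obtain ⟨u, v, huv⟩ := hX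
  have hv : pT a b (X * v) * a = a := by
    have : pT a b (X * v - 1) * a = 0 := (hann _).2 ⟨-u, by linear_combination huv⟩
    rwa [pT, map_sub, map_one, sub_mul, one_mul, sub_eq_zero] at this
  set x := b * (pT a b (v ^ 2) * a) * b with hx
  have hxm : InL G b x := by
    have : x = pT b a (v ^ 2 * X) * b := by
      rw [hx, ← mul_assoc b, pT_swap, pT_mul]
      simp only [pT, aeval_X, mul_assoc]
    rw [this]; exact hallb _
  have hax : a * x = pT a b (X * v ^ 2) * (a * b) := by
    rw [hx, ← mul_assoc, ← mul_assoc, ← mul_assoc, pT, pT, map_mul, aeval_X]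
    simp only [mul_assoc]
  have haxa : a * x * a = a := by
    rw [hax, mul_assoc]
    have : a * b * a = pT a b X * a := by simp [pT]
    rw [this, ← mul_assoc, ← pT_mul, show X * v ^ 2 * X = X * v * (X * v) by ring, pT_mul,
      mul_assoc, hv, hv]
  have hxax : x * a * x = x := by
    rw [mul_assoc, hax, hx]
    have e : b * (pT a b (v ^ 2) * a) * b * (pT a b (X * v ^ 2) * (a * b)) =
        b * (pT a b (v ^ 2) * ((a * b) * (pT a b (X * v ^ 2) * a))) * b := by simp only [mul_assoc]
    rw [e, ← mul_assoc (a * b), show a * b * pT a b (X * v ^ 2) = pT a b (X * (X * v ^ 2)) from T_mul_pT _,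
      show X * (X * v ^ 2) = X * v * (X * v) by ring, pT_mul,
      mul_assoc (pT a b (X * v)) (pT a b (X * v)) a, hv, hv]
  have hx0 : x ≠ 0 := fun e => h (by rw [e, mul_zero, zero_mul] at haxa; rw [← haxa]; simp)
  exact ⟨x, hxm, hx0, ha, hxm.root hd hb hx0, haxa, hxax⟩

namespace Frame

/-- a change of the first member of a frame inside its line space -/
theorem exists_inv (F : Frame G d a x) (hd : Deg G d) (hy : InL G a y) (h0 : y ≠ 0) :
    ∃ x', InL G x x' ∧ x' ≠ 0 ∧ Frame G d y x' ∧ y * x' = a * x ∧ x' * y = x * a := by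
  have hyr := hy.root hd F.left h0
  have hne : y * x * y ≠ 0 := fun e => by
    have hs := hy.symm hd F.left h0
    have := nil_all hd hyr F.right e hs hs (InL.refl F.right.tame)
    rw [F.axa] at this
    exact h0 (by rw [← F.lmul hy, this]; simp)
  obtain ⟨x', hx', hx0, F'⟩ := exists_frame hd hyr F.right hne
  obtain ⟨e1, e2⟩ := F.change hy hx' h0 hd F'
  exact ⟨x', hx', hx0, F', e1, e2⟩

end Frame

end Cfsg.Agent.QPair
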