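import Cfsg.Agent.QPair.RankOne

/-! The central involution of a frame. -/

set_option autoImplicit false

namespace Cfsg.Agent.QPair

open Cfsg Cfsg.Agent.Quad

variable {k : Type*} [Field k] {M : Type*} [AddCommGroup M] [Module k M]

local notation "GL'" => LinearMap.GeneralLinearGroup k M
local notation "End'" => Module.End k M

variable {G : Subgroup (LinearMap.GeneralLinearGroup k M)} {a b x y : Module.End k M} {d : ℕ}
  {g : LinearMap.GeneralLinearGroup k M}

namespace Frame

variable [FiniteDimensional k M] (F : Frame G d a x)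
include F

/-- the element swapping the two sides -/
def swapper : GL' :=
  uu a F.left.sq * (uu x F.right.sq)⁻¹ * uu a F.left.sq

omit [FiniteDimensional k M] in
theorem swapper_val : ((F.swapper : GL') : End') = a - x + e0 a x := by
  rw [swapper, Units.val_mul, Units.val_mul, uu_val, uu_inv_val, e0]
  simp only [add_mul, mul_add, one_mul, mul_one, mul_sub, sub_mul, F.axa, F.left.sq]
  abel

theorem swapper_mem (hd : Deg G d) : F.swapper ∈ RS G a F.left.sq ⊔ RS G x F.right.sq := by
  have ha := Subgroup.mem_sup_left (T := RS G x F.right.sq) (uu_mem_RS hd F.left (InL.refl F.left.tame))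
  have hx := Subgroup.mem_sup_right (S := RS G a F.left.sq) (uu_mem_RS hd F.right (InL.refl F.right.tame))
  exact mul_mem (mul_mem ha (inv_mem hx)) ha

omit [FiniteDimensional k M] in
theorem invol_val : ((F.swapper * F.swapper : GL') : End') = 1 - (2 : k) • (a * x + x * a) := by
  have h1 : a * e0 a x = 0 := F.mul_e0 (InL.refl F.left.tame)
  have h2 : x * e0 a x = 0 := by rw [← e0_swap]; exact F.symm.mul_e0 (InL.refl F.right.tame)
  have h3 : e0 a x * a = 0 := F.e0_mul (InL.refl F.left.tame)
  have h4 : e0 a x * x = 0 := by rw [← e0_swap]; exact F.symm.e0_mul (InL.refl F.right.tame)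
  rw [Units.val_mul, F.swapper_val]
  simp only [add_mul, mul_add, sub_mul, mul_sub, h1, h2, h3, h4, F.e0_sq, F.left.sq, F.right.sq]
  rw [e0, two_smul]
  abel

omit [FiniteDimensional k M] in
theorem invol_neg {m : M} (hm : m ∈ LinearMap.range a ⊔ LinearMap.range x) :
    ((F.swapper * F.swapper : GL') : End') m = -m := by
  obtain ⟨_, ⟨u, rfl⟩, _, ⟨v, rfl⟩, rfl⟩ := Submodule.mem_sup.1 hm
  rw [F.invol_val]
  have e1 : (a * x + x * a) (a u) = a u := by
    show (a * x + x * a) (a u) = _
    rw [LinearMap.add_apply, ← Module.End.mul_apply, F.axa, ← Module.End.mul_apply (x * a), mul_assoc,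
      F.left.sq, mul_zero, LinearMap.zero_apply, add_zero]
  have e2 : (a * x + x * a) (x v) = x v := by
    show (a * x + x * a) (x v) = _
    rw [LinearMap.add_apply, ← Module.End.mul_apply, mul_assoc, F.right.sq, mul_zero, LinearMap.zero_apply,
      zero_add, ← Module.End.mul_apply, F.xax]
  rw [LinearMap.sub_apply, LinearMap.smul_apply, Module.End.one_apply, map_add, e1, e2, two_smul]
  abel

omit [FiniteDimensional k M] in
theorem invol_pos {m : M} (hm : m ∈ LinearMap.ker a ⊓ LinearMap.ker x) :
    ((F.swapper * F.swapper : GL') : End') m = m := by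
  rw [F.invol_val]
  simp [LinearMap.mem_ker.1 hm.1, LinearMap.mem_ker.1 hm.2]

omit [FiniteDimensional k M] in
theorem compl : IsCompl (LinearMap.ker a ⊓ LinearMap.ker x) (LinearMap.range a ⊔ LinearMap.range x) := by
  constructor
  · rw [Submodule.disjoint_def]
    intro m hm hm'
    obtain ⟨_, ⟨u, rfl⟩, _, ⟨v, rfl⟩, rfl⟩ := Submodule.mem_sup.1 hm'
    have ha := LinearMap.mem_ker.1 hm.1
    have hx := LinearMap.mem_ker.1 hm.2
    rw [map_add, ← Module.End.mul_apply, F.left.sq, LinearMap.zero_apply, zero_add] at ha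
    rw [map_add, ← Module.End.mul_apply x x, F.right.sq, LinearMap.zero_apply, add_zero] at hx
    have hu : a u = 0 := by
      rw [← LinearMap.congr_fun F.axa u]
      show a (x (a u)) = 0
      rw [hx, map_zero]
    have hv : x v = 0 := by
      rw [← LinearMap.congr_fun F.xax v]
      show x (a (x v)) = 0
      rw [ha, map_zero]
    rw [hu, hv, add_zero]
  · rw [codisjoint_iff, eq_top_iff]
    intro m _
    have : m = e0 a x m + (a (x m) + x (a m)) := by simp [e0]
    rw [this]
    refine Submodule.add_mem_sup ⟨?_, ?_⟩ (Submodule.add_mem_sup (LinearMap.mem_range_self a _) (LinearMap.mem_range_self x _))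
    · rw [SetLike.mem_coe, LinearMap.mem_ker, ← Module.End.mul_apply, F.mul_e0 (InL.refl F.left.tame),
        LinearMap.zero_apply]
    · rw [SetLike.mem_coe, LinearMap.mem_ker, ← Module.End.mul_apply, ← e0_swap,
        F.symm.mul_e0 (InL.refl F.right.tame), LinearMap.zero_apply]

theorem fixed_eq (hd : Deg G d) :
    fixedSubmodule (RS G a F.left.sq ⊔ RS G x F.right.sq) = LinearMap.ker a ⊓ LinearMap.ker x := by
  refine le_antisymm (le_inf ?_ ?_) ?_
  · refine (iInf₂_le (uu a F.left.sq) (Subgroup.mem_sup_left (uu_mem_RS hd F.left (InL.refl F.left.tame)))).trans ?_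
    exact le_of_eq (congrArg LinearMap.ker (dev_uu F.left.sq))
  · refine (iInf₂_le (uu x F.right.sq) (Subgroup.mem_sup_right (uu_mem_RS hd F.right (InL.refl F.right.tame)))).trans ?_
    exact le_of_eq (congrArg LinearMap.ker (dev_uu F.right.sq))
  · refine le_iInf₂ fun g hg m hm => ?_
    show dev g m = 0
    rw [Subgroup.sup_eq_closure] at hg
    have base : ∀ {u : GL'}, u ∈ (RS G a F.left.sq : Set GL') ∪ (RS G x F.right.sq : Set GL') → dev u m = 0 := by
      rintro u (hu | hu)
      · exact LinearMap.mem_ker.1 (((mem_RS hd F.left).1 hu).ker hm.1)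
      · exact LinearMap.mem_ker.1 (((mem_RS hd F.right).1 hu).ker hm.2)
    induction hg using Subgroup.closure_induction'' with
    | one => rw [dev_one, LinearMap.zero_apply]
    | mem u hu => exact base hu
    | inv_mem u hu => exact base (hu.imp inv_mem inv_mem)
    | mul u v _ _ iu iv =>
      rw [dev_mul, LinearMap.add_apply, LinearMap.add_apply, Module.End.mul_apply, iv, map_zero, iu, add_zero,
        add_zero]

theorem comm_eq (hd : Deg G d) :
    commutatorSubmodule (RS G a F.left.sq ⊔ RS G x F.right.sq) = LinearMap.range a ⊔ LinearMap.range x := by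
  refine le_antisymm ?_ (sup_le ?_ ?_)
  · refine iSup₂_le fun g hg => ?_
    show LinearMap.range (dev g) ≤ _
    rw [Subgroup.sup_eq_closure] at hg
    have base : ∀ {u : GL'}, u ∈ (RS G a F.left.sq : Set GL') ∪ (RS G x F.right.sq : Set GL') →
        LinearMap.range (dev u) ≤ LinearMap.range a ⊔ LinearMap.range x := by
      rintro u (hu | hu)
      · exact ((mem_RS hd F.left).1 hu).im.trans le_sup_left
      · exact ((mem_RS hd F.right).1 hu).im.trans le_sup_right
    induction hg using Subgroup.closure_induction'' with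
    | one => rw [dev_one, LinearMap.range_zero]; exact bot_le
    | mem u hu => exact base hu
    | inv_mem u hu => exact base (hu.imp inv_mem inv_mem)
    | mul u v _ _ iu iv =>
      rintro _ ⟨m, rfl⟩
      rw [dev_mul]
      exact add_mem (add_mem (iu ⟨_, rfl⟩) (iu ⟨_, rfl⟩)) (iv ⟨_, rfl⟩)
  · refine le_trans ?_ (le_iSup₂ (uu a F.left.sq) (Subgroup.mem_sup_left (uu_mem_RS hd F.left (InL.refl F.left.tame))))
    exact le_of_eq (congrArg LinearMap.range (dev_uu F.left.sq)).symm
  · refine le_trans ?_ (le_iSup₂ (uu x F.right.sq) (Subgroup.mem_sup_right (uu_mem_RS hd F.right (InL.refl F.right.tame))))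
    exact le_of_eq (congrArg LinearMap.range (dev_uu F.right.sq)).symm

theorem invol_spec (hd : Deg G d) :
    (∃! i : GL', i ∈ RS G a F.left.sq ⊔ RS G x F.right.sq ∧ i ≠ 1 ∧ i * i = 1 ∧
        (∀ u ∈ RS G a F.left.sq ⊔ RS G x F.right.sq, i * u = u * i) ∧
        (∀ m ∈ commutatorSubmodule (RS G a F.left.sq ⊔ RS G x F.right.sq), (i : M →ₗ[k] M) m = -m) ∧
        (∀ m ∈ fixedSubmodule (RS G a F.left.sq ⊔ RS G x F.right.sq), (i : M →ₗ[k] M) m = m)) ∧
      IsCompl (fixedSubmodule (RS G a F.left.sq ⊔ RS G x F.right.sq))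
        (commutatorSubmodule (RS G a F.left.sq ⊔ RS G x F.right.sq)) := by
  rw [F.fixed_eq hd, F.comm_eq hd]
  refine ⟨?_, F.compl⟩
  set i := F.swapper * F.swapper
  have hval : ((i : GL') : End') = 1 - (2 : k) • (a * x + x * a) := F.invol_val
  have split : ∀ m : M, ∃ p ∈ LinearMap.ker a ⊓ LinearMap.ker x,
      ∃ q ∈ LinearMap.range a ⊔ LinearMap.range x, m = p + q := fun m => by
    obtain ⟨p, hp, q, hq, e⟩ := Submodule.mem_sup.1
      (show m ∈ (LinearMap.ker a ⊓ LinearMap.ker x) ⊔ (LinearMap.range a ⊔ LinearMap.range x) by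
        rw [F.compl.sup_eq_top]; trivial)
    exact ⟨p, hp, q, hq, e.symm⟩
  have hsq : i * i = 1 := Units.ext (LinearMap.ext fun m => by
    obtain ⟨p, hp, q, hq, rfl⟩ := split m
    rw [Units.val_mul, Module.End.mul_apply, map_add, F.invol_pos hp, F.invol_neg hq, map_add, map_neg,
      F.invol_pos hp, F.invol_neg hq, neg_neg]
    rfl)
  have hne : i ≠ 1 := fun e => by
    have h0 := congrArg (fun u : GL' => (a * ((u : GL') : End')) * 1) e
    simp only [hval, Units.val_one, mul_one, mul_sub, mul_smul_comm, mul_add, ← mul_assoc, F.left.sq, zero_mul,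
      zero_add, F.axa, sub_eq_self, smul_eq_zero] at h0
    exact root_ne_zero hd F.left (h0.resolve_left hd.two)
  have hcomm : ∀ u ∈ RS G a F.left.sq ⊔ RS G x F.right.sq, i * u = u * i := by
    intro u hu
    have hle : RS G a F.left.sq ⊔ RS G x F.right.sq ≤ Subgroup.centralizer {i} := by
      refine sup_le (fun v hv => ?_) (fun v hv => ?_)
      · rw [Subgroup.mem_centralizer_singleton_iff]
        have hy := (mem_RS hd F.left).1 hv
        refine (comm_iff.2 ?_).symm
        rw [show dev i = -((2 : k) • (a * x + x * a)) by rw [dev, hval]; abel]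
        simp only [neg_mul, mul_neg, mul_smul_comm, smul_mul_assoc, add_mul, mul_add, F.lmul hy, mul_assoc x,
          F.a_mul hy, mul_zero, add_zero, ← mul_assoc, F.mul_a hy, zero_mul, zero_add, F.rmul hy]
      · rw [Subgroup.mem_centralizer_singleton_iff]
        have hy := (mem_RS hd F.right).1 hv
        refine (comm_iff.2 ?_).symm
        rw [show dev i = -((2 : k) • (a * x + x * a)) by rw [dev, hval]; abel]
        simp only [neg_mul, mul_neg, mul_smul_comm, smul_mul_assoc, add_mul, mul_add, F.symm.lmul hy,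
          mul_assoc a, F.symm.a_mul hy, mul_zero, add_zero, ← mul_assoc, F.symm.mul_a hy, zero_mul, zero_add,
          F.symm.rmul hy]
    exact (Subgroup.mem_centralizer_singleton_iff.1 (hle hu)).symm
  refine ⟨i, ⟨mul_mem (F.swapper_mem hd) (F.swapper_mem hd), hne, hsq, hcomm, fun m hm => F.invol_neg hm,
    fun m hm => F.invol_pos hm⟩, ?_⟩
  rintro j ⟨-, -, -, -, hj1, hj2⟩
  refine Units.ext (LinearMap.ext fun m => ?_)
  obtain ⟨p, hp, q, hq, rfl⟩ := split m
  rw [map_add, map_add, hj2 p hp, hj1 q hq, F.invol_pos hp, F.invol_neg hq]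

end Frame

end Cfsg.Agent.QPair
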