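import Cfsg.Agent.QPair.Basic

/-! A pair of roots with nilpotent product has all products of length three equal to zero. -/

set_option autoImplicit false

namespace Cfsg.Agent.QPair

variable {k : Type*} [Field k] {M : Type*} [AddCommGroup M] [Module k M]

local notation "GL'" => LinearMap.GeneralLinearGroup k M
local notation "End'" => Module.End k M

variable {G : Subgroup (LinearMap.GeneralLinearGroup k M)} {a b : Module.End k M}

/-- value of a word -/
def wev (a b : End') : List Bool → End'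
  | [] => 1
  | s :: l => (if s then a else b) * wev a b l

theorem wev_append (l l' : List Bool) : wev a b (l ++ l') = wev a b l * wev a b l' := by
  induction l with
  | nil => simp [wev]
  | cons s l ih => simp [wev, ih, mul_assoc]

/-- the span of the words of length at least `n` -/
def Fl (a b : End') (n : ℕ) : Submodule k End' :=
  Submodule.span k {x | ∃ l : List Bool, n ≤ l.length ∧ wev a b l = x}

theorem Fl_mono {n m : ℕ} (h : n ≤ m) : Fl a b m ≤ Fl a b n :=
  Submodule.span_mono fun _ ⟨l, hl, e⟩ => ⟨l, h.trans hl, e⟩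

theorem wev_mem (l : List Bool) {n : ℕ} (h : n ≤ l.length) : wev a b l ∈ Fl a b n :=
  Submodule.subset_span ⟨l, h, rfl⟩

theorem Fl_mul {n m : ℕ} {x y : End'} (hx : x ∈ Fl a b n) (hy : y ∈ Fl a b m) :
    x * y ∈ Fl a b (n + m) := by
  induction hx using Submodule.span_induction with
  | zero => rw [zero_mul]; exact zero_mem _
  | add u v _ _ hu hv => rw [add_mul]; exact add_mem hu hv
  | smul c u _ hu => rw [smul_mul_assoc]; exact Submodule.smul_mem _ c hu
  | mem u hu =>
    obtain ⟨l, hl, rfl⟩ := hu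
    induction hy using Submodule.span_induction with
    | zero => rw [mul_zero]; exact zero_mem _
    | add u v _ _ hu hv => rw [mul_add]; exact add_mem hu hv
    | smul c u _ hu => rw [mul_smul_comm]; exact Submodule.smul_mem _ c hu
    | mem v hv =>
      obtain ⟨l', hl', rfl⟩ := hv
      rw [← wev_append]
      exact wev_mem _ (by simp; omega)

theorem a_mem : a ∈ Fl a b 1 := by
  simpa [wev] using (wev_mem (a := a) (b := b) [true] (n := 1) le_rfl)

theorem b_mem : b ∈ Fl a b 1 := by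
  simpa [wev] using (wev_mem (a := a) (b := b) [false] (n := 1) le_rfl)

theorem mem_mul {n m r : ℕ} {x y : End'} (hx : x ∈ Fl a b n) (hy : y ∈ Fl a b m) (h : r ≤ n + m) :
    x * y ∈ Fl a b r := Fl_mono h (Fl_mul hx hy)

/-- the alternating product of length `n` beginning with the first letter -/
def alt : End' → End' → ℕ → End'
  | _, _, 0 => 1
  | a, b, n + 1 => a * alt b a n

theorem alt_two (n : ℕ) : alt a b (2 * n) = (a * b) ^ n := by
  induction n with
  | zero => rfl
  | succ n ih => rw [Nat.mul_succ, alt, alt, ih, pow_succ', mul_assoc]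

theorem alt_odd (n : ℕ) : alt a b (2 * n + 1) = (a * b) ^ n * a := by
  induction n with
  | zero => simp [alt]
  | succ n ih => rw [Nat.mul_succ, alt, alt, ih, pow_succ' (a * b) n]; simp only [mul_assoc]

theorem alt_add {a b : End'} : ∀ n m : ℕ, alt a b (n + m) =
    alt a b n * (if n % 2 = 0 then alt a b m else alt b a m) := by
  intro n
  induction n generalizing a b with
  | zero => intro m; simp [alt]
  | succ n ih =>
    intro m
    rw [show n + 1 + m = n + m + 1 by omega, alt, ih, alt, mul_assoc]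
    rcases Nat.mod_two_eq_zero_or_one n with h | h <;> simp [h, Nat.add_mod]

theorem wev_cases (ha : a * a = 0) (hb : b * b = 0) : ∀ l : List Bool,
    wev a b l = 0 ∨ wev a b l = alt a b l.length ∨ wev a b l = alt b a l.length := by
  intro l
  induction l with
  | nil => exact Or.inr (Or.inl rfl)
  | cons s l ih =>
    rcases ih with h | h | h
    · exact Or.inl (by simp [wev, h])
    all_goals
      cases s <;> simp only [wev, h, List.length_cons, if_true, Bool.false_eq_true, if_false]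
    all_goals rcases Nat.eq_zero_or_pos l.length with e | e
    all_goals first
      | (simp [e, alt]; done)
      | (obtain ⟨m, hm⟩ : ∃ m, l.length = m + 1 := ⟨l.length - 1, by omega⟩
         simp [hm, alt, ← mul_assoc, ha, hb]; done)
      | exact Or.inr (Or.inl rfl)
      | exact Or.inr (Or.inr rfl)

theorem Fl_eq_bot (ha : a * a = 0) (hb : b * b = 0) {n : ℕ} (h1 : alt a b n = 0) (h2 : alt b a n = 0) :
    Fl a b n = ⊥ := by
  rw [Fl, Submodule.span_eq_bot]
  rintro _ ⟨l, hl, rfl⟩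
  obtain ⟨m, hm⟩ : ∃ m, l.length = n + m := ⟨l.length - n, by omega⟩
  rcases wev_cases ha hb l with h | h | h <;> rw [h]
  · rw [hm, alt_add, h1, zero_mul]
  · rw [hm, alt_add, h2, zero_mul]

theorem Fl_even (ha : a * a = 0) (hb : b * b = 0) {n : ℕ} (hz : Fl a b (2 * n + 1) = ⊥) {x : End'}
    (hx : x ∈ Fl a b (2 * n)) : ∃ u v : k, x = u • (a * b) ^ n + v • (b * a) ^ n := by
  induction hx using Submodule.span_induction with
  | zero => exact ⟨0, 0, by simp⟩
  | add u v _ _ hu hv =>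
    obtain ⟨p, q, rfl⟩ := hu
    obtain ⟨p', q', rfl⟩ := hv
    exact ⟨p + p', q + q', by rw [add_smul, add_smul]; abel⟩
  | smul c u _ hu =>
    obtain ⟨p, q, rfl⟩ := hu
    exact ⟨c * p, c * q, by rw [smul_add, smul_smul, smul_smul]⟩
  | mem u hu =>
    obtain ⟨l, hl, rfl⟩ := hu
    rcases eq_or_lt_of_le hl with e | e
    · rcases wev_cases ha hb l with h | h | h <;> rw [h]
      · exact ⟨0, 0, by simp⟩
      · exact ⟨1, 0, by rw [← e, alt_two]; simp⟩
      · exact ⟨0, 1, by rw [← e, alt_two]; simp⟩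
    · have : wev a b l ∈ Fl a b (2 * n + 1) := wev_mem l e
      rw [hz, Submodule.mem_bot] at this
      exact ⟨0, 0, by simp [this]⟩

theorem inG_inverse_pair {c : k} (ha : Tame G a) :
    InG G (1 + c • a) ∧ InG G (1 - c • a) ∧ (1 + c • a) * (1 - c • a) = (1 : End') :=
  ⟨ha.2 c, by simpa [sub_eq_add_neg, ← neg_smul] using ha.2 (-c),
    one_add_mul_one_sub (ha.smul c).1⟩

/-- commutator of `1 + a` with `1 + Y` -/
theorem comm_step (ha : a * a = 0) {Y Y' : End'} (hYY : (1 + Y) * (1 + Y') = 1) :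
    (1 + a) * (1 + Y) * (1 - a) * (1 + Y') = 1 + ((a * Y - Y * a) - a * Y * a) * (1 + Y') := by
  have h1 : (1 + a) * (1 + Y) * (1 - a) = (1 + Y) + ((a * Y - Y * a) - a * Y * a) := by
    simp only [add_mul, mul_add, mul_sub, one_mul, mul_one, ha]
    abel
  rw [h1, add_mul, hYY]

/-- a group element `1 + Y` and its inverse, both deep in the filtration -/
structure Deep (G : Subgroup GL') (a b : End') (i : ℕ) (Y Y' : End') : Prop where
  g : InG G (1 + Y)
  g' : InG G (1 + Y')
  mul : (1 + Y) * (1 + Y') = 1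
  mul' : (1 + Y') * (1 + Y) = 1
  mem : Y ∈ Fl a b i
  mem' : Y' ∈ Fl a b i

theorem comm_next {c Y Y' : End'} {i : ℕ} (hc : Tame G c) (hcm : c ∈ Fl a b 1) (hi : 1 ≤ i)
    (h : Deep G a b i Y Y') :
    ∃ Z Z' : End', Deep G a b (i + 1) Z Z' ∧ Z - (c * Y - Y * c) ∈ Fl a b (i + 2) := by
  obtain ⟨p1, p2, -⟩ := inG_inverse_pair (c := (1 : k)) hc
  rw [one_smul] at p1 p2
  have hW : c * Y - Y * c ∈ Fl a b (i + 1) :=
    sub_mem (mem_mul hcm h.mem (by omega)) (mem_mul h.mem hcm (by omega))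
  have hcc : c * Y * c ∈ Fl a b (i + 2) := mem_mul (Fl_mul hcm h.mem) hcm (by omega)
  have hV : Y * c + c * Y' + Y * c * Y' ∈ Fl a b (i + 1) :=
    add_mem (add_mem (mem_mul h.mem hcm (by omega)) (mem_mul hcm h.mem' (by omega)))
      (mem_mul (Fl_mul h.mem hcm) h.mem' (by omega))
  set Z := ((c * Y - Y * c) - c * Y * c) * (1 + Y') with hZ
  set Z' := (Y * c + c * Y' + Y * c * Y') * (1 - c) with hZ'
  have e1 : 1 + Z = (1 + c) * (1 + Y) * (1 - c) * (1 + Y') := (comm_step hc.1 h.mul).symm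
  have e2 : 1 + Z' = (1 + Y) * (1 + c) * (1 + Y') * (1 - c) := by
    have e3 : (1 + Y) * (1 + c) * (1 + Y') =
        (1 + Y) * (1 + Y') + c + (Y * c + c * Y' + Y * c * Y') := by
      simp only [add_mul, mul_add, one_mul, mul_one]; abel
    rw [e3, h.mul, add_mul (1 + c), one_add_mul_one_sub hc.1, hZ']
  refine ⟨Z, Z', ⟨?_, ?_, ?_, ?_, ?_, ?_⟩, ?_⟩
  · rw [e1]; exact ((p1.mul h.g).mul p2).mul h.g'
  · rw [e2]; exact ((h.g.mul p1).mul h.g').mul p2
  · rw [e1, e2]
    calc (1 + c) * (1 + Y) * (1 - c) * (1 + Y') * ((1 + Y) * (1 + c) * (1 + Y') * (1 - c))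
        = (1 + c) * (1 + Y) * ((1 - c) * ((1 + Y') * (1 + Y)) * (1 + c)) * (1 + Y') * (1 - c) := by
          simp only [mul_assoc]
      _ = (1 + c) * ((1 + Y) * (1 + Y')) * (1 - c) := by
          rw [h.mul', mul_one, one_sub_mul_one_add hc.1, mul_one]; simp only [mul_assoc]
      _ = 1 := by rw [h.mul, mul_one, one_add_mul_one_sub hc.1]
  · rw [e1, e2]
    calc (1 + Y) * (1 + c) * (1 + Y') * (1 - c) * ((1 + c) * (1 + Y) * (1 - c) * (1 + Y'))
        = (1 + Y) * (1 + c) * ((1 + Y') * ((1 - c) * (1 + c)) * (1 + Y)) * (1 - c) * (1 + Y') := by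
          simp only [mul_assoc]
      _ = (1 + Y) * ((1 + c) * (1 - c)) * (1 + Y') := by
          rw [one_sub_mul_one_add hc.1, mul_one, h.mul', mul_one]; simp only [mul_assoc]
      _ = 1 := by rw [one_add_mul_one_sub hc.1, mul_one, h.mul]
  · rw [hZ, mul_add, mul_one]
    have h1 := sub_mem hW (Fl_mono (by omega) hcc : c * Y * c ∈ Fl a b (i + 1))
    exact add_mem h1 (mem_mul h1 h.mem' (by omega))
  · rw [hZ', mul_sub, mul_one]
    exact sub_mem hV (mem_mul hV hcm (by omega))
  · have h1 := sub_mem hW (Fl_mono (by omega) hcc : c * Y * c ∈ Fl a b (i + 1))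
    rw [show Z - (c * Y - Y * c) = -(c * Y * c) + (c * Y - Y * c - c * Y * c) * Y' by
      rw [hZ, mul_add, mul_one]; abel]
    exact add_mem (neg_mem hcc) (mem_mul h1 h.mem' (by omega))

theorem swap_pow (x y : End') : ∀ j : ℕ, x * (y * x) ^ j = (x * y) ^ j * x := by
  intro j
  induction j with
  | zero => simp
  | succ j ih => rw [pow_succ, pow_succ, ← mul_assoc, ih]; simp only [mul_assoc]

theorem lead_a {j : ℕ} (hj : 1 ≤ j) (ha : a * a = 0) {Y r : End'} {s : k}
    (hY : Y = s • ((b * a) ^ j - (a * b) ^ j) + r) :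
    a * Y - Y * a = (2 * s) • ((a * b) ^ j * a) + (a * r - r * a) := by
  obtain ⟨i, rfl⟩ : ∃ i, j = i + 1 := ⟨j - 1, by omega⟩
  have h1 : a * (a * b) ^ (i + 1) = 0 := by rw [pow_succ', ← mul_assoc, ← mul_assoc, ha]; simp
  have h2 : (b * a) ^ (i + 1) * a = 0 := by rw [pow_succ, mul_assoc, mul_assoc, ha]; simp
  rw [hY, mul_add, add_mul, mul_smul_comm, smul_mul_assoc, mul_sub, sub_mul, swap_pow, h1, h2,
    two_mul, add_smul]
  simp only [sub_zero, zero_sub, smul_neg]
  abel

/-- iterated commutators -/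
theorem comm_iter (ha : Tame G a) (hb : Tame G b) (h2 : (2 : k) ≠ 0) : ∀ j : ℕ, 1 ≤ j →
    ∃ (Y Y' : End') (s : k), s ≠ 0 ∧ Deep G a b (2 * j) Y Y' ∧
      Y - s • ((b * a) ^ j - (a * b) ^ j) ∈ Fl a b (2 * j + 1) := by
  intro j hj
  induction j, hj using Nat.le_induction with
  | base =>
    obtain ⟨Z, Z', h1, h2'⟩ := comm_next hb b_mem le_rfl (Y := a) (Y' := -a)
      ⟨ha.inG, ha.neg.inG, by rw [← sub_eq_add_neg]; exact one_add_mul_one_sub ha.1,
        by rw [← sub_eq_add_neg]; exact one_sub_mul_one_add ha.1, a_mem, neg_mem a_mem⟩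
    exact ⟨Z, Z', 1, one_ne_zero, h1, by simpa using h2'⟩
  | succ j hj ih =>
    obtain ⟨Y, Y', s, hs, hd, hlead⟩ := ih
    obtain ⟨Z, Z', hz, hzl⟩ := comm_next ha a_mem (by omega) hd
    obtain ⟨W, W', hw, hwl⟩ := comm_next hb b_mem (by omega) hz
    refine ⟨W, W', 2 * s, mul_ne_zero h2 hs, hw, ?_⟩
    set r := Y - s • ((b * a) ^ j - (a * b) ^ j) with hr
    have hlA := lead_a hj ha.1 (r := r) (by rw [hr]; abel : Y = s • ((b * a) ^ j - (a * b) ^ j) + r)
    set q := Z - (2 * s) • ((a * b) ^ j * a) with hq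
    have hqm : q ∈ Fl a b (2 * j + 2) := by
      rw [show q = (Z - (a * Y - Y * a)) + (a * r - r * a) by rw [hq, hlA]; abel]
      exact add_mem hzl (sub_mem (mem_mul a_mem hlead (by omega)) (mem_mul hlead a_mem (by omega)))
    have hp1 : b * ((a * b) ^ j * a) = (b * a) ^ (j + 1) := by
      rw [← mul_assoc, swap_pow, pow_succ (b * a) j, mul_assoc]
    have hp2 : (a * b) ^ j * a * b = (a * b) ^ (j + 1) := by rw [pow_succ (a * b) j, mul_assoc]
    rw [show W - (2 * s) • ((b * a) ^ (j + 1) - (a * b) ^ (j + 1)) =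
        (W - (b * Z - Z * b)) + (b * q - q * b) by
      rw [hq, mul_sub b Z, sub_mul Z, mul_smul_comm, smul_mul_assoc, hp1, hp2, smul_sub]; abel]
    exact add_mem (Fl_mono (by omega) hwl)
      (sub_mem (mem_mul b_mem hqm (by omega)) (mem_mul hqm b_mem (by omega)))

variable [FiniteDimensional k M] {d : ℕ}

theorem rank_lt_of_nilpotent (hd : Deg G d) (ha : Root G d a) (h : IsNilpotent (a * b)) {n : ℕ}
    (hn : 1 ≤ n) : rk ((a * b) ^ n * a) < d := by
  refine lt_of_le_of_ne ((rk_mul_le_right _ _).trans ha.rank.le) fun e => ?_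
  obtain ⟨m, hm⟩ := h
  set S := LinearMap.range a with hS
  have hr : (LinearMap.range ((a * b) ^ n * a)) = S := by
    refine Submodule.eq_of_le_of_finrank_le ?_ (ha.rank.trans e.symm).le
    obtain ⟨i, rfl⟩ : ∃ i, n = i + 1 := ⟨n - 1, by omega⟩
    rw [pow_succ', show a * b * (a * b) ^ i * a = a * (b * ((a * b) ^ i * a)) by simp only [mul_assoc]]
    exact LinearMap.range_comp_le_range _ a
  have hmap : S.map ((a * b) ^ n) = S := by
    conv_rhs => rw [← hr]
    exact (LinearMap.range_comp a ((a * b) ^ n)).symm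
  have : ∀ i : ℕ, S.map (((a * b) ^ n) ^ i) = S := by
    intro i
    induction i with
    | zero => simp [Module.End.one_eq_id]
    | succ i ih => rw [pow_succ, Module.End.mul_eq_comp, Submodule.map_comp, hmap, ih]
  have h0 := this m
  rw [← pow_mul, mul_comm, pow_mul, hm, zero_pow (by omega), Submodule.map_zero] at h0
  have := ha.rank
  rw [rk, ← hS, ← h0, finrank_bot] at this
  exact hd.pos.ne this

theorem swap_nilpotent (h : IsNilpotent (a * b)) : IsNilpotent (b * a) := by
  obtain ⟨m, hm⟩ := h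
  refine ⟨m + 1, ?_⟩
  have : ∀ i : ℕ, (b * a) ^ (i + 1) = b * (a * b) ^ i * a := by
    intro i
    induction i with
    | zero => simp
    | succ i ih => rw [pow_succ, ih, pow_succ (a * b) i]; simp only [mul_assoc]
  rw [this m, hm]; simp

/-- A non-zero top odd term contradicts minimality. -/
theorem top_term_zero (hd : Deg G d) (ha : Root G d a) (hb : Root G d b) (hn : IsNilpotent (a * b)) {n : ℕ}
    (hn2 : 2 ≤ n) (h1 : (a * b) ^ n * a = 0) (h2 : (b * a) ^ n * b = 0) : (a * b) ^ (n - 1) * a = 0 := by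
  obtain ⟨j, rfl⟩ : ∃ j, n = j + 1 := ⟨n - 1, by omega⟩
  rw [Nat.add_sub_cancel]
  set A := (a * b) ^ j * a with hA
  have hbot : Fl a b (2 * (j + 1) + 1) = ⊥ := Fl_eq_bot ha.sq hb.sq (by rw [alt_odd, h1]) (by rw [alt_odd, h2])
  obtain ⟨Y, Y', s, hs, ⟨g1, g2, g3, g4, hY, hY'⟩, hlead⟩ := comm_iter ha.tame hb.tame hd.two j (by omega)
  set r := Y - s • ((b * a) ^ j - (a * b) ^ j) with hr
  have hY0 : Y = s • ((b * a) ^ j - (a * b) ^ j) + r := by rw [hr]; abel
  have hz : ∀ {x : End'}, x ∈ Fl a b (2 * (j + 1) + 1) → x = 0 := fun hx => by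
    rwa [hbot, Submodule.mem_bot] at hx
  obtain ⟨i, rfl⟩ : ∃ i, j = i + 1 := ⟨j - 1, by omega⟩
  have hswap : a * (b * a) ^ (i + 1) = (a * b) ^ (i + 1) * a := swap_pow a b _
  have hz1 : a * (a * b) ^ (i + 1) = 0 := by rw [pow_succ', ← mul_assoc, ← mul_assoc, ha.sq]; simp
  have hz2 : (b * a) ^ (i + 1) * a = 0 := by rw [pow_succ, mul_assoc, mul_assoc, ha.sq]; simp
  have haYa : a * Y * a = 0 := by
    have e : a * r * a = 0 := hz (mem_mul (Fl_mul a_mem hlead) a_mem (by omega))
    rw [hY0, mul_add, add_mul, e, mul_smul_comm, smul_mul_assoc, mul_sub, sub_mul, hswap, hz1,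
      mul_assoc ((a * b) ^ (i + 1)), ha.sq]
    simp
  set X := a * Y - Y * a with hX
  have hXm : X ∈ Fl a b (2 * (i + 1) + 1) :=
    sub_mem (mem_mul a_mem hY (by omega)) (mem_mul hY a_mem (by omega))
  have hT : Tame G X := by
    refine ⟨hz (mem_mul hXm hXm (by omega)), fun c => ?_⟩
    obtain ⟨p1, p2, -⟩ := inG_inverse_pair (c := c) ha.tame
    have he : (1 + c • a) * (1 + Y) * (1 - c • a) * (1 + Y') = 1 + c • X := by
      rw [comm_step (ha.tame.smul c).1 g3]
      have e0 : (c • a) * Y * (c • a) = 0 := by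
        rw [smul_mul_assoc, smul_mul_assoc, mul_smul_comm, haYa, smul_zero, smul_zero]
      rw [e0, sub_zero, smul_mul_assoc, mul_smul_comm, ← smul_sub, ← hX, mul_add, mul_one, smul_mul_assoc,
        hz (mem_mul hXm hY' (by omega)), smul_zero, add_zero]
    rw [← he]
    exact ((p1.mul g1).mul p2).mul g2
  have hXA : X - (2 * s) • A ∈ Fl a b (2 * (i + 1 + 1)) := by
    rw [hX, lead_a (by omega) ha.sq hY0, ← hA, add_sub_cancel_left]
    exact sub_mem (mem_mul a_mem hlead (by omega)) (mem_mul hlead a_mem (by omega))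
  obtain ⟨u, v, huv⟩ := Fl_even ha.sq hb.sq hbot hXA
  have hAb : (a * b) ^ (i + 1 + 1) = A * b := by rw [pow_succ, hA, mul_assoc]
  have hbA : (b * a) ^ (i + 1 + 1) = b * A := by
    rw [hA, ← hswap, ← mul_assoc, ← pow_succ']
  have hbAb : b * A * b = 0 := by rw [← hbA, h2]
  obtain ⟨c, hc⟩ : ∃ c : k, c = (2 * s)⁻¹ := ⟨_, rfl⟩
  have h2s : (2 * s) ≠ 0 := mul_ne_zero hd.two hs
  have hfact : X = (1 + (c * v) • b) * ((2 * s) • A) * (1 + (c * u) • b) := by
    have e1 : X = (2 * s) • A + (u • (A * b) + v • (b * A)) := by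
      rw [← hAb, ← hbA, ← huv]; abel
    have e2 : ∀ w : k, 2 * s * (c * w) = w := fun w => by rw [hc, ← mul_assoc, mul_inv_cancel₀ h2s, one_mul]
    have e3 : ∀ w : k, c * w * (2 * s) = w := fun w => by rw [mul_comm, e2]
    rw [e1]
    simp only [add_mul, mul_add, one_mul, mul_one, smul_mul_assoc, mul_smul_comm, smul_smul, smul_add, hbAb,
      smul_zero, add_zero, e2, e3]
    abel
  have hX0 : X = 0 := by
    refine hd.min X hT (lt_of_le_of_lt ?_ (rank_lt_of_nilpotent hd ha hn (n := i + 1) (by omega)))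
    rw [hfact]
    refine ((rk_mul_le_left _ _).trans (rk_mul_le_right _ _)).trans ?_
    rw [show (2 * s) • A = ((2 * s) • (1 : End')) * A by rw [smul_mul_assoc, one_mul]]
    exact rk_mul_le_right _ _
  rw [hX0] at hfact
  have := congrArg (fun w => (1 - (c * v) • b) * w * (1 - (c * u) • b)) hfact
  simp only [mul_zero, zero_mul] at this
  rw [show (1 - (c * v) • b) * ((1 + (c * v) • b) * ((2 * s) • A) * (1 + (c * u) • b)) * (1 - (c * u) • b)
    = ((1 - (c * v) • b) * (1 + (c * v) • b)) * ((2 * s) • A) * ((1 + (c * u) • b) * (1 - (c * u) • b)) by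
      simp only [mul_assoc], one_sub_mul_one_add (hb.tame.smul _).1, one_add_mul_one_sub (hb.tame.smul _).1,
    one_mul, mul_one] at this
  exact (smul_eq_zero.1 this.symm).resolve_left h2s

/-- Two roots with nilpotent product. -/
theorem nil_pair (hd : Deg G d) (ha : Root G d a) (hb : Root G d b) (hn : IsNilpotent (a * b)) :
    a * b * a = 0 ∧ b * a * b = 0 := by
  have hn' := swap_nilpotent hn
  obtain ⟨m, hm⟩ := hn
  obtain ⟨m', hm'⟩ := hn'
  have key : ∀ N, ∀ n, n ≤ N → 1 ≤ n → (a * b) ^ n * a = 0 → (b * a) ^ n * b = 0 →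
      a * b * a = 0 ∧ b * a * b = 0 := by
    intro N
    induction N with
    | zero => intro n h1 h2; omega
    | succ N ih =>
      intro n hnN hn1 e1 e2
      rcases eq_or_lt_of_le hn1 with rfl | h2
      · exact ⟨by simpa using e1, by simpa using e2⟩
      · exact ih (n - 1) (by omega) (by omega) (top_term_zero hd ha hb ⟨m, hm⟩ h2 e1 e2)
          (top_term_zero hd hb ha ⟨m', hm'⟩ h2 e2 e1)
  refine key _ (m + m' + 1) le_rfl (by omega) ?_ ?_
  · rw [show m + m' + 1 = m + (m' + 1) by omega, pow_add, hm]; simp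
  · rw [show m + m' + 1 = m' + (m + 1) by omega, pow_add, hm']; simp

end Cfsg.Agent.QPair
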