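import Cfsg.Agent.QPair.Sigma

/-! The `SL₂` subpairs of rank one pairs. -/

set_option autoImplicit false
set_option linter.style.haveILetI false

universe u v

namespace Cfsg.Agent.QPair

open Cfsg Cfsg.Agent.Quad SL2Ring Polynomial

theorem psl_subpair {k : Type u} [Field k] {M : Type v} [AddCommGroup M] [Module k M] [FiniteDimensional k M]
    {G : Subgroup (LinearMap.GeneralLinearGroup k M)} {d : ℕ} (hs : Std G d)
    {A B : Subgroup (LinearMap.GeneralLinearGroup k M)} (hA : A ∈ quadraticRootSubgroups G)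
    (hB : B ∈ quadraticRootSubgroups G) (h : IsRankOnePair A B) :
    ∃ A₀ B₀ : Subgroup (LinearMap.GeneralLinearGroup k M), A₀ ≤ A ∧ B₀ ≤ B ∧
      ∃ (k₁ : Type u) (_ : Field k₁), 3 < ENat.card k₁ ∧ Cfsg.IsPSL2PairOver k₁ A₀ B₀ := by
  have hd := hs.deg
  obtain ⟨a, ha, rfl⟩ := exists_root hs hA
  obtain ⟨b, hb, rfl⟩ := exists_root hs hB
  obtain ⟨x, f, L⟩ := exists_link hd ha hb ((rankOne_iff hd ha hb).1 h)
  haveI := Fact.mk L.irr
  refine ⟨(upperUnipotentSL2 (AdjoinRoot f)).map L.Phi, (lowerUnipotentSL2 (AdjoinRoot f)).map L.Phi, ?_, ?_,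
    AdjoinRoot f, inferInstance, ?_, L.Phi, ?_, ?_, rfl, rfl⟩
  · rw [upperUnipotentSL2, MonoidHom.map_closure, Subgroup.closure_le]
    rintro _ ⟨g, ⟨h1, h2, h3⟩, rfl⟩
    rw [show g = uR (g 0 1) from ext2 (by simpa using h2) (by simp) (by simpa using h1) (by simpa using h3)]
    rw [SetLike.mem_coe, mem_RS hd ha, show dev (L.Phi (uR (g 0 1))) = rho a b x f (g 0 1) * a by
      rw [dev, Link.Phi_val, L.phi_uR, add_sub_cancel_left]]
    obtain ⟨y, hy, -, e⟩ := L.rho_form (g 0 1)
    rw [e]; exact hy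
  · rw [lowerUnipotentSL2, MonoidHom.map_closure, Subgroup.closure_le]
    rintro _ ⟨g, ⟨h1, h2, h3⟩, rfl⟩
    rw [show g = lR (g 1 0) from ext2 (by simpa using h2) (by simpa using h1) (by simp) (by simpa using h3)]
    rw [SetLike.mem_coe, mem_RS hd hb, show dev (L.Phi (lR (g 1 0))) = x * rho a b x f (g 1 0) by
      rw [dev, Link.Phi_val, L.phi_lR, add_sub_cancel_left]]
    exact L.lower_mem _
  · have hinj : ENat.card k ≤ ENat.card (AdjoinRoot f) :=
      ENat.card_le_card_of_injective (algebraMap k (AdjoinRoot f)).injective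
    refine lt_of_lt_of_le ?_ hinj
    rcases finite_or_infinite k with hk | hk
    · letI : Fintype k := Fintype.ofFinite k
      rw [ENat.card_eq_coe_fintype_card]
      have := five_le hd.two hd.three
      exact_mod_cast (by omega : 3 < Fintype.card k)
    · rw [ENat.card_eq_top_of_infinite]; exact ENat.natCast_lt_top 3
  · rw [MonoidHom.range_eq_map, ← Subgroup.map_sup]
    congr 1
    symm
    refine top_of_elementary (fun z => Subgroup.mem_sup_left (Subgroup.subset_closure ⟨rfl, rfl, rfl⟩))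
      (fun z => Subgroup.mem_sup_right (Subgroup.subset_closure ⟨rfl, rfl, rfl⟩))
  · rw [(MonoidHom.ker_eq_bot_iff _).2 L.Phi_injective]; exact bot_le

end Cfsg.Agent.QPair
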