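import Cfsg.Agent.QPair.Dich

/-! A pair of roots with nilpotent product. -/

set_option autoImplicit false

namespace Cfsg.Agent.QPair

variable {k : Type*} [Field k] {M : Type*} [AddCommGroup M] [Module k M]

local notation "GL'" => LinearMap.GeneralLinearGroup k M
local notation "End'" => Module.End k M

variable {G : Subgroup (LinearMap.GeneralLinearGroup k M)} {a b a' a'' b' x y w : Module.End k M} {d : ℕ}

theorem mul_zero_left (h : LinearMap.ker y ≤ LinearMap.ker x) (e : y * w = 0) : x * w = 0 :=
  mul_eq_zero_iff.2 ((mul_eq_zero_iff.1 e).trans h)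

theorem mul_zero_right (h : LinearMap.range x ≤ LinearMap.range y) (e : w * y = 0) : w * x = 0 :=
  mul_eq_zero_iff.2 (h.trans (mul_eq_zero_iff.1 e))

/-- the commutator -/
def zz (a b : End') : End' := a * b - b * a

theorem zz_swap : zz b a = -zz a b := by simp [zz]

theorem zz_eq_zero : zz a b = 0 ↔ a * b = b * a := sub_eq_zero

theorem aba_of_comm (ha : a * a = 0) (h : a * b = b * a) : a * b * a = 0 := by
  rw [h, mul_assoc, ha, mul_zero]

theorem tame_zz (ha : Tame G a) (hb : Tame G b) (h1 : a * b * a = 0) (h2 : b * a * b = 0) :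
    Tame G (zz a b) := by
  have hc := hb.conjBy ha
  rw [h1, sub_zero] at hc
  have e1 : (b + (a * b - b * a)) * -b = 0 := by
    rw [mul_neg, add_mul, sub_mul, hb.1, mul_assoc a, hb.1, mul_zero, h2]; simp
  have e2 : -b * (b + (a * b - b * a)) = 0 := by
    rw [neg_mul, mul_add, mul_sub, hb.1, ← mul_assoc, ← mul_assoc b b, hb.1, zero_mul, h2]; simp
  simpa [zz] using hc.add hb.neg e1 e2

theorem zz_mul_left (ha : a * a = 0) (h1 : a * b * a = 0) : a * zz a b = 0 := by
  rw [zz, mul_sub, ← mul_assoc, ha, zero_mul, ← mul_assoc, h1, sub_zero]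

theorem zz_mul_right (ha : a * a = 0) (h1 : a * b * a = 0) : zz a b * a = 0 := by
  rw [zz, sub_mul, h1, mul_assoc b, ha, mul_zero, sub_zero]

variable [FiniteDimensional k M]

theorem rk_mul_add (x y : End') :
    rk (x * y) + Module.finrank k ↥(LinearMap.range y ⊓ LinearMap.ker x) = rk y := by
  set p := LinearMap.range y with hp
  have h := LinearMap.finrank_range_add_finrank_ker (x.domRestrict p)
  have e1 : LinearMap.range (x.domRestrict p) = LinearMap.range (x * y) := by
    rw [LinearMap.range_domRestrict, hp, ← LinearMap.range_comp]; rfl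
  have e2 : Module.finrank k (LinearMap.ker (x.domRestrict p)) = Module.finrank k ↥(p ⊓ LinearMap.ker x) := by
    rw [← Submodule.map_comap_subtype p (LinearMap.ker x), LinearMap.ker_domRestrict]
    exact (Submodule.equivMapOfInjective _ p.injective_subtype _).finrank_eq
  rw [e1, e2] at h
  exact h

theorem bab_of_aba (hd : Deg G d) (ha : Root G d a) (hb : Root G d b) (h : a * b * a = 0) :
    b * a * b = 0 :=
  (nil_pair hd ha hb ⟨2, by rw [pow_two, ← mul_assoc, h, zero_mul]⟩).2

theorem zero_or_root (hd : Deg G d) (ha : Root G d a) (hx : InL G a x) : x = 0 ∨ Root G d x := by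
  by_cases h : x = 0
  · exact Or.inl h
  · exact Or.inr (hx.root hd ha h)

/-- the triple products -/
theorem nil_all (hd : Deg G d) (ha : Root G d a) (hb : Root G d b) (h : a * b * a = 0) (ha' : InL G a a')
    (ha'' : InL G a a'') (hb' : InL G b b') : a' * b' * a'' = 0 := by
  have h2 := bab_of_aba hd ha hb h
  have h3 : b' * a * b' = 0 := by
    refine mul_zero_right hb'.im ?_
    rw [mul_assoc] at h2 ⊢
    exact mul_zero_left hb'.ker h2
  have h4 : a * b' * a = 0 := by
    rcases zero_or_root hd hb hb' with rfl | hr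
    · simp
    · exact bab_of_aba hd hr ha h3
  refine mul_zero_right ha''.im ?_
  rw [mul_assoc] at h4 ⊢
  exact mul_zero_left ha'.ker h4

theorem nil_all' (hd : Deg G d) (ha : Root G d a) (hb : Root G d b) (h : a * b * a = 0) (ha' : InL G a a')
    {b'' : End'} (hb' : InL G b b') (hb'' : InL G b b'') : b' * a' * b'' = 0 :=
  nil_all hd hb ha (bab_of_aba hd ha hb h) hb' hb'' ha'

theorem range_mul_le (ha : Root G d a) (hd : Deg G d) (hb : Root G d b) (h : a * b * a = 0) :
    LinearMap.range (a * b) ≤ LinearMap.range a ⊓ LinearMap.ker b :=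
  le_inf (LinearMap.range_comp_le_range b a)
    (mul_eq_zero_iff.1 (by rw [← mul_assoc]; exact bab_of_aba hd ha hb h))

/-- data of a noncommuting nilpotent pair -/
structure NilData (a b : End') (d : ℕ) : Prop where
  sum : rk (a * b) + rk (b * a) = d
  ab : LinearMap.range (a * b) = LinearMap.range a ⊓ LinearMap.ker b
  ba : LinearMap.range (b * a) = LinearMap.range b ⊓ LinearMap.ker a
  disj : LinearMap.range (a * b) ⊓ LinearMap.range (b * a) = ⊥
  disj' : LinearMap.range a ⊓ LinearMap.range b = ⊥
  range : LinearMap.range (zz a b) = LinearMap.range (a * b) ⊔ LinearMap.range (b * a)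
  ker : LinearMap.ker (zz a b) = (LinearMap.ker b ⊔ LinearMap.range a) ⊓ (LinearMap.ker a ⊔ LinearMap.range b)

omit [FiniteDimensional k M] in
theorem zz_range_le (a b : End') :
    LinearMap.range (zz a b) ≤ LinearMap.range (a * b) ⊔ LinearMap.range (b * a) := by
  rintro _ ⟨m, rfl⟩
  rw [zz, LinearMap.sub_apply]
  exact sub_mem (Submodule.mem_sup_left (LinearMap.mem_range_self _ m))
    (Submodule.mem_sup_right (LinearMap.mem_range_self _ m))

theorem nil_bound (hd : Deg G d) (ha : Root G d a) (hb : Root G d b) (h : a * b * a = 0) :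
    rk (a * b) + rk (b * a) ≤ d := by
  have h1 := Submodule.finrank_mono (range_mul_le ha hd hb h)
  have h2 := rk_mul_add b a
  have hr := ha.rank
  simp only [rk] at h1 h2 hr ⊢
  omega

theorem rk_zz_le (hd : Deg G d) (ha : Root G d a) (hb : Root G d b) (h : a * b * a = 0) : rk (zz a b) ≤ d := by
  refine le_trans (Submodule.finrank_mono (zz_range_le a b)) ?_
  exact (Submodule.finrank_add_le_finrank_add_finrank _ _).trans (nil_bound hd ha hb h)

theorem root_zz (hd : Deg G d) (ha : Root G d a) (hb : Root G d b) (h : a * b * a = 0) (h0 : zz a b ≠ 0) :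
    Root G d (zz a b) := by
  have ht := tame_zz ha.tame hb.tame h (bab_of_aba hd ha hb h)
  exact ⟨ht, le_antisymm (rk_zz_le hd ha hb h) (by
    by_contra hlt
    exact h0 (hd.min _ ht (not_le.1 hlt)))⟩

theorem nilData (hd : Deg G d) (ha : Root G d a) (hb : Root G d b) (h : a * b * a = 0) (h0 : zz a b ≠ 0) :
    NilData a b d := by
  have h' := bab_of_aba hd ha hb h
  have hz := (root_zz hd ha hb h h0).rank
  have hle1 := range_mul_le ha hd hb h
  have hle2 := range_mul_le hb hd ha h'
  have e1 := rk_mul_add b a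
  have e2 := rk_mul_add a b
  have l1 := Submodule.finrank_mono hle1
  have l2 := Submodule.finrank_mono hle2
  have lz := Submodule.finrank_mono (zz_range_le a b)
  have ls := Submodule.finrank_sup_add_finrank_inf_eq (LinearMap.range (a * b)) (LinearMap.range (b * a))
  have ra := ha.rank
  have rb := hb.rank
  simp only [rk] at hz e1 e2 ra rb
  have hab : LinearMap.range (a * b) = LinearMap.range a ⊓ LinearMap.ker b :=
    Submodule.eq_of_le_of_finrank_le hle1 (by omega)
  have hba : LinearMap.range (b * a) = LinearMap.range b ⊓ LinearMap.ker a :=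
    Submodule.eq_of_le_of_finrank_le hle2 (by omega)
  have hdisj : LinearMap.range (a * b) ⊓ LinearMap.range (b * a) = ⊥ :=
    Submodule.finrank_eq_zero.1 (by omega)
  refine ⟨by simp only [rk]; omega, hab, hba, hdisj, ?_, ?_, ?_⟩
  · rw [eq_bot_iff, ← hdisj, hab, hba]
    exact le_inf (le_inf inf_le_left (inf_le_right.trans (range_le_ker hb.sq)))
      (le_inf inf_le_right (inf_le_left.trans (range_le_ker ha.sq)))
  · exact Submodule.eq_of_le_of_finrank_le (zz_range_le a b) (by omega)
  · have hker : ∀ {p q : End'}, p * q * p = 0 → q * q = 0 →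
        LinearMap.range (p * q) = LinearMap.range p ⊓ LinearMap.ker q → rk p = d → rk q = d →
        LinearMap.ker (p * q) = LinearMap.ker q ⊔ LinearMap.range p := by
      intro p q hpq hq heq rp rq
      have hle : LinearMap.ker q ⊔ LinearMap.range p ≤ LinearMap.ker (p * q) :=
        sup_le (LinearMap.ker_le_ker_comp q p) (mul_eq_zero_iff.1 hpq)
      refine (Submodule.eq_of_le_of_finrank_le hle ?_).symm
      have t1 := Submodule.finrank_sup_add_finrank_inf_eq (LinearMap.ker q) (LinearMap.range p)
      have t2 := LinearMap.finrank_range_add_finrank_ker (p * q)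
      have t3 := LinearMap.finrank_range_add_finrank_ker q
      rw [inf_comm, ← heq] at t1
      simp only [rk] at rp rq
      omega
    have k1 := hker h hb.sq hab ha.rank hb.rank
    have k2 := hker h' ha.sq hba hb.rank ha.rank
    rw [← k1, ← k2]
    refine le_antisymm (fun m hm => ?_) (fun m ⟨hm1, hm2⟩ => ?_)
    · rw [LinearMap.mem_ker, zz, LinearMap.sub_apply, sub_eq_zero] at hm
      have : (a * b) m ∈ LinearMap.range (a * b) ⊓ LinearMap.range (b * a) :=
        ⟨LinearMap.mem_range_self _ m, hm ▸ LinearMap.mem_range_self _ m⟩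
      rw [hdisj, Submodule.mem_bot] at this
      exact ⟨this, hm.symm.trans this⟩
    · rw [LinearMap.mem_ker, zz, LinearMap.sub_apply, LinearMap.mem_ker.1 hm1, LinearMap.mem_ker.1 hm2,
        sub_zero]

/-- all commutators lie in one line space -/
theorem zz_mem (hd : Deg G d) (ha : Root G d a) (hb : Root G d b) (h : a * b * a = 0) (h0 : zz a b ≠ 0)
    (ha' : InL G a a') (hb' : InL G b b') : InL G (zz a b) (zz a' b') := by
  have D := nilData hd ha hb h h0
  refine ⟨tame_zz ha'.tame hb'.tame (nil_all hd ha hb h ha' ha' hb') (nil_all' hd ha hb h ha' hb' hb'), ?_, ?_⟩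
  · rw [D.range, D.ab, D.ba]
    refine (zz_range_le a' b').trans (sup_le_sup (le_inf ?_ ?_) (le_inf ?_ ?_))
    · exact (LinearMap.range_comp_le_range b' a').trans ha'.im
    · exact mul_eq_zero_iff.1 (by rw [← mul_assoc]; exact nil_all' hd ha hb h ha' (InL.refl hb.tame) hb')
    · exact (LinearMap.range_comp_le_range a' b').trans hb'.im
    · exact mul_eq_zero_iff.1 (by rw [← mul_assoc]; exact nil_all hd ha hb h (InL.refl ha.tame) ha' hb')
  · rw [D.ker]
    intro m hm
    obtain ⟨hm1, hm2⟩ := hm
    have k1 : LinearMap.ker b ⊔ LinearMap.range a ≤ LinearMap.ker (a' * b') :=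
      sup_le (hb'.ker.trans (LinearMap.ker_le_ker_comp b' a'))
        (mul_eq_zero_iff.1 (nil_all hd ha hb h ha' (InL.refl ha.tame) hb'))
    have k2 : LinearMap.ker a ⊔ LinearMap.range b ≤ LinearMap.ker (b' * a') :=
      sup_le (ha'.ker.trans (LinearMap.ker_le_ker_comp a' b'))
        (mul_eq_zero_iff.1 (nil_all' hd ha hb h ha' hb' (InL.refl hb.tame)))
    rw [LinearMap.mem_ker, zz, LinearMap.sub_apply, LinearMap.mem_ker.1 (k1 hm1), LinearMap.mem_ker.1 (k2 hm2),
      sub_zero]

theorem comm_left (hd : Deg G d) (ha : Root G d a) (hb : Root G d b) (hc : a * b = b * a)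
    (ha' : InL G a a') : a' * b = b * a' := by
  rcases zero_or_root hd ha ha' with rfl | hr
  · simp
  by_contra hne
  have h0 : zz a' b ≠ 0 := fun e => hne (zz_eq_zero.1 e)
  have hn : a' * b * a' = 0 := nil_all hd ha hb (aba_of_comm ha.sq hc) ha' ha' (InL.refl hb.tame)
  have D := (nilData hd hr hb hn h0).disj'
  rw [ha'.range_eq hd ha (fun e => h0 (by rw [e, zz]; simp))] at D
  have hab : a * b = 0 := by
    rw [← LinearMap.range_eq_bot, eq_bot_iff, ← D]
    exact le_inf (LinearMap.range_comp_le_range b a) (hc ▸ LinearMap.range_comp_le_range a b)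
  exact hne (by rw [mul_zero_left ha'.ker hab, mul_zero_right ha'.im (hc ▸ hab)])

/-- one commuting pair forces all -/
theorem comm_all (hd : Deg G d) (ha : Root G d a) (hb : Root G d b) (hc : a * b = b * a)
    (ha' : InL G a a') (hb' : InL G b b') : a' * b' = b' * a' := by
  rcases zero_or_root hd ha ha' with rfl | hr
  · simp
  exact (comm_left hd hb hr (comm_left hd ha hb hc ha').symm hb').symm

theorem comm_of_mem (hd : Deg G d) (ha : Root G d a) (hb : Root G d b) (ha' : InL G a a') (hb' : InL G b b')
    (ha0 : a' ≠ 0) (hb0 : b' ≠ 0) (hc : a' * b' = b' * a') : a * b = b * a :=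
  comm_all hd (ha'.root hd ha ha0) (hb'.root hd hb hb0) hc (ha'.symm hd ha ha0) (hb'.symm hd hb hb0)

/-- normalising forces commuting -/
theorem comm_of_normalize (hd : Deg G d) (ha : Root G d a) (hb : Root G d b)
    (h : InL G b (b + (a * b - b * a) - a * b * a)) : a * b = b * a := by
  have hy := h.sub hb.sq (InL.refl hb.tame)
  have hyb := hy.mul_zero hb.sq (InL.refl hb.tame)
  have e : (b + (a * b - b * a) - a * b * a - b) * b = -((1 + a) * (b * a * b)) := by
    simp only [add_mul, sub_mul, one_mul, mul_assoc, hb.sq, mul_zero]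
    abel
  rw [e, neg_eq_zero] at hyb
  have h2 : b * a * b = 0 := by
    have := congrArg (fun t => (1 - a) * t) hyb
    simpa [← mul_assoc, one_sub_mul_one_add ha.sq] using this
  have h1 := bab_of_aba hd hb ha h2
  rw [h1, sub_zero, add_sub_cancel_left] at hy
  by_contra hne
  have h0 : zz a b ≠ 0 := sub_ne_zero.2 hne
  have D := nilData hd ha hb h1 h0
  have e1 : b * a = 0 :=
    mul_zero_left (hy.ker_eq hd hb h0).le (zz_mul_right ha.sq h1)
  have e2 : a * b = 0 :=
    mul_zero_right (hy.range_eq hd hb h0).ge (zz_mul_left ha.sq h1)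
  exact hne (by rw [e1, e2])

/-- class two forces nilpotency -/
theorem aba_of_class_two (hd : Deg G d) (ha : Root G d a) (hb : Root G d b)
    (h : a * (a + (b * a - a * b) - b * a * b) = (a + (b * a - a * b) - b * a * b) * a) : a * b * a = 0 := by
  have := congrArg (fun t => a * t) h
  simp only [mul_add, mul_sub, add_mul, sub_mul, ← mul_assoc, ha.sq, zero_mul, sub_zero,
    zero_add] at this
  refine (nil_pair hd ha hb ⟨3, ?_⟩).1
  have hz : a * b * a * b * a = 0 := by
    have h2 : a * b * a * a = 0 := by rw [mul_assoc, ha.sq, mul_zero]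
    rw [h2] at this
    simpa using this.symm
  rw [show (a * b) ^ 3 = a * b * a * b * a * b by rw [pow_succ, pow_two]; simp only [mul_assoc], hz, zero_mul]

end Cfsg.Agent.QPair
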