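import Cfsg.Agent.QPair.Component

/-! There are only finitely many components. -/

set_option autoImplicit false
set_option linter.style.haveILetI false

namespace Cfsg.Agent.QPair

open Cfsg Cfsg.Agent.Quad

variable {k : Type*} [Field k] {M : Type*} [AddCommGroup M] [Module k M] [FiniteDimensional k M]

local notation "GL'" => LinearMap.GeneralLinearGroup k M
local notation "End'" => Module.End k M
local notation "Sig" => quadraticRootSubgroups

variable {G : Subgroup (LinearMap.GeneralLinearGroup k M)} {d : ℕ}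

/-- the set of components -/
def comps (G : Subgroup GL') : Set (Set (Subgroup GL')) := comp G '' Sig G

theorem comps_finite (hss : SS G) (hs : Std G d) : (comps G).Finite := by
  classical
  have hd := hs.deg
  have hsel : ∀ P : ↥(comps G), ∃ (a : End') (ha : Root G d a), comp G (RS G a ha.sq) = P.1 := by
    rintro ⟨_, A, hA, rfl⟩
    obtain ⟨a, ha, rfl⟩ := exists_root hs hA
    exact ⟨a, ha, rfl⟩
  choose v hv hvc using hsel
  have hli : LinearIndependent k v := by
    rw [linearIndependent_iff_notMem_span]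
    intro i hi
    obtain ⟨g, hg, hne⟩ := exists_opposite hss hd (hv i)
    set x := (g : End') * v i * ((g⁻¹ : GL') : End')
    have hx : Root G d x := (hv i).conj hg
    have hadj : FAdj (Sig G) (RS G (v i) (hv i).sq) (RS G x hx.sq) :=
      ⟨RS_mem hd (hv i), RS_mem hd hx, (rankOne_iff hd (hv i) hx).2 hne⟩
    have hxc : comp G (RS G x hx.sq) = i.1 := by
      rw [← hvc i]; exact comp_eq ⟨hadj.2.1, Relation.ReflTransGen.single hadj⟩
    have hcomm : ∀ z ∈ Submodule.span k (v '' (Set.univ \ {i})), z * x = x * z := by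
      intro z hz
      induction hz using Submodule.span_induction with
      | mem z hz =>
        obtain ⟨j, hj, rfl⟩ := hz
        refine (RS_commutator_bot hd (hv j) hx).1 (comm_of_comp_ne hss hs (RS_mem hd (hv j)) hadj.2.1 ?_)
        rw [hvc j, hxc]
        exact fun e => hj.2 (Subtype.ext e)
      | zero => simp
      | add p q _ _ hp hq => rw [add_mul, mul_add, hp, hq]
      | smul c p _ hp => rw [smul_mul_assoc, mul_smul_comm, hp]
    exact hne (aba_of_comm (hv i).sq (hcomm _ hi))
  haveI := hli.finite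
  exact Set.toFinite _

theorem split_classes (hss : SS G) (h2 : ringChar k ≠ 2) (h3 : Nat.card k ≠ 3) :
    ∃ (r : ℕ) (part : Fin r → Set (Subgroup GL')),
      (⋃ i, part i) = Sig G ∧ (∀ i j, i ≠ j → Disjoint (part i) (part j)) ∧ (∀ i, (part i).Nonempty) ∧
      (∀ i j, i ≠ j → ⁅GG (part i), GG (part j)⁆ = ⊥) ∧
      (∀ i, ∃ A ∈ Sig G, part i = comp G A) ∧ Function.Injective part := by
  classical
  by_cases hne : ∃ A, A ∈ Sig G
  swap
  · refine ⟨0, Fin.elim0, ?_, fun i => i.elim0, fun i => i.elim0, fun i => i.elim0, fun i => i.elim0,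
      fun i => i.elim0⟩
    ext A
    simp only [Set.mem_iUnion, IsEmpty.exists_iff, false_iff]
    exact fun h => hne ⟨A, h⟩
  obtain ⟨A₀, hA₀⟩ := hne
  obtain ⟨d, hs⟩ := exists_std' h2 h3 hA₀
  haveI : Finite ↥(comps G) := (comps_finite hss hs).to_subtype
  let e := (Finite.equivFin ↥(comps G)).symm
  refine ⟨_, fun i => (e i).1, ?_, ?_, fun i => ?_, fun i j hij => ?_, fun i => ?_,
    fun i j h => e.injective (Subtype.ext h)⟩
  · ext A
    simp only [Set.mem_iUnion]
    constructor
    · rintro ⟨i, hi⟩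
      obtain ⟨B, -, hB⟩ := (e i).2
      rw [← hB] at hi
      exact hi.1
    · intro hA
      obtain ⟨i, hi⟩ := e.surjective ⟨_, A, hA, rfl⟩
      exact ⟨i, by rw [hi]; exact mem_comp_self hA⟩
  · intro i j hij
    obtain ⟨B, -, hB⟩ := (e i).2
    obtain ⟨C, -, hC⟩ := (e j).2
    rw [Set.disjoint_left]
    intro A hAi hAj
    beta_reduce at hAi hAj
    rw [← hB] at hAi
    rw [← hC] at hAj
    exact hij (e.injective (Subtype.ext (by rw [← hB, ← hC, ← comp_eq hAi, comp_eq hAj])))
  · obtain ⟨B, hB, e'⟩ := (e i).2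
    exact ⟨B, by beta_reduce; rw [← e']; exact mem_comp_self hB⟩
  · obtain ⟨B, -, hB⟩ := (e i).2
    obtain ⟨C, -, hC⟩ := (e j).2
    rw [Subgroup.commutator_eq_bot_iff_le_centralizer]
    refine iSup₂_le fun X hX => ?_
    rw [Subgroup.le_centralizer_iff]
    refine iSup₂_le fun Y hY => ?_
    rw [Subgroup.le_centralizer_iff, ← Subgroup.commutator_eq_bot_iff_le_centralizer]
    simp only [← hB, ← hC] at hX hY
    refine comm_of_comp_ne hss hs hX.1 hY.1 fun h => hij (e.injective (Subtype.ext ?_))
    rw [← hB, ← hC, ← comp_eq hX, ← comp_eq hY, h]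
  · obtain ⟨B, hB, e'⟩ := (e i).2
    exact ⟨B, hB, e'.symm⟩

end Cfsg.Agent.QPair
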