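import Cfsg.Agent.QPair.Dickson

/-! The pair and product lemmas. -/

set_option autoImplicit false

namespace Cfsg.Agent.QPair.SL2Ring

open Matrix
open scoped commutatorElement

variable {k : Type*} [Field k] [Fintype k] {R : Type*} [CommRing R] [Algebra k R]
  {K1 : Type*} [Field K1] [Algebra k K1] [Fintype K1] {K2 : Type*} [Field K2] [Algebra k K2] [Fintype K2]

theorem sl2_dichotomy {K : Type*} [Field K] [Fintype K] (hK : 4 ≤ Fintype.card K) (N : Subgroup (S2 K))
    [N.Normal] : N = ⊤ ∨ ∀ g ∈ N, g 0 1 = 0 ∧ g 1 0 = 0 ∧ g 0 0 = g 1 1 := by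
  rcases Cfsg.Agent.Linear.sl_normal_dichotomy 2 le_rfl (by omega) N with h | h
  · refine Or.inr fun g hg => ?_
    have hc := fun x => (Subgroup.mem_center_iff.1 (h hg) x).symm
    exact scalar_of_commute (hc (uR 1)) (hc (lR 1)) (by simp) (by simp) (by simp)
  · exact Or.inl h

theorem scal_cases {K : Type*} [Field K] {g : S2 K} (h : g 0 1 = 0 ∧ g 1 0 = 0 ∧ g 0 0 = g 1 1) :
    g 0 0 = 1 ∨ g 0 0 = -1 := by
  have hd := det_eq g
  rw [h.1, h.2.1, ← h.2.2] at hd
  exact mul_self_eq_one_iff.1 (by linear_combination hd)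

theorem card_le_ext (K : Type*) [Field K] [Algebra k K] [Fintype K] : Fintype.card k ≤ Fintype.card K :=
  Fintype.card_le_of_injective _ (algebraMap k K).injective

theorem monomial_conj {K : Type*} [Field K] (a b : S2 K) (ha : a 0 0 = 0) (ha' : a 1 1 = 0) (hb : b 0 0 = 0)
    (hb' : b 1 1 = 0) :
    ((a * b⁻¹ * uR 1 * (a * b⁻¹)⁻¹ : S2 K)) 0 0 = (a 0 1 * b 1 0) * (a 1 0 * b 0 1) ∧
    ((a * b⁻¹ * uR 1 * (a * b⁻¹)⁻¹ : S2 K)) 0 1 = a 0 1 ^ 2 * b 1 0 ^ 2 := by
  simp only [_root_.mul_inv_rev, inv_inv, mul_apply2, inv00, inv01, inv10, inv11, uR00, uR01, uR10, uR11, ha, ha', hb, hb']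
  constructor <;> ring

set_option maxHeartbeats 1000000 in
/-- Two field quotients: independent or linked by a field isomorphism. -/
theorem pair_or_link (h2 : (2 : k) ≠ 0) (hq : 5 ≤ Fintype.card k) (p1 : R →ₐ[k] K1) (p2 : R →ₐ[k] K2) (x : R)
    (hx : p2 x ≠ 0) (htop1 : gen k (p1 x) = ⊤) (htop2 : gen k (p2 x) = ⊤) :
    (∀ (y1 : S2 K1) (y2 : S2 K2), ∃ h ∈ gen k x, Matrix.SpecialLinearGroup.map p1.toRingHom h = y1 ∧
      Matrix.SpecialLinearGroup.map p2.toRingHom h = y2) ∨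
    ∃ σ : K2 →ₐ[k] K1, σ (p2 x) = p1 x := by
  classical
  set H := gen k x with hH
  set f1 := Matrix.SpecialLinearGroup.map (n := Fin 2) p1.toRingHom
  set f2 := Matrix.SpecialLinearGroup.map (n := Fin 2) p2.toRingHom
  have hs1 : ∀ y : S2 K1, ∃ h ∈ H, f1 h = y := fun y => by
    have : y ∈ H.map f1 := by rw [hH, map_gen p1, htop1]; exact Subgroup.mem_top y
    obtain ⟨h, hh, e⟩ := this; exact ⟨h, hh, e⟩
  have hs2 : ∀ y : S2 K2, ∃ h ∈ H, f2 h = y := fun y => by
    have : y ∈ H.map f2 := by rw [hH, map_gen p2, htop2]; exact Subgroup.mem_top y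
    obtain ⟨h, hh, e⟩ := this; exact ⟨h, hh, e⟩
  have hc1 : 4 ≤ Fintype.card K1 := le_trans (by omega) (card_le_ext (k := k) K1)
  have hc2 : 4 ≤ Fintype.card K2 := le_trans (by omega) (card_le_ext (k := k) K2)
  have h2' : (2 : K2) ≠ 0 := two_ne_zero_map h2
  have h1' : (2 : K1) ≠ 0 := two_ne_zero_map h2
  set N : Subgroup (S2 K1) := (H ⊓ f2.ker).map f1 with hN
  haveI hNn : N.Normal := ⟨by
    rintro _ ⟨n, hn', rfl⟩ g
    obtain ⟨hn, hnk⟩ := Subgroup.mem_inf.1 hn'
    obtain ⟨h, hh, rfl⟩ := hs1 g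
    refine ⟨h * n * h⁻¹, Subgroup.mem_inf.2 ⟨mul_mem (mul_mem hh hn) (inv_mem hh), ?_⟩, by simp⟩
    rw [MonoidHom.mem_ker] at hnk ⊢
    simp [hnk]⟩
  by_cases hNtop : N = ⊤
  · left
    intro y1 y2
    obtain ⟨h, hh, rfl⟩ := hs2 y2
    obtain ⟨n, ⟨hn, hnk⟩, e⟩ : y1 * (f1 h)⁻¹ ∈ N := hNtop ▸ Subgroup.mem_top _
    refine ⟨n * h, mul_mem hn hh, by rw [map_mul, e, inv_mul_cancel_right], ?_⟩
    rw [map_mul, show f2 n = 1 from hnk, one_mul]
  have hNsc := (sl2_dichotomy hc1 N).resolve_left hNtop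
  set N' : Subgroup (S2 K2) := (H ⊓ f1.ker).map f2 with hN'
  haveI hNn' : N'.Normal := ⟨by
    rintro _ ⟨n, hn', rfl⟩ g
    obtain ⟨hn, hnk⟩ := Subgroup.mem_inf.1 hn'
    obtain ⟨h, hh, rfl⟩ := hs2 g
    refine ⟨h * n * h⁻¹, Subgroup.mem_inf.2 ⟨mul_mem (mul_mem hh hn) (inv_mem hh), ?_⟩, by simp⟩
    rw [MonoidHom.mem_ker] at hnk ⊢
    simp [hnk]⟩
  by_cases hN'top : N' = ⊤
  · left
    intro y1 y2
    obtain ⟨h, hh, rfl⟩ := hs1 y1
    obtain ⟨n, ⟨hn, hnk⟩, e⟩ : y2 * (f2 h)⁻¹ ∈ N' := hN'top ▸ Subgroup.mem_top _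
    refine ⟨n * h, mul_mem hn hh, ?_, by rw [map_mul, e, inv_mul_cancel_right]⟩
    rw [map_mul, show f1 n = 1 from hnk, one_mul]
  have hN'sc := (sl2_dichotomy hc2 N').resolve_left hN'top
  right
  -- the relation
  have huniq : ∀ h ∈ H, f2 h = 1 → (f1 h) 0 1 = 0 ∧ (f1 h) 1 0 = 0 ∧ (f1 h) 0 0 = (f1 h) 1 1 :=
    fun h hh e => hNsc _ ⟨h, ⟨hh, e⟩, rfl⟩
  have huniq' : ∀ h ∈ H, f1 h = 1 → (f2 h) 0 1 = 0 ∧ (f2 h) 1 0 = 0 ∧ (f2 h) 0 0 = (f2 h) 1 1 :=
    fun h hh e => hN'sc _ ⟨h, ⟨hh, e⟩, rfl⟩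
  have hk2 : ∀ c : k, f2 (uR (algebraMap k R c)) = uR (algebraMap k K2 c) := fun c => by
    show Matrix.SpecialLinearGroup.map _ _ = _; rw [map_uR]; exact congrArg uR (p2.commutes c)
  have hk1 : ∀ c : k, f1 (uR (algebraMap k R c)) = uR (algebraMap k K1 c) := fun c => by
    show Matrix.SpecialLinearGroup.map _ _ = _; rw [map_uR]; exact congrArg uR (p1.commutes c)
  have hl2 : ∀ c : k, f2 (lR (c • x)) = lR (c • p2 x) := fun c => by
    show Matrix.SpecialLinearGroup.map _ _ = _; rw [map_lR]; exact congrArg lR (map_smul p2 c x)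
  have hl1 : ∀ c : k, f1 (lR (c • x)) = lR (c • p1 x) := fun c => by
    show Matrix.SpecialLinearGroup.map _ _ = _; rw [map_lR]; exact congrArg lR (map_smul p1 c x)
  -- an element over an upper unitriangular one is upper triangular with diagonal ±1
  have hup : ∀ h ∈ H, ∀ s : K2, f2 h = uR s →
      (f1 h) 1 0 = 0 ∧ (f1 h) 0 0 = (f1 h) 1 1 ∧ ((f1 h) 0 0 = 1 ∨ (f1 h) 0 0 = -1) := by
    intro h hh s e
    set u := uR (algebraMap k R 1) with hu
    have hc := huniq ⁅h, u⁆ (by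
      rw [commutatorElement_def]
      exact mul_mem (mul_mem (mul_mem hh (uR_mem_gen _)) (inv_mem hh)) (inv_mem (uR_mem_gen _))) (by
        rw [map_commutatorElement, e, hk2, commutatorElement_def]
        apply ext2 <;> simp)
    rw [map_commutatorElement, hk1, map_one] at hc
    set P := f1 h
    have hd := det_eq P
    have e10 : ⁅P, uR (1 : K1)⁆ 1 0 = -(P 1 0 ^ 2) := by simp [commutatorElement_def]; ring
    have hr : P 1 0 = 0 := by
      have := hc.2.1
      rw [e10, neg_eq_zero] at this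
      exact sq_eq_zero_iff.1 this
    rw [hr, mul_zero, sub_zero] at hd
    have h01 := hc.1
    simp [commutatorElement_def, hr] at h01
    have hsq : P 0 0 * P 0 0 = 1 := by linear_combination h01 + (1 : K1) * hd
    refine ⟨hr, ?_, mul_self_eq_one_iff.1 hsq⟩
    exact mul_left_cancel₀ (left_ne_zero_of_mul_eq_one hd) (hsq.trans hd.symm)
  have hlow : ∀ h ∈ H, ∀ s : K2, f2 h = lR s →
      (f1 h) 0 1 = 0 ∧ (f1 h) 0 0 = (f1 h) 1 1 ∧ ((f1 h) 0 0 = 1 ∨ (f1 h) 0 0 = -1) := by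
    intro h hh s e
    have hx1 : p1 x ≠ 0 := by
      intro e0
      -- otherwise the first projection would be upper triangular
      have hle : gen k (p1 x) ≤
          { carrier := {g : S2 K1 | g 1 0 = 0}
            mul_mem' := fun {a b} (ha : a 1 0 = 0) (hb : b 1 0 = 0) => by simp [ha, hb]
            one_mem' := by simp
            inv_mem' := fun {a} (ha : a 1 0 = 0) => by simp [ha] } := by
        rw [gen, Subgroup.closure_le]
        rintro _ (⟨c, rfl⟩ | ⟨c, rfl⟩) <;> simp [e0]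
      rw [htop1] at hle
      simpa using (hle (Subgroup.mem_top (lR (1 : K1))) : (lR (1 : K1)) 1 0 = 0)
    set l := lR ((1 : k) • x) with hl
    have hc := huniq ⁅h, l⁆ (by
      rw [commutatorElement_def]
      exact mul_mem (mul_mem (mul_mem hh (lR_mem_gen _)) (inv_mem hh)) (inv_mem (lR_mem_gen _))) (by
        rw [map_commutatorElement, e, hl2, commutatorElement_def]
        apply ext2 <;> simp)
    rw [map_commutatorElement, hl1, one_smul] at hc
    set P := f1 h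
    set r := p1 x
    have hd := det_eq P
    have e01 : ⁅P, lR r⁆ 0 1 = -(r * P 0 1 ^ 2) := by simp [commutatorElement_def]; ring
    have hr : P 0 1 = 0 := by
      have := hc.1
      rw [e01, neg_eq_zero] at this
      exact sq_eq_zero_iff.1 ((mul_eq_zero.1 this).resolve_left hx1)
    rw [hr, zero_mul, sub_zero] at hd
    have h10 := hc.2.1
    simp [commutatorElement_def, hr] at h10
    have hsq : P 1 1 * P 1 1 = 1 := by
      have : r * (P 1 1 * P 1 1 - P 0 0 * P 1 1) = 0 := by linear_combination h10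
      linear_combination (mul_eq_zero.1 this).resolve_left hx1 + hd
    have : P 0 0 = P 1 1 := mul_right_cancel₀ (right_ne_zero_of_mul_eq_one hd) (hd.trans hsq.symm)
    exact ⟨hr, this, this ▸ mul_self_eq_one_iff.1 hsq⟩
  choose hU hUH hUe using fun s : K2 => hs2 (uR s)
  choose hL hLH hLe using fun s : K2 => hs2 (lR s)
  set σ : K2 → K1 := fun s => (f1 (hU s)) 0 1 * (f1 (hU s)) 0 0 with hσ
  set ρ : K2 → K1 := fun s => (f1 (hL s)) 1 0 * (f1 (hL s)) 0 0 with hρ
  have hσval : ∀ h ∈ H, ∀ s, f2 h = uR s → (f1 h) 0 1 * (f1 h) 0 0 = σ s := by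
    intro h hh s e
    obtain ⟨r1, r2, r3⟩ := hup h hh s e
    obtain ⟨q1, q2, q3⟩ := hup _ (hUH s) s (hUe s)
    have hc := (huniq ((hU s)⁻¹ * h) (mul_mem (inv_mem (hUH s)) hh) (by rw [map_mul, map_inv, e, hUe, inv_mul_cancel])).1
    rw [map_mul, map_inv] at hc
    simp [← r2, ← q2] at hc
    show _ = (f1 (hU s)) 0 1 * (f1 (hU s)) 0 0
    rcases r3 with r | r <;> rcases q3 with q | q <;> rw [r, q] at hc ⊢ <;> first | linear_combination hc | linear_combination -hc
  have hρval : ∀ h ∈ H, ∀ s, f2 h = lR s → (f1 h) 1 0 * (f1 h) 0 0 = ρ s := by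
    intro h hh s e
    obtain ⟨r1, r2, r3⟩ := hlow h hh s e
    obtain ⟨q1, q2, q3⟩ := hlow _ (hLH s) s (hLe s)
    have hc := (huniq ((hL s)⁻¹ * h) (mul_mem (inv_mem (hLH s)) hh) (by rw [map_mul, map_inv, e, hLe, inv_mul_cancel])).2.1
    rw [map_mul, map_inv] at hc
    simp [← r2, ← q2] at hc
    show _ = (f1 (hL s)) 1 0 * (f1 (hL s)) 0 0
    rcases r3 with r | r <;> rcases q3 with q | q <;> rw [r, q] at hc ⊢ <;> first | linear_combination hc | linear_combination -hc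
  have hσk : ∀ c : k, σ (algebraMap k K2 c) = algebraMap k K1 c := fun c => by
    rw [← hσval _ (uR_mem_gen c) _ (hk2 c), hk1]; simp
  have hρk : ∀ c : k, ρ (c • p2 x) = c • p1 x := fun c => by
    rw [← hρval _ (lR_mem_gen c) _ (hl2 c), hl1]; simp
  have hσadd : ∀ s t, σ (s + t) = σ s + σ t := by
    intro s t
    rw [← hσval _ (mul_mem (hUH s) (hUH t)) (s + t) (by rw [map_mul, hUe, hUe, ← uR_add]), map_mul]
    obtain ⟨r1, r2, r3⟩ := hup _ (hUH s) s (hUe s)
    obtain ⟨q1, q2, q3⟩ := hup _ (hUH t) t (hUe t)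
    show _ = _ * _ + _ * _
    rcases r3 with r | r <;> rcases q3 with q | q <;> simp [r1, q1, ← r2, ← q2, r, q] <;> ring
  have hσne : ∀ s, s ≠ 0 → σ s ≠ 0 := by
    intro s hs e
    obtain ⟨r1, r2, r3⟩ := hup _ (hUH s) s (hUe s)
    obtain ⟨w, hw, hw'⟩ := hs1 (f1 (hU s))
    have h0 : (f1 (hU s)) 0 1 = 0 := by
      rcases r3 with r | r <;> simpa [hσ, r] using e
    have hcen : ∀ g : S2 K1, f1 (hU s) * g = g * f1 (hU s) := fun g => by
      apply ext2 <;> simp [h0, r1, ← r2] <;> ring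
    obtain ⟨v, hv, hve⟩ := hs1 1
    have := huniq' ⁅hU s, lR ((1 : k) • x)⁆ (by
      rw [commutatorElement_def]
      exact mul_mem (mul_mem (mul_mem (hUH s) (lR_mem_gen _)) (inv_mem (hUH s))) (inv_mem (lR_mem_gen _))) (by
        rw [map_commutatorElement, commutatorElement_eq_one_iff_mul_comm]; exact hcen _)
    rw [map_commutatorElement, hUe, hl2, one_smul] at this
    have h01 := this.1
    have ec : (⁅uR s, lR (p2 x)⁆ : S2 K2) 0 1 = -(s ^ 2 * p2 x) := by simp [commutatorElement_def]; ring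
    rw [ec, neg_eq_zero] at h01
    exact hx ((mul_eq_zero.1 h01).resolve_left (pow_ne_zero 2 hs))
  -- the monomial element
  have hT : ∀ s, s ≠ 0 → ρ (-1 / s) * σ s = -1 ∧ ∃ T ∈ H,
      f2 T = uR s * lR (-1 / s) * uR s ∧ (f1 T) 0 0 = 0 ∧ (f1 T) 1 1 = 0 ∧ (f1 T) 0 1 ^ 2 = σ s ^ 2 := by
    intro s hs
    have hT0 := mul_mem (mul_mem (hUH s) (hLH (-1 / s))) (hUH s)
    set T := hU s * hL (-1 / s) * hU s with hTdef
    have hTe : f2 T = uR s * lR (-1 / s) * uR s := by rw [map_mul, map_mul, hUe, hLe]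
    have hlowT : f2 (T * uR (algebraMap k R 1) * T⁻¹) = lR (-1 / s ^ 2) := by
      rw [map_mul, map_mul, map_inv, hTe, hk2, map_one]
      apply ext2 <;> simp <;> field_simp <;> ring
    obtain ⟨a1, a2, a3⟩ := hlow _ (mul_mem (mul_mem hT0 (uR_mem_gen _)) (inv_mem hT0)) _ hlowT
    rw [map_mul, map_mul, map_inv, hk1, map_one] at a1
    have hT00 : (f1 T) 0 0 = 0 := by
      have e : ((f1 T * uR 1 * (f1 T)⁻¹ : S2 K1)) 0 1 = (f1 T) 0 0 ^ 2 := by simp; ring
      rw [e] at a1; exact sq_eq_zero_iff.1 a1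
    obtain ⟨r1, r2, r3⟩ := hup _ (hUH s) s (hUe s)
    obtain ⟨q1, q2, q3⟩ := hlow _ (hLH (-1 / s)) _ (hLe _)
    have key : ρ (-1 / s) * σ s = -1 := by
      rw [hTdef, map_mul, map_mul] at hT00
      simp [r1, ← r2, q1, ← q2] at hT00
      show _ * _ * (_ * _) = _
      rcases r3 with r | r <;> rcases q3 with q | q <;> rw [r, q] at hT00 ⊢ <;> rcases hT00 with h' | h' <;>
        first | linear_combination h' | linear_combination -h' | exact absurd h' (by norm_num)
    refine ⟨key, T, hT0, hTe, hT00, ?_, ?_⟩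
    · rw [hTdef, map_mul, map_mul]
      simp [r1, ← r2, q1, ← q2]
      have key' := key
      simp only [hσ, hρ] at key'
      rcases r3 with r | r <;> rcases q3 with q | q <;> rw [r, q] at key' ⊢ <;> first | linear_combination key' | linear_combination -key'
    · rw [hTdef, map_mul, map_mul]
      simp [r1, ← r2, q1, ← q2]
      have key' := key
      simp only [hσ, hρ] at key'
      show _ = ((f1 (hU s)) 0 1 * (f1 (hU s)) 0 0) ^ 2
      rcases r3 with r | r <;> rcases q3 with q | q <;> rw [r, q] at key' ⊢ <;>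
        first
          | linear_combination (0 : K1) * key'
          | linear_combination ((f1 (hU s)) 0 1 ^ 2) * (key' ^ 1)
          | grind
  have hσsq : ∀ s, s ≠ 0 → σ (s ^ 2) = σ s ^ 2 := by
    intro s hs
    obtain ⟨-, A, hA, hAe, hA00, hA11, hA01⟩ := hT s hs
    obtain ⟨-, B, hB, hBe, hB00, hB11, hB01⟩ := hT (1 : K2) one_ne_zero
    have hh := mul_mem (mul_mem (mul_mem hA (inv_mem hB)) (uR_mem_gen (1 : k))) (inv_mem (mul_mem hA (inv_mem hB)))
    have he : f2 (A * B⁻¹ * uR (algebraMap k R 1) * (A * B⁻¹)⁻¹) = uR (s ^ 2) := by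
      rw [map_mul, map_mul, map_inv, map_mul, map_inv, hAe, hBe, hk2, map_one]
      apply ext2 <;> simp <;> field_simp <;> ring
    have hv := hσval _ hh _ he
    rw [map_mul, map_mul, map_inv, map_mul, map_inv, hk1, map_one] at hv
    set a := f1 A
    set b := f1 B
    obtain ⟨e00, e01⟩ := monomial_conj a b hA00 hA11 hB00 hB11
    rw [e00, e01] at hv
    have da := det_eq a
    have db := det_eq b
    rw [hA00, hA11, mul_zero, zero_sub] at da
    rw [hB00, hB11, mul_zero, zero_sub] at db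
    have h1 : σ 1 = 1 := by simpa using hσk 1
    rw [h1, one_pow] at hB01
    have hb : b 1 0 ^ 2 = 1 := by
      calc b 1 0 ^ 2 = b 1 0 ^ 2 * b 0 1 ^ 2 := by rw [hB01, mul_one]
        _ = (-(b 0 1 * b 1 0)) ^ 2 := by ring
        _ = 1 := by rw [db, one_pow]
    rw [hb, mul_one, hA01, show a 0 1 * b 1 0 * (a 1 0 * b 0 1) = (-(a 0 1 * a 1 0)) * (-(b 0 1 * b 1 0)) by ring,
      da, db, mul_one, mul_one] at hv
    exact hv.symm
  have hσ0 : σ 0 = 0 := by
    have := hσadd 0 0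
    rw [add_zero] at this
    linear_combination -this
  have hσsq' : ∀ s, σ (s ^ 2) = σ s ^ 2 := fun s => by
    by_cases hs : s = 0
    · simp [hs, hσ0]
    · exact hσsq s hs
  have hσmul : ∀ s t, σ (s * t) = σ s * σ t := by
    intro s t
    have h := hσsq' (s + t)
    rw [show (s + t) ^ 2 = s ^ 2 + t ^ 2 + (s * t + s * t) by ring, hσadd, hσadd, hσadd, hσadd, hσsq', hσsq'] at h
    refine mul_left_cancel₀ h1' ?_
    linear_combination h
  let σhom : K2 →ₐ[k] K1 :=
    { toFun := σ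
      map_one' := by simpa using hσk 1
      map_mul' := hσmul
      map_zero' := hσ0
      map_add' := hσadd
      commutes' := hσk }
  refine ⟨σhom, ?_⟩
  have key := (hT (-1 / p2 x) (div_ne_zero (neg_ne_zero.2 one_ne_zero) hx)).1
  rw [show (-1 : K2) / (-1 / p2 x) = (1 : k) • p2 x by rw [one_smul]; field_simp, hρk, one_smul] at key
  have e1 : σhom (-1 / p2 x) = -1 / σhom (p2 x) := by rw [map_div₀, map_neg, map_one]
  have hne : σhom (p2 x) ≠ 0 := (map_ne_zero_iff _ σhom.toRingHom.injective).2 hx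
  change p1 x * σhom (-1 / p2 x) = -1 at key
  rw [e1] at key
  field_simp at key
  linear_combination key

end Cfsg.Agent.QPair.SL2Ring
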