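import Cfsg.Agent.QPair.Unip

/-! Frames give special rank one groups. -/

set_option autoImplicit false
set_option linter.style.haveILetI false

namespace Cfsg.Agent.QPair

open Cfsg Cfsg.Agent.Quad

variable {k : Type*} [Field k] {M : Type*} [AddCommGroup M] [Module k M]

local notation "GL'" => LinearMap.GeneralLinearGroup k M
local notation "End'" => Module.End k M

variable {G : Subgroup (LinearMap.GeneralLinearGroup k M)} {a b x y w x' : Module.End k M} {d : ℕ}
  {g h : LinearMap.GeneralLinearGroup k M}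

theorem InL.conj (hy : InL G a y) (hg : g ∈ G) :
    InL G ((g : End') * a * ((g⁻¹ : GL') : End')) ((g : End') * y * ((g⁻¹ : GL') : End')) := by
  refine ⟨hy.tame.conjUnit hg, ?_, fun m hm => ?_⟩
  · rintro _ ⟨m, rfl⟩
    obtain ⟨u, hu⟩ := hy.im (LinearMap.mem_range_self y (((g⁻¹ : GL') : End') m))
    refine ⟨(g : End') u, ?_⟩
    simp only [Module.End.mul_apply, ← hu]
    rw [← Module.End.mul_apply ((g⁻¹ : GL') : End'), Units.inv_mul, Module.End.one_apply]
  · rw [LinearMap.mem_ker] at hm ⊢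
    simp only [Module.End.mul_apply] at hm ⊢
    have h0 : a (((g⁻¹ : GL') : End') m) = 0 := by
      have := congrArg ((g⁻¹ : GL') : End') hm
      rwa [map_zero, ← Module.End.mul_apply ((g⁻¹ : GL') : End'), Units.inv_mul, Module.End.one_apply] at this
    rw [LinearMap.mem_ker.1 (hy.ker h0), map_zero]

theorem Root.conj (ha : Root G d a) (hg : g ∈ G) :
    Root G d ((g : End') * a * ((g⁻¹ : GL') : End')) := by
  refine ⟨ha.tame.conjUnit hg, ?_⟩
  have : LinearMap.range ((g : End') * a * ((g⁻¹ : GL') : End')) = (LinearMap.range a).map (g : End') := by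
    rw [show (g : End') * a * ((g⁻¹ : GL') : End') = (g : End') ∘ₗ (a ∘ₗ ((g⁻¹ : GL') : End')) from rfl,
      LinearMap.range_comp, LinearMap.range_comp_of_range_eq_top _ (LinearMap.range_eq_top.2 fun m =>
        ⟨(g : End') m, by rw [← Module.End.mul_apply, Units.inv_mul, Module.End.one_apply]⟩)]
  rw [rk, this, ← ha.rank]
  exact (Submodule.equivMapOfInjective _ (fun u v e => by
    have := congrArg ((g⁻¹ : GL') : End') e
    rwa [← Module.End.mul_apply, ← Module.End.mul_apply ((g⁻¹ : GL') : End'), Units.inv_mul,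
      Module.End.one_apply, Module.End.one_apply] at this) _).finrank_eq.symm

variable [FiniteDimensional k M]

theorem conj_RS (hd : Deg G d) (ha : Root G d a) (hg : g ∈ G) :
    conjBy (RS G a ha.sq) g = RS G _ (ha.conj hg).sq := by
  ext u
  rw [Subgroup.mem_map_equiv, mem_RS hd ha, mem_RS hd (ha.conj hg), MulAut.conj_symm_apply]
  constructor
  · intro h
    have h' := h.conj hg
    rwa [← dev_conj, show g * (g⁻¹ * u * g) * g⁻¹ = u by group] at h'
  · intro h
    have h' := h.conj (inv_mem hg)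
    rw [← dev_conj g⁻¹, inv_inv] at h'
    have e : (((g⁻¹ : GL') : End')) * ((g : End') * a * ((g⁻¹ : GL') : End')) * (g : End') = a := by
      rw [← mul_assoc, ← mul_assoc, Units.inv_mul, one_mul, mul_assoc, Units.inv_mul, mul_one]
    rwa [e] at h'

theorem conj_RS' (hd : Deg G d) (ha : Root G d a) (hg : g ∈ G) (hb : Root G d b)
    (h : InL G b ((g : End') * a * ((g⁻¹ : GL') : End'))) : conjBy (RS G a ha.sq) g = RS G b hb.sq := by
  rw [conj_RS hd ha hg]; exact RS_eq hd hb (ha.conj hg) h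

theorem RS_le (hd : Deg G d) (ha : Root G d a) : RS G a ha.sq ≤ G := fun g hg => by
  have h := (mem_RS hd ha).1 hg
  rw [eq_uu h.tame.sq]
  exact uu_mem h.tame

theorem RS_isMulCommutative (hd : Deg G d) (ha : Root G d a) : IsMulCommutative (RS G a ha.sq) :=
  ⟨⟨fun p q => Subtype.ext (comm_iff.2 (by
    have hp := (mem_RS hd ha).1 p.2
    have hq := (mem_RS hd ha).1 q.2
    rw [hp.mul_zero ha.sq hq, hq.mul_zero ha.sq hp]))⟩⟩

theorem RS_nilpotent (hd : Deg G d) (ha : Root G d a) : Group.IsNilpotent (RS G a ha.sq) := by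
  haveI := RS_isMulCommutative hd ha
  open scoped IsMulCommutative in exact inferInstance

namespace Frame

variable (F : Frame G d a x)
include F

omit [FiniteDimensional k M] in
theorem conj_dev :
    dev ((uu x F.right.sq)⁻¹ * uu a F.left.sq * uu x F.right.sq) = a - x * a + a * x - x ∧
    dev ((uu a F.left.sq)⁻¹ * uu x F.right.sq * uu a F.left.sq) = -(a - x * a + a * x - x) := by
  have e1 := dev_conj (uu x F.right.sq)⁻¹ (uu a F.left.sq)
  have e2 := dev_conj (uu a F.left.sq)⁻¹ (uu x F.right.sq)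
  rw [inv_inv, dev_uu, uu_inv_val, uu_val] at e1 e2
  refine ⟨?_, ?_⟩
  · rw [e1]; simp only [sub_mul, mul_add, one_mul, mul_one, F.xax]; abel
  · rw [e2]; simp only [sub_mul, mul_add, one_mul, mul_one, F.axa]; abel

theorem cond (hd : Deg G d) : RankOneCondition (RS G a F.left.sq) (RS G x F.right.sq) := by
  intro g hg hg1
  have hy := (mem_RS hd F.left).1 hg
  have hy0 : dev g ≠ 0 := fun e => hg1 (dev_eq_zero.1 e)
  obtain ⟨x', hx', hx0, F', -, -⟩ := F.exists_inv hd hy hy0
  refine ⟨uu x' F'.right.sq, uu_mem_RS hd F.right hx', fun e => hx0 ?_, ?_⟩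
  · rw [← dev_uu F'.right.sq, e, dev_one]
  · rw [← RS_eq hd F.left F'.left hy, ← RS_eq hd F.right F'.right hx']
    have hgG := RS_le hd F.left hg
    have hbG := inv_mem (uu_mem F'.right.tame)
    obtain ⟨e1, e2⟩ := F'.conj_dev
    rw [← eq_uu F'.left.sq] at e1 e2
    rw [conj_RS hd F'.left hbG]
    symm
    refine conj_RS' hd F'.right (inv_mem hgG) (F'.left.conj hbG) ?_
    rw [← dev_conj (uu x' F'.right.sq)⁻¹ g, inv_inv, e1]
    have : ((g⁻¹ : GL') : End') * x' * ((g⁻¹⁻¹ : GL') : End') = -(dev g - x' * dev g + dev g * x' - x') := by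
      rw [← e2, show g⁻¹ * uu x' F'.right.sq * g = g⁻¹ * uu x' F'.right.sq * g⁻¹⁻¹ by rw [inv_inv], dev_conj,
        dev_uu]
    rw [this]
    have hr := F'.left.conj hbG
    rw [← dev_conj (uu x' F'.right.sq)⁻¹ g, inv_inv, e1] at hr
    exact (InL.refl hr.tame).neg

theorem special (hd : Deg G d) : IsSpecialRankOnePair (RS G a F.left.sq) (RS G x F.right.sq) := by
  refine ⟨⟨fun e => ?_, RS_nilpotent hd F.left, RS_nilpotent hd F.right, F.cond hd, F.symm.cond hd⟩, ?_⟩
  · have hm : uu x F.right.sq ∈ RS G a F.left.sq := e ▸ uu_mem_RS hd F.right (InL.refl F.right.tame)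
    rw [mem_RS hd F.left, dev_uu] at hm
    have := F.axa
    rw [F.a_mul hm, zero_mul] at this
    exact root_ne_zero hd F.left this.symm
  intro g hg hg1 h hh hh1 heq
  have hy := (mem_RS hd F.left).1 hg
  have hw := (mem_RS hd F.right).1 hh
  have hy0 : dev g ≠ 0 := fun e => hg1 (dev_eq_zero.1 e)
  obtain ⟨x', hx', hx0, F', -, -⟩ := F.exists_inv hd hy hy0
  have hgG := RS_le hd F.left hg
  have hhG := RS_le hd F.right hh
  obtain ⟨e1, e2⟩ := F'.conj_dev
  rw [← eq_uu F'.left.sq] at e1 e2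
  have hw' : InL G x' (dev h) :=
    ⟨hw.tame, hw.im.trans (hx'.range_eq hd F.right hx0).ge, (hx'.ker_eq hd F.right hx0).le.trans hw.ker⟩
  -- the conjugated root
  have hmem : g⁻¹ * uu x' F'.right.sq * g ∈ conjBy (RS G x F.right.sq) g⁻¹ :=
    Subgroup.mem_map.2 ⟨_, uu_mem_RS hd F.right hx', by simp⟩
  rw [← heq, conj_RS hd F.left (inv_mem hhG), mem_RS hd (F.left.conj (inv_mem hhG)), e2] at hmem
  have hc : InL G ((((h⁻¹ : GL')) : End') * a * ((h⁻¹⁻¹ : GL') : End'))
      ((((h⁻¹ : GL')) : End') * dev g * ((h⁻¹⁻¹ : GL') : End')) := hy.conj (inv_mem hhG)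
  have hz := hc.mul_zero (F.left.conj (inv_mem hhG)).sq hmem
  rw [inv_inv, inv_val hw.tame.sq, val_eq h] at hz
  have key : dev g * dev h * dev g = dev g := by
    have hyy := F'.left.sq
    have hxx := F'.right.sq
    have hwx : dev h * x' = 0 := hw'.mul_zero F'.right.sq (InL.refl F'.right.tame)
    have hxw : x' * dev h = 0 := (InL.refl F'.right.tame).mul_zero F'.right.sq hw'
    have := congrArg (fun t => dev g * x' * t * (x' * dev g)) hz
    simp only [mul_neg, neg_mul, sub_mul, mul_sub, add_mul, mul_add, one_mul, mul_one, mul_zero, zero_mul,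
      mul_assoc] at this
    have a1 : ∀ t, dev g * (dev g * t) = 0 := fun t => by rw [← mul_assoc, hyy, zero_mul]
    have a2 : ∀ t, x' * (x' * t) = 0 := fun t => by rw [← mul_assoc, hxx, zero_mul]
    have a3 : ∀ t, x' * (dev h * t) = 0 := fun t => by rw [← mul_assoc, hxw, zero_mul]
    have a4 : ∀ t, dev h * (x' * t) = 0 := fun t => by rw [← mul_assoc, hwx, zero_mul]
    have a5 : ∀ t, dev g * (x' * (dev g * t)) = dev g * t := fun t => by
      rw [← mul_assoc x', ← mul_assoc, ← mul_assoc (dev g) x', F'.axa]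
    have a6 : dev g * (x' * dev g) = dev g := by rw [← mul_assoc, F'.axa]
    simp only [a2, a3, a4, a5, a6, hyy, mul_zero, add_zero, zero_add, sub_zero] at this
    rw [mul_assoc]
    exact sub_eq_zero.1 (neg_eq_zero.1 this)
  have hwx' : dev h = x' := by
    calc dev h = x' * dev g * dev h * dev g * x' := by
          rw [F'.symm.lmul hw', F'.symm.rmul hw']
      _ = x' * (dev g * dev h * dev g) * x' := by simp only [mul_assoc]
      _ = x' := by rw [key, F'.xax]
  have hh' : h = uu x' F'.right.sq := Units.ext (by rw [val_eq h, hwx', uu_val])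
  rw [hh']
  apply Units.ext
  rw [val_eq ((uu x' F'.right.sq)⁻¹ * g * uu x' F'.right.sq), val_eq (g⁻¹ * (uu x' F'.right.sq)⁻¹ * g), e1]
  congr 1
  rw [← neg_inj, ← e2, show g⁻¹ * uu x' F'.right.sq * g = (g⁻¹ * (uu x' F'.right.sq)⁻¹ * g)⁻¹ by group]
  refine dev_inv ?_
  rw [show g⁻¹ * (uu x' F'.right.sq)⁻¹ * g = g⁻¹ * (uu x' F'.right.sq)⁻¹ * g⁻¹⁻¹ by rw [inv_inv], dev_conj,
    dev_inv (by rw [dev_uu]; exact F'.right.sq), dev_uu]
  exact (F'.right.tame.neg.conjUnit (inv_mem hgG)).sq

end Frame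

end Cfsg.Agent.QPair
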