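import Cfsg.Agent.QPair.Sl2
import Cfsg.Prelude.Def_RootSubgroups

/-! The root subgroups of a quadratic pair in terms of their nilpotent parts. -/

set_option autoImplicit false

namespace Cfsg.Agent.QPair

open Cfsg Cfsg.Agent.Quad

variable {k : Type*} [Field k] {M : Type*} [AddCommGroup M] [Module k M]

local notation "GL'" => LinearMap.GeneralLinearGroup k M
local notation "End'" => Module.End k M

variable {G : Subgroup (LinearMap.GeneralLinearGroup k M)} {a b x y : Module.End k M} {d : ℕ}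
  {σ τ g h : LinearMap.GeneralLinearGroup k M}

/-- the unipotent element of a square-zero map -/
def uu (a : End') (h : a * a = 0) : GL' := ⟨1 + a, 1 - a, one_add_mul_one_sub h, one_sub_mul_one_add h⟩

@[simp] theorem uu_val (h : a * a = 0) : ((uu a h : GL') : End') = 1 + a := rfl

theorem uu_inv_val (h : a * a = 0) : (((uu a h)⁻¹ : GL') : End') = 1 - a := rfl

theorem dev_uu (h : a * a = 0) : dev (uu a h) = a := by rw [dev]; simp

theorem eq_uu (h : dev g * dev g = 0) : g = uu (dev g) h := Units.ext (val_eq g)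

theorem uu_mem (h : Tame G a) : uu a h.sq ∈ G := by
  obtain ⟨g, hg, e⟩ := h.inG
  rwa [show uu a h.sq = g from Units.ext e.symm]

theorem inv_val (h : dev g * dev g = 0) : ((g⁻¹ : GL') : End') = 1 - dev g :=
  Units.inv_eq_of_mul_eq_one_right (by
    rw [show (g : End') = 1 + dev g from val_eq g]; exact one_add_mul_one_sub h)

theorem dev_one : dev (1 : GL') = (0 : End') := dev_eq_zero.2 rfl

theorem dev_conj (g h : GL') : dev (g * h * g⁻¹) = (g : End') * dev h * ((g⁻¹ : GL') : End') := by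
  rw [dev, dev, Units.val_mul, Units.val_mul, mul_sub, sub_mul, mul_one, Units.mul_inv]

theorem tame_of_quadratic (h : σ ∈ quadraticElements G) : Tame G (dev σ) :=
  ⟨h.2.1.1, fun c => by
    obtain ⟨t, ht, e⟩ := val_scalar h c
    exact ⟨t, ht, e⟩⟩

theorem quadratic_of_tame (h : Tame G (dev σ)) (h0 : dev σ ≠ 0) : σ ∈ quadraticElements G := by
  refine ⟨?_, ⟨h.sq, h0⟩, ?_⟩
  · obtain ⟨t, ht, e⟩ := h.inG
    rwa [show σ = t from Units.ext ((val_eq σ).trans e.symm)]
  · rintro t ⟨c, hc⟩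
    obtain ⟨t', ht', e⟩ := h.2 c
    rw [show t = t' from Units.ext (hc.trans e.symm)]
    exact ht'

theorem quadratic_uu (h : Tame G a) (h0 : a ≠ 0) : uu a h.sq ∈ quadraticElements G :=
  quadratic_of_tame (by rwa [dev_uu]) (by rwa [dev_uu])

variable [FiniteDimensional k M]

theorem std (h2 : ringChar k ≠ 2) (h3 : Nat.card k ≠ 3) (hσ : σ ∈ minimalQuadraticElements G) :
    Deg G (commutatorRank σ) ∧ Root G (commutatorRank σ) (dev σ) := by
  have hpos : 0 < commutatorRank σ :=
    Nat.pos_of_ne_zero fun e => hσ.1.2.1.2 (LinearMap.range_eq_bot.1 (Submodule.finrank_eq_zero.1 e))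
  refine ⟨⟨Ring.two_ne_zero h2, h3, hpos, fun a ha hlt => ?_⟩, tame_of_quadratic hσ.1, rfl⟩
  by_contra h0
  have : commutatorRank σ ≤ rk a := by
    have := hσ.2 _ (quadratic_uu ha h0)
    rwa [show commutatorRank (uu a ha.sq) = rk a from
      congrArg (fun e : End' => Module.finrank k (LinearMap.range e)) (dev_uu ha.sq)] at this
  omega

omit [FiniteDimensional k M] in
theorem min_of_root (hd : Deg G d) (h : Root G d (dev σ)) (h0 : dev σ ≠ 0) :
    σ ∈ minimalQuadraticElements G := by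
  refine ⟨quadratic_of_tame h.tame h0, fun τ hτ => ?_⟩
  by_contra hlt
  refine hτ.2.1.2 (hd.min _ (tame_of_quadratic hτ) ?_)
  calc rk (dev τ) < commutatorRank σ := not_le.1 hlt
    _ = d := h.rank

omit [FiniteDimensional k M] in
theorem root_ne_zero (hd : Deg G d) (h : Root G d a) : a ≠ 0 := by
  rintro rfl
  have h1 := h.rank
  rw [rk, LinearMap.range_zero, finrank_bot] at h1
  exact absurd h1.symm hd.pos.ne'

theorem min_uu (hd : Deg G d) (h : Root G d a) : uu a h.sq ∈ minimalQuadraticElements G :=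
  min_of_root hd (by rwa [dev_uu]) (by rw [dev_uu]; exact root_ne_zero hd h)

theorem mem_E (hd : Deg G d) (hσ : σ ∈ minimalQuadraticElements G) (hr : Root G d (dev σ)) :
    g ∈ sameActionSubgroup G σ ↔ InL G (dev σ) (dev g) := by
  rw [← SetLike.mem_coe, (sameAction_structure hσ).1]
  constructor
  · rintro (h | h)
    · exact ⟨tame_of_quadratic h.1.1, h.2.2.le, h.2.1.ge⟩
    · rw [Set.mem_singleton_iff.1 h, dev_one]; exact InL.zero
  · intro h
    by_cases h0 : dev g = 0
    · exact Or.inr (dev_eq_zero.1 h0)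
    · exact Or.inl ⟨min_of_root hd (h.root hd hr h0) h0, h.ker_eq hd hr h0, h.range_eq hd hr h0⟩

/-- the root subgroup of a root -/
def RS (G : Subgroup GL') (a : End') (h : a * a = 0) : Subgroup GL' := sameActionSubgroup G (uu a h)

theorem mem_RS (hd : Deg G d) (ha : Root G d a) : g ∈ RS G a ha.sq ↔ InL G a (dev g) := by
  rw [RS, mem_E hd (min_uu hd ha) (by rwa [dev_uu]), dev_uu]

theorem RS_mem (hd : Deg G d) (ha : Root G d a) : RS G a ha.sq ∈ quadraticRootSubgroups G :=
  ⟨_, min_uu hd ha, rfl⟩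

theorem uu_mem_RS (hd : Deg G d) (ha : Root G d a) (hy : InL G a y) : uu y hy.tame.sq ∈ RS G a ha.sq :=
  (mem_RS hd ha).2 (by rwa [dev_uu])

omit [FiniteDimensional k M] in
theorem sameAction_eq_RS (hσ : σ ∈ minimalQuadraticElements G) :
    sameActionSubgroup G σ = RS G (dev σ) hσ.1.2.1.1 :=
  congrArg (sameActionSubgroup G) (eq_uu hσ.1.2.1.1)

/-- the standing data: `d` is the rank of all minimal quadratic elements -/
structure Std (G : Subgroup GL') (d : ℕ) : Prop where
  deg : Deg G d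
  root : ∀ σ ∈ minimalQuadraticElements G, Root G d (dev σ)

theorem exists_std (h2 : ringChar k ≠ 2) (h3 : Nat.card k ≠ 3) (hσ : σ ∈ minimalQuadraticElements G) :
    ∃ d, Std G d :=
  ⟨_, (std h2 h3 hσ).1, fun _ hτ => ⟨tame_of_quadratic hτ.1, le_antisymm (hτ.2 σ hσ.1) (hσ.2 _ hτ.1)⟩⟩

theorem exists_std' (h2 : ringChar k ≠ 2) (h3 : Nat.card k ≠ 3) {A : Subgroup GL'}
    (hA : A ∈ quadraticRootSubgroups G) : ∃ d, Std G d := by
  obtain ⟨σ, hσ, -⟩ := hA
  exact exists_std h2 h3 hσ

theorem exists_root (hs : Std G d) {A : Subgroup GL'} (hA : A ∈ quadraticRootSubgroups G) :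
    ∃ (a : End') (ha : Root G d a), A = RS G a ha.sq := by
  obtain ⟨σ, hσ, rfl⟩ := hA
  exact ⟨_, hs.root σ hσ, sameAction_eq_RS hσ⟩

theorem RS_eq (hd : Deg G d) (ha : Root G d a) (hb : Root G d b) (h : InL G a b) :
    RS G b hb.sq = RS G a ha.sq := by
  have hb0 := root_ne_zero hd hb
  refine SetLike.ext fun g => ?_
  rw [mem_RS hd ha, mem_RS hd hb]
  exact ⟨fun hg => ⟨hg.tame, hg.im.trans h.im, h.ker.trans hg.ker⟩,
    fun hg => ⟨hg.tame, hg.im.trans (h.range_eq hd ha hb0).ge, (h.ker_eq hd ha hb0).le.trans hg.ker⟩⟩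

end Cfsg.Agent.QPair
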