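import Mathlib

/-! Elementary unipotents in `SL₂` of a commutative ring. -/

set_option autoImplicit false

namespace Cfsg.Agent.QPair.SL2Ring

open Matrix

/-- `SL₂`. -/
abbrev S2 (R : Type*) [CommRing R] := Matrix.SpecialLinearGroup (Fin 2) R

variable {R : Type*} [CommRing R]

theorem ext2 {g h : S2 R} (h00 : g 0 0 = h 0 0) (h01 : g 0 1 = h 0 1) (h10 : g 1 0 = h 1 0)
    (h11 : g 1 1 = h 1 1) : g = h := by
  apply Matrix.SpecialLinearGroup.ext
  intro i j
  fin_cases i <;> fin_cases j <;> assumption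

theorem det_eq (g : S2 R) : g 0 0 * g 1 1 - g 0 1 * g 1 0 = 1 := by
  rw [← Matrix.det_fin_two, g.2]

@[simp] theorem mul_apply2 (g h : S2 R) (i j : Fin 2) :
    (g * h) i j = g i 0 * h 0 j + g i 1 * h 1 j := by
  rw [Matrix.SpecialLinearGroup.coe_mul, Matrix.mul_apply, Fin.sum_univ_two]

@[simp] theorem inv00 (g : S2 R) : g⁻¹ 0 0 = g 1 1 := by
  simp [Matrix.SpecialLinearGroup.coe_inv, Matrix.adjugate_fin_two]
@[simp] theorem inv01 (g : S2 R) : g⁻¹ 0 1 = - g 0 1 := by
  simp [Matrix.SpecialLinearGroup.coe_inv, Matrix.adjugate_fin_two]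
@[simp] theorem inv10 (g : S2 R) : g⁻¹ 1 0 = - g 1 0 := by
  simp [Matrix.SpecialLinearGroup.coe_inv, Matrix.adjugate_fin_two]
@[simp] theorem inv11 (g : S2 R) : g⁻¹ 1 1 = g 0 0 := by
  simp [Matrix.SpecialLinearGroup.coe_inv, Matrix.adjugate_fin_two]

/-- upper unitriangular -/
def uR (b : R) : S2 R := ⟨!![1, b; 0, 1], by simp [Matrix.det_fin_two]⟩

/-- lower unitriangular -/
def lR (c : R) : S2 R := ⟨!![1, 0; c, 1], by simp [Matrix.det_fin_two]⟩

@[simp] theorem uR00 (b : R) : uR b 0 0 = 1 := rfl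
@[simp] theorem uR01 (b : R) : uR b 0 1 = b := rfl
@[simp] theorem uR10 (b : R) : uR b 1 0 = 0 := rfl
@[simp] theorem uR11 (b : R) : uR b 1 1 = 1 := rfl
@[simp] theorem lR00 (b : R) : lR b 0 0 = 1 := rfl
@[simp] theorem lR01 (b : R) : lR b 0 1 = 0 := rfl
@[simp] theorem lR10 (b : R) : lR b 1 0 = b := rfl
@[simp] theorem lR11 (b : R) : lR b 1 1 = 1 := rfl

theorem uR_inv (b : R) : (uR b)⁻¹ = uR (-b) := by apply ext2 <;> simp
theorem lR_inv (b : R) : (lR b)⁻¹ = lR (-b) := by apply ext2 <;> simp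
theorem uR_add (a b : R) : uR (a + b) = uR a * uR b := by apply ext2 <;> simp [add_comm]
theorem lR_add (a b : R) : lR (a + b) = lR a * lR b := by apply ext2 <;> simp
theorem uR_zero : uR (0 : R) = 1 := by apply ext2 <;> simp
theorem lR_zero : lR (0 : R) = 1 := by apply ext2 <;> simp

/-- the generated group -/
def gen (k : Type*) [Field k] [Algebra k R] (x : R) : Subgroup (S2 R) :=
  Subgroup.closure (Set.range (fun c : k => uR (algebraMap k R c)) ∪ Set.range (fun c : k => lR (c • x)))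

variable {k : Type*} [Field k] [Algebra k R] {x : R}

theorem uR_mem_gen (c : k) : uR (algebraMap k R c) ∈ gen k x :=
  Subgroup.subset_closure (Or.inl ⟨c, rfl⟩)

theorem uR_one_mem : uR (1 : R) ∈ gen k x := by
  simpa using uR_mem_gen (x := x) (1 : k)

theorem lR_mem_gen (c : k) : lR (c • x) ∈ gen k x :=
  Subgroup.subset_closure (Or.inr ⟨c, rfl⟩)

theorem map_uR {S : Type*} [CommRing S] (φ : R →+* S) (b : R) :
    Matrix.SpecialLinearGroup.map φ (uR b) = uR (φ b) := by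
  apply ext2 <;> simp

theorem map_lR {S : Type*} [CommRing S] (φ : R →+* S) (b : R) :
    Matrix.SpecialLinearGroup.map φ (lR b) = lR (φ b) := by
  apply ext2 <;> simp

theorem map_gen {S : Type*} [CommRing S] [Algebra k S] (φ : R →ₐ[k] S) :
    (gen k x).map (Matrix.SpecialLinearGroup.map φ.toRingHom) = gen k (φ x) := by
  rw [gen, gen, MonoidHom.map_closure, Set.image_union, ← Set.range_comp, ← Set.range_comp]
  congr 3 <;> funext c
  · show Matrix.SpecialLinearGroup.map φ.toRingHom (uR (algebraMap k R c)) = _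
    rw [map_uR]; exact congrArg uR (φ.commutes c)
  · show Matrix.SpecialLinearGroup.map φ.toRingHom (lR (c • x)) = _
    rw [map_lR]; exact congrArg lR (map_smul φ c x)

/-- commuting with lifts of the two standard unipotents forces a scalar -/
theorem scalar_of_commute {n M1 M2 : S2 R} (h1 : n * M1 = M1 * n) (h2 : n * M2 = M2 * n)
    (hq : IsUnit (M1 0 1)) (hr : IsUnit (M2 1 0)) (hr1 : IsNilpotent (M1 1 0)) :
    n 0 1 = 0 ∧ n 1 0 = 0 ∧ n 0 0 = n 1 1 := by
  have e1 := congrArg (fun g : S2 R => g 0 0) h1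
  have e1' := congrArg (fun g : S2 R => g 0 1) h1
  have e2 := congrArg (fun g : S2 R => g 0 0) h2
  simp only [mul_apply2] at e1 e1' e2
  obtain ⟨q, hq'⟩ := hq
  obtain ⟨r', hr'⟩ := hr
  have k1 : n 0 1 * ((q : R) * r' - M2 0 1 * M1 1 0) = 0 := by
    rw [← hq', ← sub_eq_zero] at e1
    rw [← hr', ← sub_eq_zero] at e2
    linear_combination (q : R) * e2 - M2 0 1 * e1
  have hu : IsUnit ((q : R) * r' - M2 0 1 * M1 1 0) := by
    obtain ⟨m, hm⟩ := hr1
    exact IsNilpotent.isUnit_add_left_of_commute (r := -(M2 0 1 * M1 1 0)) ⟨m, by rw [neg_pow, mul_pow, hm]; ring⟩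
      ((q * r').isUnit) (Commute.all _ _) |> fun h => by simpa [sub_eq_add_neg] using h
  have hb : n 0 1 = 0 := by
    rcases hu with ⟨w, hw⟩
    have := congrArg (fun t => t * ((w⁻¹ : Rˣ) : R)) k1
    rwa [← hw, mul_assoc, Units.mul_inv, mul_one, zero_mul] at this
  refine ⟨hb, ?_, ?_⟩
  · rw [hb, ← hq', zero_mul, add_zero, mul_comm (n 0 0)] at e1
    have : (q : R) * n 1 0 = 0 := by linear_combination -e1
    exact (q.isUnit.mul_right_eq_zero).1 this
  · rw [hb, ← hq', zero_mul, add_zero, mul_zero, zero_add] at e1'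
    have : (q : R) * (n 0 0 - n 1 1) = 0 := by linear_combination e1'
    exact sub_eq_zero.1 ((q.isUnit.mul_right_eq_zero).1 this)

theorem eq_one_of_scalar (h2 : IsUnit (2 : R)) {n : S2 R} (h : n 0 1 = 0 ∧ n 1 0 = 0 ∧ n 0 0 = n 1 1)
    (hA : IsNilpotent (n 0 0 - 1)) : n = 1 := by
  have hd := det_eq n
  rw [h.1, h.2.1, ← h.2.2] at hd
  have hu : IsUnit (n 0 0 + 1) := by
    have := hA.isUnit_add_left_of_commute h2 (Commute.all _ _)
    convert this using 1; ring
  have : (n 0 0 + 1) * (n 0 0 - 1) = 0 := by linear_combination hd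
  have hA1 : n 0 0 = 1 := sub_eq_zero.1 (hu.mul_right_eq_zero.1 this)
  apply ext2 <;> simp [h.1, h.2.1, ← h.2.2, hA1]

/-- From a non-trivial element congruent to one modulo nilpotents: an upper triangular one. -/
theorem triangular_of_kernel (h2 : IsUnit (2 : R)) {H K : Subgroup (S2 R)}
    (hnorm : ∀ h ∈ H, ∀ g ∈ K, h * g * h⁻¹ ∈ K) {y : R} (hy : IsUnit y) (hu1 : uR 1 ∈ H) (hly : lR y ∈ H)
    {n : S2 R} (hn : n ∈ K) (hn1 : n ≠ 1) (hA : IsNilpotent (n 0 0 - 1)) (hB : IsNilpotent (n 0 1))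
    (hC : IsNilpotent (n 1 0)) :
    ∃ g ∈ K, g 1 0 = 0 ∧ IsNilpotent (g 0 0 ^ 2 - 1) ∧ g 0 0 ^ 2 ≠ 1 := by
  have step : ∀ N : ℕ, ∀ g ∈ K, g 1 0 ≠ 0 → g 1 0 ^ N = 0 → IsNilpotent (g 0 0 - 1) →
      ∃ g' ∈ K, g' 1 0 = 0 ∧ IsNilpotent (g' 0 0 ^ 2 - 1) ∧ g' 0 0 ^ 2 ≠ 1 := by
    intro N
    induction N using Nat.strong_induction_on with
    | _ N ih =>
      intro g hg hC0 hN hA
      set g' := uR 1 * g * (uR 1)⁻¹ * g⁻¹ with hg'
      have hg'K : g' ∈ K := mul_mem (hnorm _ hu1 g hg) (inv_mem hg)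
      have hC' : g' 1 0 = g 1 0 ^ 2 := by simp [hg']; ring
      have hA' : g' 0 0 = 1 + g 1 0 * g 0 0 + g 1 0 ^ 2 := by
        simp [hg']
        linear_combination det_eq g
      have hCn : IsNilpotent (g 1 0) := ⟨N, hN⟩
      by_cases hC2 : g 1 0 ^ 2 = 0
      · refine ⟨g', hg'K, hC'.trans hC2, ?_, ?_⟩
        · rw [show g' 0 0 ^ 2 - 1 = g 1 0 * (g 0 0 * (2 + g 1 0 * g 0 0)) by rw [hA', hC2]; ring]
          exact Commute.isNilpotent_mul_right (Commute.all _ _) hCn
        · intro e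
          have hu : IsUnit (g 0 0) := by
            have := hA.isUnit_add_left_of_commute (isUnit_one) (Commute.all _ _)
            simpa using this
          have : (2 * g 0 0) * g 1 0 = 0 := by
            linear_combination e - (2 * g 0 0 * g 1 0 * 0) - (g 0 0 ^ 2) * hC2 - (g' 0 0 + (1 + g 1 0 * g 0 0)) * (hA'.trans (by rw [hC2, add_zero]))
          exact hC0 ((h2.mul hu).mul_right_eq_zero.1 this)
      · have hN3 : 3 ≤ N := by
          by_contra hlt
          exact hC2 (pow_eq_zero_of_le (by omega) hN)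
        refine ih ((N + 1) / 2) (by omega) g' hg'K (hC'.trans_ne hC2) ?_ ?_
        · rw [hC', ← pow_mul]
          exact pow_eq_zero_of_le (by omega) hN
        · rw [hA', show 1 + g 1 0 * g 0 0 + g 1 0 ^ 2 - 1 = g 1 0 * (g 0 0 + g 1 0) by ring]
          exact Commute.isNilpotent_mul_right (Commute.all _ _) hCn
  by_cases hC0 : n 1 0 = 0
  · by_cases hA2 : n 0 0 ^ 2 = 1
    · have hu : IsUnit (n 0 0 + 1) := by
        have := hA.isUnit_add_left_of_commute h2 (Commute.all _ _)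
        convert this using 1; ring
      have hA1 : n 0 0 = 1 := sub_eq_zero.1 (hu.mul_right_eq_zero.1 (by linear_combination hA2))
      have hD : n 1 1 = 1 := by simpa [hC0, hA1] using det_eq n
      have hB0 : n 0 1 ≠ 0 := fun e => hn1 (by apply ext2 <;> simp [hC0, hA1, hD, e])
      set g := lR y * n * (lR y)⁻¹ with hg
      have h10 : g 1 0 = -(n 0 1 * y ^ 2) := by simp [hg, hC0, hA1, hD]; ring
      obtain ⟨N, hN⟩ := hB
      refine step N g (hnorm _ hly n hn) ?_ ?_ ?_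
      · rw [h10, neg_ne_zero]
        exact fun e => hB0 ((hy.pow 2).mul_left_eq_zero.1 e)
      · rw [h10, neg_pow, mul_pow, hN]; simp
      · rw [show g 0 0 - 1 = -(n 0 1 * y) by simp [hg, hC0, hA1, hD]]
        exact (Commute.isNilpotent_mul_right (Commute.all _ _) ⟨N, hN⟩).neg
    · refine ⟨n, hn, hC0, ?_, hA2⟩
      rw [show n 0 0 ^ 2 - 1 = (n 0 0 - 1) * (n 0 0 + 1) by ring]
      exact Commute.isNilpotent_mul_right (Commute.all _ _) hA
  · obtain ⟨N, hN⟩ := hC
    exact step N n hn hC0 hN hA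

/-- the trace of an element as a matrix equation -/
theorem coe_add_inv (g : S2 R) :
    (g : Matrix (Fin 2) (Fin 2) R) + (g⁻¹ : S2 R) = (g 0 0 + g 1 1) • (1 : Matrix (Fin 2) (Fin 2) R) := by
  ext i j
  fin_cases i <;> fin_cases j <;> simp [Matrix.SpecialLinearGroup.coe_inv, Matrix.adjugate_fin_two, add_comm]

theorem tr_pow {p : ℕ} [Fact p.Prime] [CharP R p] (g : S2 R) (n : ℕ) (h : g ^ p ^ n = g) :
    (g 0 0 + g 1 1) ^ p ^ n = g 0 0 + g 1 1 := by
  haveI : CharP (Matrix (Fin 2) (Fin 2) R) p := inferInstance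
  have hc : Commute (g : Matrix (Fin 2) (Fin 2) R) ((g⁻¹ : S2 R) : Matrix (Fin 2) (Fin 2) R) := by
    show _ * _ = _ * _
    rw [← Matrix.SpecialLinearGroup.coe_mul, ← Matrix.SpecialLinearGroup.coe_mul, mul_inv_cancel, inv_mul_cancel]
  have h1 := add_pow_char_pow_of_commute p n hc
  rw [coe_add_inv, ← Matrix.SpecialLinearGroup.coe_pow, ← Matrix.SpecialLinearGroup.coe_pow, inv_pow, h,
    coe_add_inv, smul_pow, one_pow] at h1
  have := congrArg (fun A : Matrix (Fin 2) (Fin 2) R => A 0 0) h1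
  simpa using this

/-- a semisimple element is fixed by the `q²` power -/
theorem pow_card_sq {K : Type*} [Field K] [Fintype K] (h2 : (2 : K) ≠ 0) (g : S2 K)
    (hd : (g 0 0 + g 1 1) ^ 2 - 4 ≠ 0) : g ^ (Fintype.card K) ^ 2 = g := by
  obtain ⟨p, hp⟩ := CharP.exists K
  obtain ⟨n, hpp, hq⟩ := FiniteField.card K p
  haveI := Fact.mk hpp
  haveI : CharP (Matrix (Fin 2) (Fin 2) K) p := inferInstance
  set Q := (Fintype.card K) ^ 2 with hQ
  set m := (g : Matrix (Fin 2) (Fin 2) K)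
  set τ := g 0 0 + g 1 1
  set δ := τ ^ 2 - 4
  set s := (2 : K) • m - τ • (1 : Matrix (Fin 2) (Fin 2) K) with hs
  have hss : s * s = δ • (1 : Matrix (Fin 2) (Fin 2) K) := by
    have hd' := det_eq g
    ext i j
    fin_cases i <;> fin_cases j <;> simp [hs, δ, τ, m, Matrix.mul_apply, Fin.sum_univ_two] <;>
      first
        | linear_combination (-4 : K) * hd'
        | linear_combination (4 : K) * hd'
        | ring
  have hQp : Q = p ^ (2 * (n : ℕ)) := by rw [hQ, hq, ← pow_mul, mul_comm]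
  have hQodd : ∃ t, Q = 2 * t + 1 ∧ (Fintype.card K - 1) ∣ t := by
    have hodd : Odd (Fintype.card K) := by
      rw [hq]
      exact (hpp.odd_of_ne_two (by rintro rfl; exact h2 (CharP.cast_eq_zero K 2))).pow
    obtain ⟨u, hu⟩ := hodd
    refine ⟨2 * u * (u + 1), ?_, ?_⟩
    · rw [hQ, hu]; ring
    · rw [hu]; exact ⟨u + 1, by simp⟩
  obtain ⟨t, ht, u, hu⟩ := hQodd
  have hsQ : s ^ Q = s := by
    rw [ht, pow_succ, pow_mul, pow_two, hss, smul_pow, one_pow, hu, pow_mul,
      FiniteField.pow_card_sub_one_eq_one δ hd, one_pow, one_smul, one_mul]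
  have hcast : ∀ c : K, c ^ Q = c := fun c => by
    rw [hQ, pow_two, pow_mul, FiniteField.pow_card, FiniteField.pow_card]
  have hmain : (2 : K) • m ^ Q = (2 : K) • m := by
    have h1 : (2 : K) • m = τ • (1 : Matrix (Fin 2) (Fin 2) K) + s := by rw [hs]; abel
    have h3 : ((2 : K) • m) ^ Q = (2 : K) • m := by
      rw [h1, hQp, add_pow_char_pow_of_commute p (2 * (n : ℕ)) ((Commute.one_left s).smul_left τ), ← hQp, smul_pow, one_pow,
        hcast, hsQ]
    have h4 : ((2 : K) • m) ^ Q = (2 : K) • m ^ Q := by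
      rw [smul_pow, hcast]
    rw [← h4, h3]
  have : m ^ Q = m := smul_right_injective _ h2 hmain
  exact Subtype.ext (by rw [Matrix.SpecialLinearGroup.coe_pow]; exact this)

end Cfsg.Agent.QPair.SL2Ring
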