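import Cfsg.Agent.QPair.Commutator

/-! The set of root subgroups of a quadratic pair and its graph. -/

set_option autoImplicit false
set_option linter.style.haveILetI false

namespace Cfsg.Agent.QPair

open Cfsg Cfsg.Agent.Quad

variable {k : Type*} [Field k] {M : Type*} [AddCommGroup M] [Module k M] [FiniteDimensional k M]

local notation "GL'" => LinearMap.GeneralLinearGroup k M
local notation "End'" => Module.End k M
local notation "Sig" => quadraticRootSubgroups

variable {G : Subgroup (LinearMap.GeneralLinearGroup k M)} {a b c x y : Module.End k M} {d : ℕ}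
  {A B C : Subgroup (LinearMap.GeneralLinearGroup k M)} {g : LinearMap.GeneralLinearGroup k M}

theorem RS_commutator_bot (hd : Deg G d) (ha : Root G d a) (hb : Root G d b) :
    ⁅RS G a ha.sq, RS G b hb.sq⁆ = ⊥ ↔ a * b = b * a := by
  refine ⟨fun h => ?_, commutator_RS hd ha hb⟩
  have h1 := Subgroup.mem_centralizer_iff.1
    (Subgroup.commutator_eq_bot_iff_le_centralizer.1 h (uu_mem_RS hd ha (InL.refl ha.tame))) _
    (uu_mem_RS hd hb (InL.refl hb.tame))
  have := comm_iff.1 h1
  rw [dev_uu, dev_uu] at this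
  exact this.symm

theorem rankOne_iff (hd : Deg G d) (ha : Root G d a) (hb : Root G d b) :
    IsRankOnePair (RS G a ha.sq) (RS G b hb.sq) ↔ a * b * a ≠ 0 := by
  constructor
  · intro h hn
    have h' := bab_of_aba hd ha hb hn
    have hea := uu_mem_RS hd ha (InL.refl ha.tame)
    obtain ⟨f, hf, hf1, he⟩ := h.cond_left _ hea (fun e => root_ne_zero hd ha (by
      rw [← dev_uu ha.sq, e, dev_one]))
    have hw := (mem_RS hd hb).1 hf
    have hw0 : dev f ≠ 0 := fun e => hf1 (dev_eq_zero.1 e)
    have hfG := inv_mem (RS_le hd hb hf)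
    have hgG := inv_mem (RS_le hd ha hea)
    rw [conj_RS hd ha hfG, conj_RS hd hb hgG] at he
    have hp := (mem_RS hd (hb.conj hgG)).1 (he ▸ uu_mem_RS hd (ha.conj hfG) (InL.refl (ha.conj hfG).tame))
    rw [dev_uu] at hp
    have n1 : dev f * a * dev f = 0 := nil_all' hd ha hb hn (InL.refl ha.tame) hw hw
    simp only [inv_inv, inv_val hw.tame.sq, val_eq f, uu_inv_val, uu_val] at hp
    have eP : (1 - dev f) * a * (1 + dev f) = a + (a * dev f - dev f * a) := by
      simp only [sub_mul, mul_add, one_mul, mul_one, n1]; abel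
    have eQ : (1 - a) * b * (1 + a) = b - (a * b - b * a) := by
      simp only [sub_mul, mul_add, one_mul, mul_one, hn]; abel
    rw [eP, eQ] at hp
    have hP0 : a + (a * dev f - dev f * a) ≠ 0 := by
      have hP := ha.conj hfG
      rw [inv_inv, inv_val hw.tame.sq, val_eq f, eP] at hP
      exact root_ne_zero hd hP
    have hQr : Root G d (b - (a * b - b * a)) := by
      have := hb.conj hgG
      rwa [inv_inv, uu_inv_val, uu_val, eQ] at this
    have hke := hp.ker_eq hd hQr hP0
    have hre := hp.range_eq hd hQr hP0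
    have t1 : a * dev f * a = 0 := nil_all hd ha hb hn (InL.refl ha.tame) (InL.refl ha.tame) hw
    have e1 : (a + (a * dev f - dev f * a)) * a = 0 := by
      rw [add_mul, sub_mul, ha.sq, t1, mul_assoc, ha.sq, mul_zero]; simp
    have e2 : a * (a + (a * dev f - dev f * a)) = 0 := by
      rw [mul_add, mul_sub, ha.sq, ← mul_assoc, ha.sq, zero_mul, ← mul_assoc, t1]; simp
    have e3 : b * a = 0 := by
      have h3 := mul_zero_left hke.le e1
      rw [sub_mul, sub_mul, hn, mul_assoc b a a, ha.sq, mul_zero, sub_zero, sub_zero] at h3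
      exact h3
    have e4 : a * b = 0 := by
      have h4 := mul_zero_right hre.ge e2
      rw [mul_sub, mul_sub, ← mul_assoc, ha.sq, zero_mul, ← mul_assoc, hn, sub_zero, sub_zero] at h4
      exact h4
    -- commuting subgroups
    have hc : a * b = b * a := by rw [e3, e4]
    have hfix : ∀ {p q : End'} (hp : Root G d p) (hq : Root G d q), p * q = q * p → ∀ {u : GL'}, u ∈ RS G q hq.sq →
        conjBy (RS G p hp.sq) u⁻¹ = RS G p hp.sq := by
      intro p q hp hq hpq u hu
      rw [conj_RS hd hp (inv_mem (RS_le hd hq hu))]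
      refine RS_eq hd hp (hp.conj (inv_mem (RS_le hd hq hu))) ?_
      have hu' := (mem_RS hd hq).1 hu
      rw [inv_inv, inv_val hu'.tame.sq, val_eq u]
      have e5 := comm_all hd hp hq hpq (InL.refl hp.tame) hu'
      have : (1 - dev u) * p * (1 + dev u) = p := by
        simp only [sub_mul, mul_add, one_mul, mul_one, e5]
        rw [mul_assoc (dev u) p (dev u), e5, ← mul_assoc, hu'.tame.sq, zero_mul]
        abel
      rw [this]; exact InL.refl hp.tame
    have := h.cond_left _ hea (fun e => root_ne_zero hd ha (by rw [← dev_uu ha.sq, e, dev_one]))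
    obtain ⟨f', hf', -, he'⟩ := this
    rw [hfix ha hb hc hf', hfix hb ha hc.symm hea] at he'
    exact h.ne he'
  · intro h
    obtain ⟨x, hx, -, F⟩ := exists_frame hd ha hb h
    rw [← RS_eq hd hb F.right hx]
    exact (F.special hd).1

theorem pair_cases (hss : SS G) (hd : Deg G d) (ha : Root G d a) (hb : Root G d b) :
    ⁅RS G a ha.sq, RS G b hb.sq⁆ = ⊥ ∨ IsRankOnePair (RS G a ha.sq) (RS G b hb.sq) ∨
      RootCommutatorCase (Sig G) (RS G a ha.sq) (RS G b hb.sq) := by
  by_cases hn : a * b * a = 0
  · by_cases hc : a * b = b * a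
    · exact Or.inl (commutator_RS hd ha hb hc)
    have P : NilPair G d a b := ⟨hd, ha, hb, hn⟩
    obtain ⟨h1, h2, h3, -⟩ := unipotent_result hss P hc
    refine Or.inr (Or.inr ⟨h1, fun u hu v hv => ?_, h2, h3⟩)
    have hu' : u ∈ ⁅RS G a ha.sq ⊔ RS G b hb.sq, RS G a ha.sq ⊔ RS G b hb.sq⁆ :=
      Subgroup.commutator_mono le_sup_left le_sup_right hu
    exact (Subgroup.mem_centralizer_iff.1
      (Subgroup.commutator_eq_bot_iff_le_centralizer.1 (class_two P hc).2 hu') v hv).symm
  · exact Or.inr (Or.inl ((rankOne_iff hd ha hb).2 hn))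

theorem sigma_le (hs : Std G d) (hA : A ∈ Sig G) : A ≤ G := by
  obtain ⟨a, ha, rfl⟩ := exists_root hs hA
  exact RS_le hs.deg ha

theorem sigma_conj (hs : Std G d) (hA : A ∈ Sig G) (hg : g ∈ G) : conjBy A g ∈ Sig G := by
  obtain ⟨a, ha, rfl⟩ := exists_root hs hA
  rw [conj_RS hs.deg ha hg]
  exact RS_mem hs.deg (ha.conj hg)

theorem sigma_comm (hs : Std G d) (hA : A ∈ Sig G) : IsMulCommutative A := by
  obtain ⟨a, ha, rfl⟩ := exists_root hs hA
  exact RS_isMulCommutative hs.deg ha

theorem sigma_ne_bot (hs : Std G d) (hA : A ∈ Sig G) : A ≠ ⊥ := by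
  obtain ⟨a, ha, rfl⟩ := exists_root hs hA
  intro e
  have := e ▸ uu_mem_RS hs.deg ha (InL.refl ha.tame)
  rw [Subgroup.mem_bot] at this
  exact root_ne_zero hs.deg ha (by rw [← dev_uu ha.sq, this, dev_one])

omit [FiniteDimensional k M] in
theorem fadj_symm (h : FAdj (Sig G) A B) : FAdj (Sig G) B A :=
  ⟨h.2.1, h.1, RankOnePair_symm h.2.2⟩

omit [FiniteDimensional k M] in
theorem reach_symm (h : Relation.ReflTransGen (FAdj (Sig G)) A B) :
    Relation.ReflTransGen (FAdj (Sig G)) B A := by
  induction h with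
  | refl => exact Relation.ReflTransGen.refl
  | tail _ h2 ih => exact (Relation.ReflTransGen.single (fadj_symm h2)).trans ih

theorem exists_partner (hss : SS G) (hs : Std G d) (hA : A ∈ Sig G) :
    ∃ B, FAdj (Sig G) A B := by
  obtain ⟨a, ha, rfl⟩ := exists_root hs hA
  obtain ⟨g, hg, hne⟩ := exists_opposite hss hs.deg ha
  exact ⟨_, RS_mem hs.deg ha, RS_mem hs.deg (ha.conj hg), (rankOne_iff hs.deg ha (ha.conj hg)).2 hne⟩

theorem reach_commutator (hss : SS G) (hd : Deg G d) (ha : Root G d a) (hb : Root G d b)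
    (hn : a * b * a = 0) (h0 : zz a b ≠ 0) (hz : Root G d (zz a b)) :
    Relation.ReflTransGen (FAdj (Sig G)) (RS G b hb.sq) (RS G (zz a b) hz.sq) := by
  obtain ⟨x, T⟩ := exists_two hss hd ha hb hn h0
  set c := zz a b with hc
  have hx := T.frame.right
  have two : ∀ {w : End'} (hw : Root G d w), b * w * b ≠ 0 → c * w * c ≠ 0 →
      Relation.ReflTransGen (FAdj (Sig G)) (RS G b hb.sq) (RS G c hz.sq) := fun {w} hw h1 h2 =>
    (Relation.ReflTransGen.single ⟨RS_mem hd hb, RS_mem hd hw, (rankOne_iff hd hb hw).2 h1⟩).trans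
      (Relation.ReflTransGen.single (fadj_symm ⟨RS_mem hd hz, RS_mem hd hw, (rankOne_iff hd hz hw).2 h2⟩))
  have hcxc : c * x * c ≠ 0 := by rw [T.frame.axa]; exact h0
  have key : ∀ t : End', t * x * t = 0 → (c * x * t * x * c) * x * (c * x * t * x * c) = 0 := by
    intro t ht
    calc (c * x * t * x * c) * x * (c * x * t * x * c) = c * x * t * ((x * c * x) * c * x) * t * x * c := by
          simp only [mul_assoc]
      _ = c * x * (t * x * t) * x * c := by rw [T.frame.xax, T.frame.xax]; simp only [mul_assoc]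
      _ = 0 := by rw [ht]; simp
  by_cases hq : c * x * b * x * c = 0
  · -- conjugate by `1 + a`
    set u := uu a ha.sq
    have hu := uu_mem ha.tame
    refine two (hx.conj (inv_mem hu)) ?_ ?_
    · intro e
      rw [inv_inv] at e
      have hh := congrArg (fun t => (u : End') * t * ((u⁻¹ : GL') : End')) e
      simp only [mul_zero, zero_mul] at hh
      have e' : ((u : End') * b * ((u⁻¹ : GL') : End')) * x * ((u : End') * b * ((u⁻¹ : GL') : End')) = 0 := by
        rw [← hh]; simp only [u, mul_assoc]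
      have eb : (u : End') * b * ((u⁻¹ : GL') : End') = b + c := by
        rw [uu_val, uu_inv_val, hc, zz]
        simp only [add_mul, mul_sub, one_mul, mul_one, hn]; abel
      rw [eb] at e'
      have := key _ e'
      rw [mul_add (c * x), add_mul, add_mul, hq, zero_add, T.frame.axa, T.frame.axa, T.frame.axa] at this
      exact h0 this
    · intro e
      rw [inv_inv] at e
      have e1 : c * ((u⁻¹ : GL') : End') = c := by rw [uu_inv_val, mul_sub, mul_one, T.c_mul_a, sub_zero]
      have e2 : (u : End') * c = c := by rw [uu_val, add_mul, one_mul, T.a_mul_c, add_zero]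
      rw [← mul_assoc c, ← mul_assoc c, e1, mul_assoc, e2] at e
      exact hcxc e
  · refine two hx (fun e => ?_) hcxc
    obtain ⟨x', -, -, -, e1, -⟩ := T.frame.exists_inv hd T.q_mem hq
    have h1 := key _ e
    have hr := (T.q_mem).root hd T.frame.left hq
    have hs := (T.q_mem).symm hd T.frame.left hq
    have := nil_all hd hr T.frame.right h1 hs hs (InL.refl T.frame.right.tame)
    exact hcxc this

/-- non-commuting members lie in one component -/
theorem reach_of_noncomm (hss : SS G) (hs : Std G d) (hA : A ∈ Sig G) (hB : B ∈ Sig G)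
    (h : ⁅A, B⁆ ≠ ⊥) : Relation.ReflTransGen (FAdj (Sig G)) A B := by
  have hd := hs.deg
  obtain ⟨a, ha, rfl⟩ := exists_root hs hA
  obtain ⟨b, hb, rfl⟩ := exists_root hs hB
  have hne : a * b ≠ b * a := fun e => h (commutator_RS hd ha hb e)
  by_cases hn : a * b * a = 0
  · have h0 : zz a b ≠ 0 := sub_ne_zero.2 hne
    have hz := root_zz hd ha hb hn h0
    have h0' : zz b a ≠ 0 := by rw [zz_swap, neg_ne_zero]; exact h0
    have hn' := bab_of_aba hd ha hb hn
    have hz' := root_zz hd hb ha hn' h0'
    have r1 := reach_commutator hss hd hb ha hn' h0' hz'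
    have r2 := reach_commutator hss hd ha hb hn h0 hz
    have hneg : InL G (zz a b) (zz b a) := by
      have := (InL.refl hz.tame).neg
      rwa [← zz_swap] at this
    rw [RS_eq hd hz hz' hneg] at r1
    refine r1.trans ?_
    exact reach_symm r2
  · exact Relation.ReflTransGen.single ⟨hA, hB, (rankOne_iff hd ha hb).2 hn⟩

end Cfsg.Agent.QPair
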