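import Cfsg.Agent.QPair.Frame

/-! The `SL₂` over a field generated by two lines of opposite roots. -/

set_option autoImplicit false
set_option linter.style.haveILetI false

namespace Cfsg.Agent.QPair

open Polynomial SL2Ring

variable {k : Type*} [Field k] {M : Type*} [AddCommGroup M] [Module k M]

local notation "GL'" => LinearMap.GeneralLinearGroup k M
local notation "End'" => Module.End k M

variable {G : Subgroup (LinearMap.GeneralLinearGroup k M)} {a b x : Module.End k M} {d : ℕ} {f : k[X]}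

/-- all data of a non-nilpotent pair -/
structure Link (G : Subgroup GL') (d : ℕ) (a b x : End') (f : k[X]) : Prop where
  deg : Deg G d
  frame : Frame G d a x
  left : Tame G b
  memb : InL G b x
  memx : InL G x b
  monic : f.Monic
  irr : Irreducible f
  cop : IsCoprime f X
  ann : ∀ P, pT a b P * a = 0 ↔ f ∣ P
  all : ∀ P, InL G a (pT a b P * a)

theorem exists_link [FiniteDimensional k M] (hd : Deg G d) (ha : Root G d a) (hb : Root G d b)
    (h : a * b * a ≠ 0) : ∃ x f, Link G d a b x f := by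
  obtain ⟨x, hx, hx0, F⟩ := exists_frame hd ha hb h
  obtain ⟨hall, f, hf, hi, hX, hann⟩ := (dich hd ha hb).resolve_left h
  exact ⟨x, f, hd, F, hb.tame, hx, hx.symm hd hb hx0, hf, hi, hX, hann, hall⟩

/-- the coordinates on the image of `a` -/
noncomputable def rho (a b x : End') (f : k[X]) (z : Qf f) : End' :=
  pT a b (AdjoinRoot.mk_surjective z).choose * (a * x)

namespace Link

variable (L : Link G d a b x f)
include L

theorem rho_mk (P : k[X]) : rho a b x f (AdjoinRoot.mk f P) = pT a b P * (a * x) := by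
  have h := (AdjoinRoot.mk_surjective (AdjoinRoot.mk f P)).choose_spec
  rw [AdjoinRoot.mk_eq_mk, ← L.ann, pT, map_sub, sub_mul, sub_eq_zero] at h
  rw [rho, ← mul_assoc, ← mul_assoc, h]

theorem rho_mul_a (P : k[X]) : rho a b x f (AdjoinRoot.mk f P) * a = pT a b P * a := by
  rw [L.rho_mk, mul_assoc, L.frame.axa]

theorem rho_form (z : Qf f) : ∃ y, InL G a y ∧ rho a b x f z = y * x ∧ rho a b x f z * a = y := by
  obtain ⟨P, rfl⟩ := AdjoinRoot.mk_surjective z
  exact ⟨_, L.all P, by rw [L.rho_mk, mul_assoc], L.rho_mul_a P⟩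

theorem rho_add (z w : Qf f) : rho a b x f (z + w) = rho a b x f z + rho a b x f w := by
  obtain ⟨P, rfl⟩ := AdjoinRoot.mk_surjective z
  obtain ⟨Q, rfl⟩ := AdjoinRoot.mk_surjective w
  rw [← map_add, L.rho_mk, L.rho_mk, L.rho_mk, pT_add, add_mul]

theorem rho_zero : rho a b x f 0 = 0 := by
  have := L.rho_mk 0
  rw [map_zero] at this
  rw [this, pT, map_zero, zero_mul]

theorem rho_alg (c : k) : rho a b x f (algebraMap k (Qf f) c) = c • (a * x) := by
  rw [AdjoinRoot.algebraMap_eq, ← AdjoinRoot.mk_C, L.rho_mk, pT, aeval_C, Algebra.algebraMap_eq_smul_one,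
    smul_mul_assoc, one_mul]

theorem rho_one : rho a b x f 1 = a * x := by simpa using L.rho_alg 1

theorem e1_rho (z : Qf f) : a * (x * rho a b x f z) = rho a b x f z := by
  obtain ⟨y, hy, e, -⟩ := L.rho_form z
  rw [e, ← mul_assoc, ← mul_assoc, L.frame.lmul hy]

theorem a_rho (z : Qf f) : a * rho a b x f z = 0 := by
  obtain ⟨y, hy, e, -⟩ := L.rho_form z
  rw [e, ← mul_assoc, L.frame.a_mul hy, zero_mul]

theorem rho_x (z : Qf f) : rho a b x f z * x = 0 := by
  obtain ⟨y, hy, e, -⟩ := L.rho_form z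
  rw [e, mul_assoc, L.frame.right.sq, mul_zero]

theorem rho_e0 (z : Qf f) : rho a b x f z * e0 a x = 0 := by
  obtain ⟨y, hy, e, -⟩ := L.rho_form z
  rw [e, mul_assoc, ← Frame.e0_swap, L.frame.symm.mul_e0 (InL.refl L.frame.right.tame), mul_zero]

theorem e0_rho (z : Qf f) : e0 a x * rho a b x f z = 0 := by
  obtain ⟨y, hy, e, -⟩ := L.rho_form z
  rw [e, ← mul_assoc, L.frame.e0_mul hy, zero_mul]

theorem rho_rho (z w : Qf f) : rho a b x f z * rho a b x f w = rho a b x f (z * w) := by
  obtain ⟨P, rfl⟩ := AdjoinRoot.mk_surjective z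
  obtain ⟨Q, rfl⟩ := AdjoinRoot.mk_surjective w
  calc rho a b x f (AdjoinRoot.mk f P) * rho a b x f (AdjoinRoot.mk f Q)
      = pT a b P * (a * x * (pT a b Q * a) * x) := by rw [L.rho_mk, L.rho_mk]; simp only [mul_assoc]
    _ = rho a b x f (AdjoinRoot.mk f P * AdjoinRoot.mk f Q) := by
      rw [L.frame.lmul (L.all Q), ← map_mul, L.rho_mk, pT_mul]; simp only [mul_assoc]

theorem rho_eq_zero {z : Qf f} (h : rho a b x f z = 0) : z = 0 := by
  obtain ⟨P, rfl⟩ := AdjoinRoot.mk_surjective z
  rw [AdjoinRoot.mk_eq_zero, ← L.ann, ← L.rho_mul_a, h, zero_mul]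

theorem x_rho_root : x * rho a b x f (AdjoinRoot.root f) = b := by
  rw [← AdjoinRoot.mk_X, L.rho_mk, pT, aeval_X]
  calc x * (a * b * (a * x)) = x * a * b * a * x := by simp only [mul_assoc]
    _ = b := by rw [L.frame.symm.lmul L.memx, L.frame.symm.rmul L.memx]

/-- the representation -/
noncomputable def phi : S2 (Qf f) →* End' :=
  have _ := L
  { toFun := fun m => rho a b x f (m 0 0) + rho a b x f (m 0 1) * a + x * rho a b x f (m 1 0) +
      x * rho a b x f (m 1 1) * a + e0 a x
    map_one' := by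
      simp only [Matrix.SpecialLinearGroup.coe_one, Matrix.one_apply_eq, ne_eq, zero_ne_one, not_false_eq_true,
        Matrix.one_apply_ne, one_ne_zero, L.rho_one, L.rho_zero, zero_mul, mul_zero, add_zero]
      rw [mul_assoc, L.frame.axa, e0]
      abel
    map_mul' := by
      intro m n
      have ra := fun z => L.a_rho z
      have ra' : ∀ z t, a * (rho a b x f z * t) = 0 := fun z t => by rw [← mul_assoc, L.a_rho, zero_mul]
      have rx : ∀ z t, rho a b x f z * (x * t) = 0 := fun z t => by rw [← mul_assoc, L.rho_x, zero_mul]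
      have xx : ∀ t, x * (x * t) = 0 := fun t => by rw [← mul_assoc, L.frame.right.sq, zero_mul]
      have aa : ∀ t, a * (a * t) = 0 := fun t => by rw [← mul_assoc, L.frame.left.sq, zero_mul]
      have er : ∀ z t, a * (x * (rho a b x f z * t)) = rho a b x f z * t := fun z t => by
        rw [← mul_assoc x, ← mul_assoc a, L.e1_rho]
      have rr : ∀ z w t, rho a b x f z * (rho a b x f w * t) = rho a b x f (z * w) * t := fun z w t => by
        rw [← mul_assoc, L.rho_rho]
      have ea : e0 a x * x = 0 := by rw [← Frame.e0_swap, L.frame.symm.e0_mul (InL.refl L.frame.right.tame)]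
      have ea' : ∀ t, e0 a x * (x * t) = 0 := fun t => by rw [← mul_assoc, ea, zero_mul]
      have et : ∀ z t, e0 a x * (rho a b x f z * t) = 0 := fun z t => by rw [← mul_assoc, L.e0_rho, zero_mul]
      have ae : a * e0 a x = 0 := L.frame.mul_e0 (InL.refl L.frame.left.tame)
      have xe : x * e0 a x = 0 := by rw [← Frame.e0_swap]; exact L.frame.symm.mul_e0 (InL.refl L.frame.right.tame)
      simp only [mul_apply2, L.rho_add, add_mul, mul_add, mul_assoc, ra, ra', rx, er, L.e1_rho, rr,
        L.rho_rho, ea', L.e0_rho, et, ae, L.rho_e0, L.frame.e0_sq, mul_zero, add_zero, zero_add]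
      abel }

theorem phi_apply (m : S2 (Qf f)) : L.phi m = rho a b x f (m 0 0) + rho a b x f (m 0 1) * a +
    x * rho a b x f (m 1 0) + x * rho a b x f (m 1 1) * a + e0 a x := rfl

theorem phi_uR (z : Qf f) : L.phi (uR z) = 1 + rho a b x f z * a := by
  rw [L.phi_apply, uR00, uR01, uR10, uR11, L.rho_one, L.rho_zero, mul_zero, add_zero, mul_assoc x,
    L.frame.axa, e0]
  abel

theorem phi_lR (z : Qf f) : L.phi (lR z) = 1 + x * rho a b x f z := by
  rw [L.phi_apply, lR00, lR01, lR10, lR11, L.rho_one, L.rho_zero, zero_mul, add_zero, mul_assoc x (a * x),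
    L.frame.axa, e0]
  abel

theorem phi_injective : Function.Injective L.phi := by
  rw [injective_iff_map_eq_one]
  intro m hm
  have h1 : ∀ u v : End', u * L.phi m * v = u * v := fun u v => by rw [hm, mul_one]
  have hxx := L.frame.right.sq
  have haa := L.frame.left.sq
  have hax : a * x * (a * x) = a * x := by rw [← mul_assoc, L.frame.axa]
  have ea : e0 a x * (a * x) = 0 := by
    rw [← mul_assoc, L.frame.e0_mul (InL.refl L.frame.left.tame), zero_mul]
  have ex : e0 a x * x = 0 := by rw [← Frame.e0_swap, L.frame.symm.e0_mul (InL.refl L.frame.right.tame)]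
  have ra' : ∀ z t, a * (rho a b x f z * t) = 0 := fun z t => by rw [← mul_assoc, L.a_rho, zero_mul]
  have rx : ∀ z t, rho a b x f z * (x * t) = 0 := fun z t => by rw [← mul_assoc, L.rho_x, zero_mul]
  have xx : ∀ t, x * (x * t) = 0 := fun t => by rw [← mul_assoc, hxx, zero_mul]
  have aa : ∀ t, a * (a * t) = 0 := fun t => by rw [← mul_assoc, haa, zero_mul]
  have er : ∀ z t, a * (x * (rho a b x f z * t)) = rho a b x f z * t := fun z t => by
    rw [← mul_assoc x, ← mul_assoc a, L.e1_rho]
  have r1 : ∀ z, rho a b x f z * (a * x) = rho a b x f z := fun z => by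
    rw [← L.rho_one, L.rho_rho, mul_one]
  have ae : ∀ t, a * (e0 a x * t) = 0 := fun t => by
    rw [← mul_assoc, L.frame.mul_e0 (InL.refl L.frame.left.tame), zero_mul]
  have xe : ∀ t, x * (e0 a x * t) = 0 := fun t => by
    rw [← mul_assoc, ← Frame.e0_swap, L.frame.symm.mul_e0 (InL.refl L.frame.right.tame), zero_mul]
  have key : ∀ {z w : Qf f}, rho a b x f z = rho a b x f w → z = w := fun {z w} h => by
    refine sub_eq_zero.1 (L.rho_eq_zero ?_)
    have := L.rho_add (z - w) w
    rw [sub_add_cancel, h] at this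
    exact left_eq_add.1 (this.trans (add_comm _ _))
  have k00 := h1 (a * x) (a * x)
  have k01 := h1 (a * x) x
  have k10 := h1 a (a * x)
  have k11 := h1 a x
  simp only [L.phi_apply, add_mul, mul_add, mul_assoc, ra', L.a_rho, L.rho_x, xx, aa, er, L.e1_rho, r1, ea,
    ex, hxx, mul_zero, add_zero, zero_add] at k00 k01 k10 k11
  apply ext2 <;> apply key
  · rw [k00, ← mul_assoc, hax]
    simpa using L.rho_one.symm
  · rw [k01]
    simpa using L.rho_zero.symm
  · rw [k10]
    simpa using L.rho_zero.symm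
  · rw [k11]
    simpa using L.rho_one.symm

/-- as a map to the linear group -/
noncomputable def Phi : S2 (Qf f) →* GL' := L.phi.toHomUnits

theorem Phi_val (m : S2 (Qf f)) : ((L.Phi m : GL') : End') = L.phi m := rfl

theorem Phi_injective : Function.Injective L.Phi := fun _ _ h => L.phi_injective (congrArg Units.val h)

theorem Hf_eq_top : Hf f = ⊤ := Hf_top L.deg.two L.deg.three L.monic L.irr L.cop

theorem rho_smul (c : k) : rho a b x f (c • AdjoinRoot.root f) = c • rho a b x f (AdjoinRoot.root f) := by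
  rw [Algebra.smul_def, ← L.rho_rho, L.rho_alg, smul_mul_assoc, mul_assoc, L.e1_rho]

theorem phi_gen_u (c : k) : L.phi (uR (algebraMap k (Qf f) c)) = 1 + c • a := by
  rw [L.phi_uR, L.rho_alg, smul_mul_assoc, L.frame.axa]

theorem phi_gen_l (c : k) : L.phi (lR (c • AdjoinRoot.root f)) = 1 + c • b := by
  rw [L.phi_lR, L.rho_smul, mul_smul_comm, L.x_rho_root]

theorem Phi_mem (m : S2 (Qf f)) : L.Phi m ∈ G := by
  have hm : m ∈ Hf f := by rw [L.Hf_eq_top]; exact Subgroup.mem_top m
  have : Hf f ≤ G.comap L.Phi := by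
    rw [Hf, gen, Subgroup.closure_le]
    rintro _ (⟨c, rfl⟩ | ⟨c, rfl⟩)
    · obtain ⟨g, hg, e⟩ := L.frame.left.tame.2 c
      rw [SetLike.mem_coe, Subgroup.mem_comap, show L.Phi _ = g from Units.ext (by rw [Phi_val, L.phi_gen_u, e])]
      exact hg
    · obtain ⟨g, hg, e⟩ := L.left.2 c
      rw [SetLike.mem_coe, Subgroup.mem_comap, show L.Phi _ = g from Units.ext (by rw [Phi_val, L.phi_gen_l, e])]
      exact hg
  exact this hm

theorem lower_mem (z : Qf f) : InL G b (x * rho a b x f z) := by
  refine ⟨⟨?_, fun c => ⟨_, L.Phi_mem (lR (algebraMap k (Qf f) c * z)), ?_⟩⟩, ?_, ?_⟩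
  · rw [mul_assoc, ← mul_assoc (rho a b x f z), L.rho_x, zero_mul, mul_zero]
  · rw [Phi_val, L.phi_lR, ← L.rho_rho, L.rho_alg, smul_mul_assoc, mul_assoc, L.e1_rho, mul_smul_comm]
  · exact (LinearMap.range_comp_le_range _ x).trans L.memb.im
  · obtain ⟨y, hy, e, -⟩ := L.rho_form z
    intro m hm
    rw [LinearMap.mem_ker, e, ← mul_assoc, Module.End.mul_apply, LinearMap.mem_ker.1 (L.memb.ker hm), map_zero]

end Link

end Cfsg.Agent.QPair
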