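import Cfsg.Agent.QPair.Conjugates

/-! Every quadratic element lies in one component or commutes with the component. -/

set_option autoImplicit false
set_option linter.style.haveILetI false

namespace Cfsg.Agent.QPair

open Cfsg Cfsg.Agent.Quad

variable {k : Type*} [Field k] {M : Type*} [AddCommGroup M] [Module k M] [FiniteDimensional k M]

local notation "GL'" => LinearMap.GeneralLinearGroup k M
local notation "End'" => Module.End k M
local notation "Sig" => quadraticRootSubgroups

variable {G : Subgroup (LinearMap.GeneralLinearGroup k M)} {a b q u w x : Module.End k M} {d : ℕ}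
  {A0 : Subgroup (LinearMap.GeneralLinearGroup k M)} {g : LinearMap.GeneralLinearGroup k M}

/-- roots of the component of `A0` -/
def InComp (G : Subgroup GL') (d : ℕ) (A0 : Subgroup GL') (a : End') : Prop :=
  ∃ ha : Root G d a, RS G a ha.sq ∈ comp G A0

theorem InComp.comm_of_ne (hss : SS G) (hs : Std G d) (ha : Root G d a) (hb : Root G d b)
    (h : comp G (RS G a ha.sq) ≠ comp G (RS G b hb.sq)) : a * b = b * a :=
  (RS_commutator_bot hs.deg ha hb).1 (comm_of_comp_ne hss hs (RS_mem hs.deg ha) (RS_mem hs.deg hb) h)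

theorem InComp.exists_opp (hss : SS G) (hs : Std G d) (ha : InComp G d A0 a) :
    ∃ x, InComp G d A0 x ∧ Frame G d a x := by
  obtain ⟨ha, hA⟩ := ha
  have hd := hs.deg
  obtain ⟨g, hg, hne⟩ := exists_opposite hss hd ha
  obtain ⟨x, hx, -, F⟩ := exists_frame hd ha (ha.conj hg) hne
  exact ⟨x, ⟨F.right, RS_eq hd (ha.conj hg) F.right hx ▸ ⟨RS_mem hd (ha.conj hg),
    hA.2.trans (Relation.ReflTransGen.single ⟨RS_mem hd ha, RS_mem hd (ha.conj hg),
      (rankOne_iff hd ha (ha.conj hg)).2 hne⟩)⟩⟩, F⟩

/-- a conjugate of a root by a quadratic element stays in the component, up to the sign -/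
theorem comp_cj_or (hss : SS G) (hs : Std G d) (ha : Root G d a) (hq : Tame G q) :
    comp G (RS G (cj q a) (root_cj ha hq).sq) = comp G (RS G a ha.sq) ∨
    comp G (RS G (cj (-q) a) (root_cj ha hq.neg).sq) = comp G (RS G a ha.sq) := by
  by_contra hno
  rw [not_or] at hno
  have hd := hs.deg
  obtain ⟨x, ⟨hx, hxP⟩, F⟩ := InComp.exists_opp hss hs (A0 := RS G a ha.sq) ⟨ha, mem_comp_self (RS_mem hd ha)⟩
  have hxc := comp_eq hxP
  have c1 := InComp.comm_of_ne hss hs (root_cj ha hq) ha hno.1
  have c2 := InComp.comm_of_ne hss hs (root_cj ha hq.neg) ha hno.2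
  have d1 := InComp.comm_of_ne hss hs (root_cj ha hq) hx (by rw [hxc]; exact hno.1)
  have d2 := InComp.comm_of_ne hss hs (root_cj ha hq.neg) hx (by rw [hxc]; exact hno.2)
  set u := q * a * q with hu
  have ez : (2 : k) • zz q a = cj q a - cj (-q) a := by rw [cj_eq, cj_neg]; module
  have eu : (2 : k) • (a - u) = cj q a + cj (-q) a := by rw [cj_eq, cj_neg, hu]; module
  have cz : zz q a * a = a * zz q a := by
    refine smul_right_injective _ hd.two ?_
    show (2 : k) • (zz q a * a) = (2 : k) • (a * zz q a)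
    rw [← smul_mul_assoc, ← mul_smul_comm, ez, sub_mul, mul_sub, c1, c2]
  have cu : (a - u) * x = x * (a - u) := by
    refine smul_right_injective _ hd.two ?_
    show (2 : k) • ((a - u) * x) = (2 : k) • (x * (a - u))
    rw [← smul_mul_assoc, ← mul_smul_comm, eu, add_mul, mul_add, d1, d2]
  have haqa : a * q * a = 0 := by
    rw [zz, sub_mul, mul_sub, mul_assoc q, ha.sq, ← mul_assoc a a, ha.sq, ← mul_assoc a q a] at cz
    simp only [mul_zero, zero_mul, zero_sub, sub_zero] at cz
    have : (2 : k) • (a * q * a) = 0 := by rw [two_smul]; linear_combination (norm := abel) -cz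
    exact (smul_eq_zero.1 this).resolve_left hd.two
  have hau : a * u = 0 := by
    rw [hu, ← mul_assoc, ← mul_assoc, haqa, zero_mul]
  have huu : u * u = 0 := by
    calc u * u = q * a * (q * q) * a * q := by simp only [hu, mul_assoc]
      _ = 0 := by rw [hq.sq]; simp
  have e1 : a * x * u = a := by
    have := congrArg (fun t => a * t) cu
    simp only [sub_mul, mul_sub, ← mul_assoc, ha.sq, hau, zero_mul, F.axa, sub_zero] at this
    linear_combination (norm := abel) this
  have e2 : u * x * u = a := by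
    have := congrArg (fun t => t * u) cu
    simp only [sub_mul, mul_sub, mul_assoc, hau, huu, mul_zero, sub_zero] at this
    rw [← mul_assoc a, e1, sub_eq_zero, ← mul_assoc] at this
    exact this.symm
  have hqa : q * a = 0 := by
    rw [← e2, hu]; simp only [← mul_assoc, hq.sq, zero_mul]
  have hu0 : u = 0 := by rw [hu, hqa, zero_mul]
  rw [hu0] at e2
  exact root_ne_zero hd ha (by rw [← e2]; simp)

theorem comp_cj (hss : SS G) (hs : Std G d) (ha : Root G d a) (hq : Tame G q) :
    comp G (RS G (cj q a) (root_cj ha hq).sq) = comp G (RS G a ha.sq) := by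
  rcases comp_cj_or hss hs ha hq with h | h
  · exact h
  have hd := hs.deg
  have hg := uu_mem hq
  have hb := root_cj ha hq.neg
  have hmem : RS G (cj (-q) a) hb.sq ∈ comp G (RS G a ha.sq) := h ▸ mem_comp_self (RS_mem hd hb)
  have e1 : conjBy (RS G a ha.sq) (uu q hq.sq) = RS G (cj q a) (root_cj ha hq).sq :=
    conj_RS' hd ha hg (root_cj ha hq) (by rw [uu_val, uu_inv_val]; exact InL.refl (root_cj ha hq).tame)
  have e2 : conjBy (RS G (cj (-q) a) hb.sq) (uu q hq.sq) = RS G a ha.sq := by
    refine conj_RS' hd hb hg ha ?_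
    rw [uu_val, uu_inv_val, cj, show (1 + q) * ((1 + -q) * a * (1 - -q)) * (1 - q) =
      ((1 + q) * (1 - q)) * a * ((1 + q) * (1 - q)) by rw [sub_neg_eq_add, ← sub_eq_add_neg]; simp only [mul_assoc],
      one_add_mul_one_sub hq.sq, one_mul, mul_one]
    exact InL.refl ha.tame
  have := reach_conj hs hmem.2 hg
  rw [e1, e2] at this
  exact (comp_eq (G := G) ⟨RS_mem hd ha, this⟩).symm

variable (hss : SS G) (hs : Std G d) (hgen : Subgroup.closure (quadraticElements G) = G)
include hss hs hgen

theorem comp_fixed {A : Subgroup GL'} (hg : g ∈ G) (hA : A ∈ Sig G) : comp G (conjBy A g) = comp G A := by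
  rw [← hgen] at hg
  revert A
  induction hg using Subgroup.closure_induction with
  | mem τ hτ =>
    intro A hA
    obtain ⟨a, ha, rfl⟩ := exists_root hs hA
    have hq := tame_of_quadratic hτ
    have e : conjBy (RS G a ha.sq) τ = RS G (cj (dev τ) a) (root_cj ha hq).sq := by
      refine conj_RS' hs.deg ha hτ.1 (root_cj ha hq) ?_
      rw [inv_val hq.sq, val_eq τ]
      exact InL.refl (root_cj ha hq).tame
    rw [e]
    exact comp_cj hss hs ha hq
  | one => intro A _; rw [conjBy_self (one_mem A)]
  | mul u v hu hv ihu ihv =>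
    intro A hA
    have := sigma_conj hs hA (hgen ▸ hv : v ∈ G)
    rw [← conjBy_conjBy, ihu this, ihv hA]
  | inv u hu ih =>
    intro A hA
    have huG : u ∈ G := hgen ▸ hu
    have := ih (sigma_conj hs hA (inv_mem huG))
    rw [conjBy_conjBy, mul_inv_cancel, conjBy_self (one_mem A)] at this
    exact this.symm

theorem conj_comp {A : Subgroup GL'} (hg : g ∈ G) (hA : A ∈ comp G A0) : conjBy A g ∈ comp G A0 := by
  rw [← comp_eq hA, ← comp_fixed hss hs hgen hg hA.1]
  exact mem_comp_self (sigma_conj hs hA.1 hg)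

theorem conj_GG (hg : g ∈ G) {n : GL'} (hn : n ∈ GG (comp G A0)) : g * n * g⁻¹ ∈ GG (comp G A0) := by
  have : GG (comp G A0) ≤ (GG (comp G A0)).comap (MulAut.conj g).toMonoidHom := iSup₂_le fun B hB z hz =>
    le_GG (conj_comp hss hs hgen hg hB) (Subgroup.mem_map.2 ⟨z, hz, rfl⟩)
  exact this hn

theorem InComp.conj (ha : InComp G d A0 a) (hg : g ∈ G) :
    InComp G d A0 ((g : End') * a * ((g⁻¹ : GL') : End')) := by
  obtain ⟨ha, hA⟩ := ha
  exact ⟨ha.conj hg, conj_RS hs.deg ha hg ▸ conj_comp hss hs hgen hg hA⟩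

theorem InComp.cjq (ha : InComp G d A0 a) (hq : Tame G q) : InComp G d A0 (cj q a) := by
  have := InComp.conj hss hs hgen ha (uu_mem hq)
  rwa [uu_val, uu_inv_val] at this

omit hgen in
/-- a root in the span of roots of a component belongs to it -/
theorem InComp.of_span (hu : Root G d u) (h : u ∈ Submodule.span k {a | InComp G d A0 a}) :
    InComp G d A0 u := by
  have hd := hs.deg
  refine ⟨hu, ?_⟩
  by_contra hno
  obtain ⟨x, ⟨hx, hxP⟩, F⟩ := InComp.exists_opp hss hs (A0 := RS G u hu.sq) ⟨hu, mem_comp_self (RS_mem hd hu)⟩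
  have hcomm : ∀ z ∈ Submodule.span k {a | InComp G d A0 a}, z * x = x * z := by
    intro z hz
    induction hz using Submodule.span_induction with
    | mem z hz =>
      obtain ⟨hz, hzP⟩ := hz
      refine InComp.comm_of_ne hss hs hz hx fun e => hno ?_
      rw [← comp_eq hzP, e, comp_eq hxP]
      exact mem_comp_self (RS_mem hd hu)
    | zero => simp
    | add p r _ _ hp hr => rw [add_mul, mul_add, hp, hr]
    | smul c p _ hp => rw [smul_mul_assoc, mul_smul_comm, hp]
  have h0 := aba_of_comm hu.sq (hcomm u h)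
  rw [F.axa] at h0
  exact root_ne_zero hd hu h0

/-- a root attached to a non-commuting pair -/
theorem exists_base (ha : InComp G d A0 a) (hq : Tame G q) (hne : a * q ≠ q * a) :
    ∃ u, InComp G d A0 u ∧ q * u = 0 ∧ u * q = 0 ∧
      ∀ w, Frame G d u w → rk (e0 u w * q * e0 u w) < rk q := by
  have hd := hs.deg
  have haR := ha.1
  have sa : a ∈ Submodule.span k {a | InComp G d A0 a} := Submodule.subset_span ha
  have s1 : cj q a ∈ Submodule.span k {a | InComp G d A0 a} :=
    Submodule.subset_span (InComp.cjq hss hs hgen ha hq)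
  have s2 : cj (-q) a ∈ Submodule.span k {a | InComp G d A0 a} :=
    Submodule.subset_span (InComp.cjq hss hs hgen ha hq.neg)
  by_cases h0 : q * a * q = 0
  · -- the commutator
    obtain ⟨ht, hrk⟩ := zz_spec hd haR hq h0
    have hz0 : zz q a ≠ 0 := fun e => hne (sub_eq_zero.1 e).symm
    have hle : rk (zz q a) ≤ rk (q * a) + rk (a * q) :=
      (Submodule.finrank_mono (zz_range_le q a)).trans (Submodule.finrank_add_le_finrank_add_finrank _ _)
    have hge : d ≤ rk (zz q a) := by
      by_contra hlt
      exact hz0 (hd.min _ ht (not_le.1 hlt))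
    have hzr : Root G d (zz q a) := ⟨ht, le_antisymm (hle.trans hrk) hge⟩
    have hzP : InComp G d A0 (zz q a) := by
      refine InComp.of_span hss hs hzr ?_
      have : zz q a = cj q a - a := by rw [cj_eq, h0]; abel
      rw [this]
      exact sub_mem s1 sa
    refine ⟨_, hzP, by rw [zz, mul_sub, ← mul_assoc, hq.sq, zero_mul, ← mul_assoc, h0, sub_zero],
      by rw [zz, sub_mul, h0, mul_assoc, hq.sq, mul_zero, sub_zero], fun w F => ?_⟩
    by_cases hqa : q * a = 0
    · -- the kernel drops
      refine lt_of_le_of_lt (show rk (e0 (zz q a) w * q * e0 (zz q a) w) ≤ rk (q * e0 (zz q a) w) by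
        rw [mul_assoc]; exact rk_mul_le_right _ _) ?_
      refine Submodule.finrank_lt_finrank_of_lt (lt_of_le_of_ne (LinearMap.range_comp_le_range _ _) fun e => ?_)
      refine hz0 (LinearMap.ext fun m => ?_)
      obtain ⟨m', hm'⟩ : q m ∈ LinearMap.range (q * e0 (zz q a) w) := by
        rw [show LinearMap.range (q * e0 (zz q a) w) = LinearMap.range q from e]
        exact LinearMap.mem_range_self q m
      have hk : ∀ t, q t = 0 → zz q a t = 0 := fun t ht' => by
        rw [zz, hqa, LinearMap.sub_apply, LinearMap.zero_apply, Module.End.mul_apply, ht', map_zero, sub_zero]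
      have h1 := hk (m - e0 (zz q a) w m') (by rw [_root_.map_sub, ← hm']; simp)
      rw [_root_.map_sub, ← Module.End.mul_apply, F.mul_e0 (InL.refl ht), LinearMap.zero_apply, sub_zero] at h1
      exact h1
    · -- the range drops
      refine lt_of_le_of_lt (rk_mul_le_left _ _) ?_
      have hsum : LinearMap.range (zz q a) = LinearMap.range (q * a) ⊔ LinearMap.range (a * q) := by
        refine Submodule.eq_of_le_of_finrank_le (zz_range_le q a) ?_
        exact ((Submodule.finrank_add_le_finrank_add_finrank _ _).trans hrk).trans hge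
      have hsub : LinearMap.range (q * a) ≤ LinearMap.range q ⊓ LinearMap.ker (e0 (zz q a) w) := by
        refine le_inf (LinearMap.range_comp_le_range _ _) ((le_sup_left.trans hsum.ge).trans ?_)
        exact mul_eq_zero_iff.1 (F.e0_mul (InL.refl ht))
      have h1 := rk_mul_add (e0 (zz q a) w) q
      have h2 := Submodule.finrank_mono hsub
      have h3 : 0 < rk (q * a) := Nat.pos_of_ne_zero fun e =>
        hqa (LinearMap.range_eq_bot.1 (Submodule.finrank_eq_zero.1 e))
      simp only [rk] at h1 h2 h3 ⊢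
      omega
  · -- the product `qaq`
    obtain ⟨ht, hle⟩ := qaq_spec hd haR hq
    have hur : Root G d (q * a * q) := ⟨ht, le_antisymm hle (by
      by_contra hlt
      exact h0 (hd.min _ ht (not_le.1 hlt)))⟩
    have huP : InComp G d A0 (q * a * q) := by
      refine InComp.of_span hss hs hur ?_
      have : q * a * q = a - (2⁻¹ : k) • (cj q a + cj (-q) a) := by
        rw [cj_eq, cj_neg, show a + zz q a - q * a * q + (a - zz q a - q * a * q) = (2 : k) • (a - q * a * q) by
          module, smul_smul, inv_mul_cancel₀ hd.two, one_smul]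
        abel
      rw [this]
      exact sub_mem sa (Submodule.smul_mem _ _ (add_mem s1 s2))
    refine ⟨_, huP, by rw [← mul_assoc, ← mul_assoc, hq.sq, zero_mul, zero_mul],
      by rw [mul_assoc, hq.sq, mul_zero], fun w F => ?_⟩
    refine lt_of_le_of_lt (rk_mul_le_left _ _) ?_
    have hsub : LinearMap.range (q * a * q) ≤ LinearMap.range q ⊓ LinearMap.ker (e0 (q * a * q) w) := by
      refine le_inf ?_ (mul_eq_zero_iff.1 (F.e0_mul (InL.refl ht)))
      rw [mul_assoc]
      exact LinearMap.range_comp_le_range _ _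
    have h1 := rk_mul_add (e0 (q * a * q) w) q
    have h2 := Submodule.finrank_mono hsub
    have h3 := hur.rank
    have := hd.pos
    simp only [rk] at h1 h2 h3 ⊢
    omega

/-- splitting off the parts seen by a frame of the component -/
theorem peel (hu : InComp G d A0 u) (hw : InComp G d A0 w) (F : Frame G d u w) (hq : Tame G q)
    (hqu : q * u = 0) (huq : u * q = 0) :
    ∃ hr : Tame G (e0 u w * q * e0 u w),
      uu q hq.sq * (uu _ hr.sq)⁻¹ ∈ GG (comp G A0) := by
  have hd := hs.deg
  set X := GG (comp G A0)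
  have hRu : RS G u F.left.sq ≤ X := le_GG hu.2
  have hRw : RS G w F.right.sq ≤ X := le_GG hw.2
  set e1 := u * w with he1
  set e2 := w * u with he2
  set f := e0 u w with hf
  have q1 : q * e1 = 0 := by rw [he1, ← mul_assoc, hqu, zero_mul]
  have q2 : e2 * q = 0 := by rw [he2, mul_assoc, huq, mul_zero]
  have z1 : e2 * e1 = 0 := by
    calc e2 * e1 = w * (u * u) * w := by simp only [he1, he2, mul_assoc]
      _ = 0 := by rw [F.left.sq]; simp
  have z2 : e1 * e2 = 0 := by
    calc e1 * e2 = u * (w * w) * u := by simp only [he1, he2, mul_assoc]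
      _ = 0 := by rw [F.right.sq]; simp
  have i1 : e1 * e1 = e1 := by rw [he1, ← mul_assoc, F.axa]
  have i2 : e2 * e2 = e2 := by rw [he2, ← mul_assoc, F.xax]
  have i0 : f * f = f := F.e0_sq
  have z3 : e1 * f = 0 := by
    rw [he1, mul_assoc, hf, ← Frame.e0_swap, F.symm.mul_e0 (InL.refl F.right.tame), mul_zero]
  have z4 : f * e1 = 0 := by rw [he1, ← mul_assoc, hf, F.e0_mul (InL.refl F.left.tame), zero_mul]
  have z5 : e2 * f = 0 := by rw [he2, mul_assoc, hf, F.mul_e0 (InL.refl F.left.tame), mul_zero]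
  have z6 : f * e2 = 0 := by
    rw [he2, ← mul_assoc, hf, ← Frame.e0_swap, F.symm.e0_mul (InL.refl F.right.tame), zero_mul]
  have hfu : f * u = 0 := F.e0_mul (InL.refl F.left.tame)
  have qfq : q * f * q = 0 := by
    rw [hf, e0, ← he1, ← he2]
    simp only [mul_sub, sub_mul, mul_one, q1, zero_mul, mul_assoc q e2 q, q2, mul_zero, hq.sq, sub_zero]
  set Q := e1 * q * e2 with hQdef
  set P := e1 * q * f + f * q * e2 with hPdef
  set r := f * q * f with hrdef
  have hdec : q = Q + P + r := by
    have e : (e1 + e2 + f : End') = 1 := by rw [hf, e0, ← he1, ← he2]; abel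
    calc q = (e1 + e2 + f) * q * (e1 + e2 + f) := by rw [e, one_mul, mul_one]
      _ = Q + P + r := by
        simp only [hQdef, hPdef, hrdef, add_mul, mul_add, mul_assoc e1 q e1, mul_assoc f q e1, q1, mul_zero, q2,
          zero_mul, zero_add, add_zero]
        abel
  -- products
  have QP : Q * P = 0 := by
    simp only [hQdef, hPdef, mul_add, mul_assoc, ← mul_assoc e2 e1, ← mul_assoc e2 f, z1, z5, zero_mul, mul_zero,
      add_zero]
  have Qr : Q * r = 0 := by
    simp only [hQdef, hrdef, mul_assoc, ← mul_assoc e2 f, z5, zero_mul, mul_zero]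
  have rQ : r * Q = 0 := by
    simp only [hQdef, hrdef, mul_assoc, ← mul_assoc f e1, z4, zero_mul, mul_zero]
  have QQ : Q * Q = 0 := by
    simp only [hQdef, mul_assoc, ← mul_assoc e2 e1, z1, zero_mul, mul_zero]
  have qfq' : q * (f * q) = 0 := by rw [← mul_assoc]; exact qfq
  have kq : ∀ t, q * (f * (q * t)) = 0 := fun t => by
    rw [← mul_assoc f, ← mul_assoc, qfq', zero_mul]
  have rr : r * r = 0 := by
    simp only [hrdef, mul_assoc, ← mul_assoc f f, i0, kq, mul_zero]
  have Pr : P * r = 0 := by
    simp only [hPdef, hrdef, add_mul, mul_assoc, ← mul_assoc e2 f, z5, zero_mul, mul_zero, add_zero,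
      ← mul_assoc f f, i0, kq]
  -- the torus
  have hL : ∀ {e : k}, uu (e • u) (F.left.tame.smul e).sq ∈ X := fun {e} =>
    hRu (uu_mem_RS hd F.left ((InL.refl F.left.tame).smul e))
  have hR : ∀ {e : k}, uu (e • w) (F.right.tame.smul e).sq ∈ X := fun {e} =>
    hRw (uu_mem_RS hd F.right ((InL.refl F.right.tame).smul e))
  have hXG : X ≤ G := GG_le hs fun _ h => h.1
  have hT : ∀ (c : k) (hc : c ≠ 0), (F.scale hc).swapper * F.swapper⁻¹ ∈ X := fun c hc =>
    mul_mem ((F.scale hc).swapper_mem_closed hL hR) (inv_mem (sup_le hRu hRw (F.swapper_mem hd)))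
  have conj : ∀ (c : k) (hc : c ≠ 0), ∀ s t v : k,
      (((F.scale hc).swapper * F.swapper⁻¹ : GL') : End') * (s • Q + t • P + v • r) *
        ((((F.scale hc).swapper * F.swapper⁻¹)⁻¹ : GL') : End') =
      (c * c * s) • Q + (c * t) • P + v • r := by
    intro c hc s t v
    obtain ⟨v1, v2⟩ := F.exists_torus_scalar hc
    rw [v1, v2, ← he1, ← he2, ← hf, hQdef, hPdef, hrdef]
    simp only [add_mul, mul_add, smul_mul_assoc, mul_smul_comm, ← mul_assoc, i1, i2, i0, z1, z2, z3, z4, z5, z6,
      zero_mul, smul_zero, add_zero, zero_add]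
    simp only [mul_assoc, i1, i2, i0, z1, z2, z3, z4, z5, z6, mul_zero, smul_zero, add_zero, zero_add, smul_add,
      smul_smul]
    module
  have hconjTame : ∀ (c : k) (hc : c ≠ 0) {y : End'}, Tame G y →
      Tame G ((((F.scale hc).swapper * F.swapper⁻¹ : GL') : End') * y *
        ((((F.scale hc).swapper * F.swapper⁻¹)⁻¹ : GL') : End')) := fun c hc y hy =>
    hy.conjUnit (hXG (hT c hc))
  have hqi : Tame G (Q + -P + r) := by
    have := hconjTame (-1) (neg_ne_zero.2 one_ne_zero) hq
    rwa [show q = (1 : k) • Q + (1 : k) • P + (1 : k) • r by simp only [one_smul, ← hdec], conj _ (neg_ne_zero.2 one_ne_zero),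
      show ((-1 : k) * -1 * 1) = 1 by ring, show ((-1 : k) * 1) = -1 by ring, one_smul, one_smul,
      neg_smul, one_smul] at this
  have hι : Q + -P + r = (-e1 + -e2 + f) * q * (-e1 + -e2 + f) := by
    simp only [hQdef, hPdef, hrdef, add_mul, mul_add, neg_mul, mul_neg, neg_neg, mul_assoc e1 q e1,
      mul_assoc f q e1, q1, mul_zero, q2, zero_mul, zero_add, add_zero, neg_zero]
    abel
  have qιq : q * (-e1 + -e2 + f) * q = 0 := by
    simp only [mul_add, mul_neg, add_mul, neg_mul, q1, zero_mul, mul_assoc q e2 q, q2, mul_zero, qfq, neg_zero,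
      add_zero]
  have p1 : q * (Q + -P + r) = 0 := by rw [hι, ← mul_assoc, ← mul_assoc, qιq, zero_mul]
  have p2 : (Q + -P + r) * q = 0 := by rw [hι, mul_assoc, mul_assoc, ← mul_assoc q, qιq, mul_zero]
  have h2 := hd.two
  have hQr : Tame G (Q + r) := by
    have := (hq.add hqi p1 p2).smul (2⁻¹ : k)
    rwa [show q + (Q + -P + r) = (2 : k) • (Q + r) by conv_lhs => arg 1; rw [hdec]
                                                      module,
      smul_smul, inv_mul_cancel₀ h2, one_smul] at this
  have hP : Tame G P := by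
    have := (hq.add hqi.neg (by rw [mul_neg, p1, neg_zero]) (by rw [neg_mul, p2, neg_zero])).smul (2⁻¹ : k)
    rwa [show q + -(Q + -P + r) = (2 : k) • P by conv_lhs => arg 1; rw [hdec]
                                                 module,
      smul_smul, inv_mul_cancel₀ h2, one_smul] at this
  obtain ⟨c, hc, hc1⟩ := exists_good_scalar h2 hd.three
  have hne : c * c - 1 ≠ 0 := by rw [← pow_two]; exact sub_ne_zero.2 hc1
  have hQt : Tame G Q := by
    have h := hconjTame c hc hQr
    rw [show Q + r = (1 : k) • Q + (0 : k) • P + (1 : k) • r by simp, conj _ hc, mul_one, mul_zero, zero_smul,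
      add_zero, one_smul] at h
    have := (h.add hQr.neg (by
      simp only [add_mul, mul_add, neg_mul, mul_neg, smul_mul_assoc, Qr, rQ, QQ, rr, smul_zero, add_zero, neg_zero])
      (by
      simp only [add_mul, mul_add, neg_mul, mul_neg, mul_smul_comm, Qr, rQ, QQ, rr, smul_zero, add_zero,
        neg_zero])).smul (c * c - 1)⁻¹
    rwa [show (c * c) • Q + r + -(Q + r) = (c * c - 1) • Q by rw [sub_smul, one_smul]; abel, smul_smul,
      inv_mul_cancel₀ hne, one_smul] at this
  have hr : Tame G r := by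
    have := hQr.add hQt.neg (by rw [mul_neg, add_mul, QQ, rQ]; simp) (by rw [neg_mul, mul_add, QQ, Qr]; simp)
    rwa [show Q + r + -Q = r by abel] at this
  have hQX : uu Q hQt.sq ∈ X := hRu (uu_mem_RS hd F.left ⟨hQt, by
    rw [hQdef, he1, mul_assoc, mul_assoc]; exact LinearMap.range_comp_le_range _ _, by
    rw [hQdef, he2, ← mul_assoc]; exact LinearMap.ker_le_ker_comp _ _⟩)
  have hPX : uu P hP.sq ∈ X := by
    have hc' : c - 1 ≠ 0 := sub_ne_zero.2 fun e => hc1 (by rw [e, one_pow])
    set p' := uu ((c - 1)⁻¹ • P) (hP.smul _).sq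
    have hp' : p' ∈ G := uu_mem (hP.smul _)
    have hm : (F.scale hc).swapper * F.swapper⁻¹ *
        (p' * ((F.scale hc).swapper * F.swapper⁻¹)⁻¹ * p'⁻¹) ∈ X :=
      mul_mem (hT c hc) (conj_GG hss hs hgen hp' (inv_mem (hT c hc)))
    convert hm using 1
    rw [show (F.scale hc).swapper * F.swapper⁻¹ * (p' * ((F.scale hc).swapper * F.swapper⁻¹)⁻¹ * p'⁻¹) =
      (F.scale hc).swapper * F.swapper⁻¹ * p' * ((F.scale hc).swapper * F.swapper⁻¹)⁻¹ * p'⁻¹ by group]
    apply Units.ext
    rw [uu_val, val_eq ((F.scale hc).swapper * F.swapper⁻¹ * p' * _ * _), dev_mul, dev_conj,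
      dev_inv (by rw [dev_uu]; exact (hP.smul _).sq), dev_uu,
      show (c - 1)⁻¹ • P = (0 : k) • Q + (c - 1)⁻¹ • P + (0 : k) • r by simp, conj _ hc]
    congr 1
    simp only [mul_zero, zero_smul, zero_add, add_zero, smul_mul_assoc, mul_neg, mul_smul_comm, hP.sq, smul_zero,
      neg_zero, ← sub_eq_add_neg, ← sub_smul]
    rw [show c * (c - 1)⁻¹ - (c - 1)⁻¹ = 1 by field_simp, one_smul]
  refine ⟨hr, ?_⟩
  have e : uu q hq.sq = uu Q hQt.sq * uu P hP.sq * uu r hr.sq := by
    apply Units.ext
    simp only [Units.val_mul, uu_val, add_mul, mul_add, one_mul, mul_one, QP, Qr, Pr, zero_mul, add_zero]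
    conv_lhs => rw [hdec]
    abel
  rw [e, mul_inv_cancel_right]
  exact mul_mem hQX hPX

end Cfsg.Agent.QPair
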