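import Cfsg.Agent.QPair.Roots

/-! Unipotent pairs of root subgroups. -/

set_option autoImplicit false

namespace Cfsg.Agent.QPair

open Cfsg Cfsg.Agent.Quad

variable {k : Type*} [Field k] {M : Type*} [AddCommGroup M] [Module k M]

local notation "GL'" => LinearMap.GeneralLinearGroup k M
local notation "End'" => Module.End k M

variable {G H : Subgroup (LinearMap.GeneralLinearGroup k M)} {a b x y a' b' : Module.End k M} {d : ℕ}
  {σ τ g h : LinearMap.GeneralLinearGroup k M}

theorem comm_iff : g * h = h * g ↔ dev g * dev h = dev h * dev g := by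
  have e : ((g * h : GL') : End') - ((h * g : GL') : End') = dev g * dev h - dev h * dev g := by
    rw [Units.val_mul, Units.val_mul, val_eq g, val_eq h]
    simp only [add_mul, mul_add, one_mul, mul_one]
    abel
  constructor
  · intro h'; rw [h', sub_self] at e; exact sub_eq_zero.1 e.symm
  · intro h'; rw [h', sub_self, sub_eq_zero] at e; exact Units.ext e

theorem dev_mul (g h : GL') : dev (g * h) = dev g * dev h + dev g + dev h := by
  rw [show dev (g * h) = ((g : End') * (h : End')) - 1 from rfl, val_eq g, val_eq h]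
  simp only [add_mul, mul_add, one_mul, mul_one]
  abel

theorem dev_inv (h : dev g * dev g = 0) : dev g⁻¹ = -dev g := by
  rw [dev, inv_val h]; abel

theorem IsUnipotentOn.mono (hH : IsUnipotentOn H) {K : Subgroup GL'} (hK : K ≤ H) : IsUnipotentOn K := by
  obtain ⟨n, hn⟩ := hH
  exact ⟨n, fun l hl => hn l fun g hg => hK (hl g hg)⟩

theorem lift_eq_map (l : List GL') :
    ((do let u ← l; pure (u : End')) : List End') = l.map Units.val :=
  (map_eq_pure_bind Units.val l).symm

theorem prod_conv (l : List GL') :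
    (l.map fun u => (u : M →ₗ[k] M) - 1).prod = (l.map dev).prod := by
  rw [lift_eq_map, List.map_map]; rfl

theorem nilpotent_of_unipotent (hH : IsUnipotentOn H) (hg : g ∈ H) (hh : h ∈ H) :
    IsNilpotent (dev g * dev h) := by
  obtain ⟨n, hn⟩ := hH
  simp only [prod_conv] at hn
  refine ⟨n, ?_⟩
  have key : ∀ m, ∃ l : List GL', (∀ u ∈ l, u ∈ H) ∧ l.length = 2 * m ∧
      (l.map dev).prod = (dev g * dev h) ^ m := by
    intro m
    induction m with
    | zero => exact ⟨[], by simp, rfl, by simp⟩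
    | succ m ih =>
      obtain ⟨l, hl, hlen, e⟩ := ih
      refine ⟨g :: h :: l, ?_, by simp [hlen]; omega, ?_⟩
      · intro u hu; simp at hu; rcases hu with rfl | rfl | hu
        exacts [hg, hh, hl u hu]
      · rw [List.map_cons, List.map_cons, List.prod_cons, List.prod_cons, e, pow_succ', ← mul_assoc]
  obtain ⟨l, hl, hlen, e⟩ := key n
  rw [← e, ← List.take_append_drop n l, List.map_append, List.prod_append,
    hn (l.take n) (fun u hu => hl u (List.mem_of_mem_take hu)) (by rw [List.length_take]; omega), zero_mul]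

/-- first layer -/
def N1 (G : Subgroup GL') (a b : End') : Submodule k End' :=
  Submodule.span k ({x | InL G a x} ∪ {x | InL G b x} ∪
    {x | ∃ a' b', InL G a a' ∧ InL G b b' ∧ (x = a' * b' ∨ x = b' * a')})

/-- second layer -/
def N2 (G : Subgroup GL') (a b : End') : Submodule k End' :=
  Submodule.span k {x | ∃ a' b', InL G a a' ∧ InL G b b' ∧ (x = a' * b' ∨ x = b' * a')}

theorem N2_le : N2 G a b ≤ N1 G a b := Submodule.span_mono Set.subset_union_right

theorem span_mul_mem {S T : Set End'} {P : Submodule k End'} (h : ∀ u ∈ S, ∀ v ∈ T, u * v ∈ P) :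
    ∀ u ∈ Submodule.span k S, ∀ v ∈ Submodule.span k T, u * v ∈ P := by
  intro u hu v hv
  induction hu using Submodule.span_induction with
  | zero => simp
  | add p q _ _ hp hq => rw [add_mul]; exact add_mem hp hq
  | smul c p _ hp => rw [smul_mul_assoc]; exact Submodule.smul_mem _ c hp
  | mem p hp =>
    induction hv using Submodule.span_induction with
    | zero => simp
    | add r s _ _ hr hs => rw [mul_add]; exact add_mem hr hs
    | smul c r _ hr => rw [mul_smul_comm]; exact Submodule.smul_mem _ c hr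
    | mem r hr => exact h p hp r hr

variable [FiniteDimensional k M]

/-- the nilpotent pair hypothesis -/
structure NilPair (G : Subgroup GL') (d : ℕ) (a b : End') : Prop where
  deg : Deg G d
  left : Root G d a
  right : Root G d b
  nil : a * b * a = 0

namespace NilPair

variable (P : NilPair G d a b)
include P

theorem symm : NilPair G d b a := ⟨P.deg, P.right, P.left, bab_of_aba P.deg P.left P.right P.nil⟩

theorem t1 {a'' : End'} (ha : InL G a a') (hb : InL G b b') (ha' : InL G a a'') : a' * (b' * a'') = 0 := by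
  rw [← mul_assoc]; exact nil_all P.deg P.left P.right P.nil ha ha' hb

theorem t2 {b'' : End'} (ha : InL G a a') (hb : InL G b b') (hb' : InL G b b'') : b' * (a' * b'') = 0 := by
  rw [← mul_assoc]; exact nil_all' P.deg P.left P.right P.nil ha hb hb'

theorem aa (ha : InL G a a') {a'' : End'} (ha' : InL G a a'') : a' * a'' = 0 := ha.mul_zero P.left.sq ha'
theorem bb (hb : InL G b b') {b'' : End'} (hb' : InL G b b'') : b' * b'' = 0 := hb.mul_zero P.right.sq hb'

theorem N1_mul {u v : End'} (hu : u ∈ N1 G a b) (hv : v ∈ N1 G a b) : u * v ∈ N2 G a b := by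
  refine span_mul_mem (fun p hp r hr => ?_) u hu v hv
  rcases hp with (hp | hp) | ⟨p1, p2, hp1, hp2, rfl | rfl⟩ <;>
    rcases hr with (hr | hr) | ⟨r1, r2, hr1, hr2, rfl | rfl⟩
  all_goals try simp only [mul_assoc]
  · rw [P.aa hp hr]; exact zero_mem _
  · exact Submodule.subset_span ⟨p, r, hp, hr, Or.inl rfl⟩
  · rw [← mul_assoc, P.aa hp hr1, zero_mul]; exact zero_mem _
  · rw [P.t1 hp hr2 hr1]; exact zero_mem _
  · exact Submodule.subset_span ⟨r, p, hr, hp, Or.inr rfl⟩
  · rw [P.bb hp hr]; exact zero_mem _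
  · rw [P.t2 hr1 hp hr2]; exact zero_mem _
  · rw [← mul_assoc, P.bb hp hr2, zero_mul]; exact zero_mem _
  · rw [P.t1 hp1 hp2 hr]; exact zero_mem _
  · rw [P.bb hp2 hr, mul_zero]; exact zero_mem _
  · rw [← mul_assoc p2, ← mul_assoc, P.t1 hp1 hp2 hr1, zero_mul]; exact zero_mem _
  · rw [← mul_assoc p2, P.bb hp2 hr2, zero_mul, mul_zero]; exact zero_mem _
  · rw [P.aa hp1 hr, mul_zero]; exact zero_mem _
  · rw [P.t2 hp1 hp2 hr]; exact zero_mem _
  · rw [← mul_assoc p1, P.aa hp1 hr1, zero_mul, mul_zero]; exact zero_mem _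
  · rw [← mul_assoc p1, ← mul_assoc, P.t2 hp1 hp2 hr2, zero_mul]; exact zero_mem _

theorem N2_mul {u v : End'} (hu : u ∈ N2 G a b) (hv : v ∈ N1 G a b) : u * v = 0 := by
  rw [← Submodule.mem_bot k]
  refine span_mul_mem (fun p hp r hr => ?_) u hu v hv
  rw [Submodule.mem_bot]
  rcases hp with ⟨p1, p2, hp1, hp2, rfl | rfl⟩ <;>
    rcases hr with (hr | hr) | ⟨r1, r2, hr1, hr2, rfl | rfl⟩
  all_goals simp only [mul_assoc]
  · rw [P.t1 hp1 hp2 hr]
  · rw [P.bb hp2 hr, mul_zero]
  · rw [← mul_assoc p2, ← mul_assoc, P.t1 hp1 hp2 hr1, zero_mul]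
  · rw [← mul_assoc p2, P.bb hp2 hr2, zero_mul, mul_zero]
  · rw [P.aa hp1 hr, mul_zero]
  · rw [P.t2 hp1 hp2 hr]
  · rw [← mul_assoc p1, P.aa hp1 hr1, zero_mul, mul_zero]
  · rw [← mul_assoc p1, ← mul_assoc, P.t2 hp1 hp2 hr2, zero_mul]

theorem mul_N2 {u v : End'} (hu : u ∈ N1 G a b) (hv : v ∈ N2 G a b) : u * v = 0 := by
  rw [← Submodule.mem_bot k]
  refine span_mul_mem (fun r hr p hp => ?_) u hu v hv
  rw [Submodule.mem_bot]
  rcases hp with ⟨p1, p2, hp1, hp2, rfl | rfl⟩ <;>
    rcases hr with (hr | hr) | ⟨r1, r2, hr1, hr2, rfl | rfl⟩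
  · rw [← mul_assoc, P.aa hr hp1, zero_mul]
  · rw [P.t2 hp1 hr hp2]
  · rw [mul_assoc, P.t2 hp1 hr2 hp2, mul_zero]
  · rw [mul_assoc, ← mul_assoc r1, P.aa hr1 hp1, zero_mul, mul_zero]
  · rw [P.t1 hr hp2 hp1]
  · rw [← mul_assoc, P.bb hr hp2, zero_mul]
  · rw [mul_assoc, ← mul_assoc r2, P.bb hr2 hp2, zero_mul, mul_zero]
  · rw [mul_assoc, P.t1 hr1 hp2 hp1, mul_zero]

theorem dev_mem (hg : g ∈ RS G a P.left.sq ⊔ RS G b P.right.sq) : dev g ∈ N1 G a b := by
  rw [Subgroup.sup_eq_closure] at hg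
  induction hg using Subgroup.closure_induction'' with
  | one => rw [dev_one]; exact zero_mem _
  | mem u hu =>
    rcases hu with hu | hu
    · exact Submodule.subset_span (Or.inl (Or.inl ((mem_RS P.deg P.left).1 hu)))
    · exact Submodule.subset_span (Or.inl (Or.inr ((mem_RS P.deg P.right).1 hu)))
  | inv_mem u hu =>
    rcases hu with hu | hu
    · exact Submodule.subset_span (Or.inl (Or.inl ((mem_RS P.deg P.left).1 (inv_mem hu))))
    · exact Submodule.subset_span (Or.inl (Or.inr ((mem_RS P.deg P.right).1 (inv_mem hu))))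
  | mul u v _ _ iu iv =>
    rw [dev_mul]
    exact add_mem (add_mem (N2_le (P.N1_mul iu iv)) iu) iv

theorem unipotent : IsUnipotentOn (RS G a P.left.sq ⊔ RS G b P.right.sq) := by
  refine ⟨3, fun l hl hlen => ?_⟩
  obtain ⟨u, v, w, rfl⟩ := List.length_eq_three.1 hlen
  rw [prod_conv]
  simp only [List.map_cons, List.map_nil, List.prod_cons, List.prod_nil, mul_one]
  exact P.mul_N2 (P.dev_mem (hl u (by simp)))
    (P.N1_mul (P.dev_mem (hl v (by simp))) (P.dev_mem (hl w (by simp))))

end NilPair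

theorem aba_of_unipotent (hd : Deg G d) (ha : Root G d a) (hb : Root G d b)
    (hu : IsUnipotentOn (RS G a ha.sq ⊔ RS G b hb.sq)) : a * b * a = 0 := by
  have := nilpotent_of_unipotent hu (Subgroup.mem_sup_left (uu_mem_RS hd ha (InL.refl ha.tame)))
    (Subgroup.mem_sup_right (uu_mem_RS hd hb (InL.refl hb.tame)))
  rw [dev_uu, dev_uu] at this
  exact (nil_pair hd ha hb this).1

theorem commutator_RS (hd : Deg G d) (ha : Root G d a) (hb : Root G d b) (hc : a * b = b * a) :
    ⁅RS G a ha.sq, RS G b hb.sq⁆ = ⊥ := by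
  rw [Subgroup.commutator_eq_bot_iff_le_centralizer]
  intro g hg
  rw [Subgroup.mem_centralizer_iff]
  intro h hh
  exact (comm_iff.2 (comm_all hd ha hb hc ((mem_RS hd ha).1 hg) ((mem_RS hd hb).1 hh))).symm

end Cfsg.Agent.QPair
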